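/-
The special unitary group in dimension three seen from a hyperbolic pair.
-/
import Mathlib
import Cfsg.Agent.MinU.Base
import Cfsg.Agent.MinU.Mixed
import Cfsg.Agent.Classical.USimple

set_option autoImplicit false
set_option linter.unusedSectionVars false

namespace Cfsg.Agent.MinU3

open Cfsg.Agent.Classical.U Cfsg.Agent.MinU

universe u v

variable {F : Type u} [Field F] {q : ℕ}

/-- A scalar as a vector with one coordinate. -/
def wv (x : F) : Fin 1 → F := fun _ => x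

@[simp] theorem wv_apply (x : F) (i : Fin 1) : wv x i = x := rfl

theorem eq_wv (w : Fin 1 → F) : w = wv (w 0) := funext fun i => by rw [Subsingleton.elim i 0]; rfl

theorem wv_smul (c x : F) : c • wv x = wv (c * x) := rfl

theorem herm_one (v w : Fin 1 → F) : herm q v w = v 0 * w 0 ^ q := by
  simp [herm_def]

/-- A parameter of the radical from its parts. -/
def mkH (w : Fin 1 → F) (a : F) (h : a + a ^ q + herm q w w = 0) : Heis 1 F q := ⟨(w, a), h⟩

@[simp] theorem mkH_fst (w : Fin 1 → F) (a : F) (h : a + a ^ q + herm q w w = 0) :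
    (mkH w a h).1.1 = w := rfl

@[simp] theorem mkH_snd (w : Fin 1 → F) (a : F) (h : a + a ^ q + herm q w w = 0) :
    (mkH w a h).1.2 = a := rfl

variable (hF : SqField F q)
include hF

/-- The determinant of an element in dimension one is its factor. -/
theorem UG_one_apply (g : UG 1 F q) (w : Fin 1 → F) :
    g.1 w = (LinearEquiv.det g.1 : F) • w := by
  set c := g.1 (wv 1) 0
  have h : ∀ w : Fin 1 → F, g.1 w = c • w := fun w => by
    have e : w = w 0 • wv 1 := by rw [wv_smul, mul_one]; exact eq_wv w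
    conv_lhs => rw [e, map_smul, eq_wv (g.1 (wv 1))]
    conv_rhs => rw [e]
    rw [smul_comm]
    simp [c, wv_smul]
  rw [det_scalar g.1 h, pow_one]
  exact h w

/-- The scalings of the pair, completed to determinant one. -/
noncomputable def lv (l : F) (hl : l ≠ 0) : SG 1 F q :=
  lev hF hl (exists_det_lev hF le_rfl hl).choose (exists_det_lev hF le_rfl hl).choose_spec

theorem lev_eq_lv {l : F} (hl : l ≠ 0) (g : UG 1 F q)
    (hd : (LinearEquiv.det g.1 : F) = l ^ q * l⁻¹) : lev hF hl g hd = lv hF l hl := by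
  refine SG_ext hF fun ⟨⟨x, y⟩, z⟩ => ?_
  rw [lv, lev_apply, lev_apply, UG_one_apply hF g, UG_one_apply hF _, hd,
    (exists_det_lev hF le_rfl hl).choose_spec]

theorem lv_apply (l : F) (hl : l ≠ 0) (x y : F) (z : Fin 1 → F) :
    (lv hF l hl).1.1 (ph hF 1 ((x, y), z)) =
      ph hF 1 ((l * x, (l ^ q)⁻¹ * y), (l ^ q * l⁻¹) • z) := by
  rw [lv, lev_apply, UG_one_apply hF _, (exists_det_lev hF le_rfl hl).choose_spec]

theorem lv_congr {l l' : F} (hl : l ≠ 0) (hl' : l' ≠ 0) (e : l = l') :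
    lv hF l hl = lv hF l' hl' := by subst e; rfl

theorem lv_one : lv hF (1 : F) one_ne_zero = 1 :=
  SG_ext hF fun ⟨⟨x, y⟩, z⟩ => by simp [lv_apply]

theorem lv_mul {l l' : F} (hl : l ≠ 0) (hl' : l' ≠ 0) :
    lv hF l hl * lv hF l' hl' = lv hF (l * l') (mul_ne_zero hl hl') := by
  refine SG_ext hF fun ⟨⟨x, y⟩, z⟩ => ?_
  simp only [Subgroup.coe_mul, LinearEquiv.mul_apply, lv_apply, smul_smul]
  congr 1
  refine Prod.ext (Prod.ext ?_ ?_) ?_
  · exact (mul_assoc _ _ _).symm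
  · simp only [mul_pow, mul_inv]; ring
  · dsimp only
    congr 1
    simp only [mul_pow, mul_inv]; ring

theorem lv_inv {l : F} (hl : l ≠ 0) : (lv hF l hl)⁻¹ = lv hF l⁻¹ (inv_ne_zero hl) :=
  inv_eq_of_mul_eq_one_right (by
    rw [lv_mul, lv_congr hF _ one_ne_zero (mul_inv_cancel₀ hl), lv_one])

theorem lv_pow {l : F} (hl : l ≠ 0) : ∀ k : ℕ, lv hF l hl ^ k = lv hF (l ^ k) (pow_ne_zero k hl)
  | 0 => by rw [pow_zero, lv_congr hF (pow_ne_zero 0 hl) one_ne_zero (pow_zero l), lv_one]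
  | k + 1 => by rw [pow_succ, lv_pow hl k, lv_mul, lv_congr hF _ _ (pow_succ l k).symm]

theorem lv_injective {l l' : F} (hl : l ≠ 0) (hl' : l' ≠ 0) (h : lv hF l hl = lv hF l' hl') :
    l = l' := by
  have e := congrArg (fun g : SG 1 F q => (ph hF 1).symm (g.1.1 (ph hF 1 ((1, 0), 0)))) h
  simp only [lv_apply, LinearEquiv.symm_apply_apply, Prod.mk.injEq, mul_one] at e
  exact e.1.1

/-- The action of a scaling on the parameters. -/
theorem lv_tE {l : F} (hl : l ≠ 0) (p : Heis 1 F q) :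
    ∃ p' : Heis 1 F q, lv hF l hl * tE hF p = tE hF p' * lv hF l hl ∧
      p'.1.1 0 = l ^ q * (l ^ q * l⁻¹) * p.1.1 0 ∧ p'.1.2 = l * l ^ q * p.1.2 := by
  refine ⟨_, lev_tE hF hl _ _ p, ?_, rfl⟩
  simp only [hLev, UG_one_apply hF _, (exists_det_lev hF le_rfl hl).choose_spec, smul_smul,
    Pi.smul_apply, smul_eq_mul]

/-- The stabiliser of the first isotropic line. -/
theorem exists_tE_lv {g : SG 1 F q} {l : F} (hg : g.1.1 (eV hF 1) = l • eV hF 1) :
    ∃ (p : Heis 1 F q) (hl : l ≠ 0), g = tE hF p * lv hF l hl := by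
  have hl : l ≠ 0 := by
    rintro rfl
    rw [zero_smul, map_eq_zero_iff _ g.1.1.injective] at hg
    exact (pair_spec hF).1.ne_zero hg
  obtain ⟨⟨⟨r, b⟩, z⟩, hz⟩ := (ph hF 1).surjective (g.1.1 (fV hF 1))
  have hlq := pow_ne_zero q hl
  have hb : b = (l ^ q)⁻¹ := by
    have h1 : herm q (g.1.1 (fV hF 1)) (g.1.1 (eV hF 1)) = 1 := by rw [UG_app, h_fe]
    rw [hg, ← hz, ← ph_eV hF, ← map_smul, herm_ph] at h1
    simp only [Prod.smul_fst, Prod.smul_snd, smul_eq_mul, mul_one, mul_zero, smul_zero,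
      zero_pow hF.q_ne_zero, hF.herm_zero_right, zero_add, add_zero] at h1
    exact eq_inv_of_mul_eq_one_left h1
  have hb0 : b ≠ 0 := by rw [hb]; exact inv_ne_zero hlq
  have hiso : r * b ^ q + b * r ^ q + herm q z z = 0 := by
    have h1 : herm q (g.1.1 (fV hF 1)) (g.1.1 (fV hF 1)) = 0 := by rw [UG_app, h_ff]
    rwa [← hz, herm_ph] at h1
  have hbq : b ^ q = l⁻¹ := by rw [hb, inv_pow, hF.pow_pow]
  have hcond : r / b + (r / b) ^ q + herm q (b⁻¹ • z) (b⁻¹ • z) = 0 := by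
    rw [herm_smul_left, herm_smul_right, div_pow, inv_pow]
    have := pow_ne_zero q hb0
    field_simp
    linear_combination hiso
  refine ⟨mkH (b⁻¹ • z) (r / b) hcond, hl, ?_⟩
  set t := tE hF (mkH (b⁻¹ • z) (r / b) hcond) * lv hF l hl with ht
  have he : t.1.1 (eV hF 1) = l • eV hF 1 := by
    rw [ht, Subgroup.coe_mul, Subgroup.coe_mul, LinearEquiv.mul_apply]
    conv_lhs => rw [← ph_eV hF, lv_apply, tE_apply]
    conv_rhs => rw [← ph_eV hF, ← map_smul]
    simp
  have hf : t.1.1 (fV hF 1) = g.1.1 (fV hF 1) := by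
    rw [ht, Subgroup.coe_mul, Subgroup.coe_mul, LinearEquiv.mul_apply]
    conv_lhs => rw [← ph_fV hF, lv_apply, tE_apply]
    rw [← hz, ← hb]
    congr 1
    refine Prod.ext (Prod.ext ?_ ?_) ?_
    · simp [herm_zero_left, div_mul_cancel₀ _ hb0]
    · simp
    · simp [smul_smul, mul_inv_cancel₀ hb0]
  set k := t⁻¹ * g with hk
  have hgk : g = t * k := by rw [hk, mul_inv_cancel_left]
  have ke : k.1.1 (eV hF 1) = eV hF 1 := t.1.1.injective (by
    rw [← LinearEquiv.mul_apply, ← Subgroup.coe_mul, ← Subgroup.coe_mul, ← hgk, hg, he])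
  have kf : k.1.1 (fV hF 1) = fV hF 1 := t.1.1.injective (by
    rw [← LinearEquiv.mul_apply, ← Subgroup.coe_mul, ← Subgroup.coe_mul, ← hgk, hf])
  obtain ⟨⟨⟨a', b'⟩, z'⟩, hz'⟩ := (ph hF 1).surjective (k.1.1 (iW (wv 1)))
  have hb' : b' = 0 := by
    have h1 : herm q (k.1.1 (iW (wv 1))) (k.1.1 (eV hF 1)) = 0 := by rw [UG_app, h_we]
    rw [ke, ← hz', ← ph_eV hF, herm_ph] at h1
    simpa [hF.q_ne_zero, hF.herm_zero_right] using h1
  have ha' : a' = 0 := by
    have h1 : herm q (k.1.1 (iW (wv 1))) (k.1.1 (fV hF 1)) = 0 := by rw [UG_app, h_wf]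
    rw [kf, ← hz', ← ph_fV hF, herm_ph] at h1
    simpa [hF.q_ne_zero, hF.herm_zero_right] using h1
  subst ha' hb'
  have hc : ∀ x y : F, ∀ w : Fin 1 → F,
      k.1.1 (ph hF 1 ((x, y), w)) = ph hF 1 ((x, y), z' 0 • w) := fun x y w => by
    have e1 : iW w = w 0 • (iW (wv 1) : Fin 3 → F) := by
      rw [← iW_smul, wv_smul, mul_one, ← eq_wv]
    rw [ph_apply, ph_apply, map_add, map_add, map_smul, map_smul, ke, kf, e1, map_smul, ← hz',
      ph_iW, ← iW_smul]
    congr 2
    funext i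
    rw [Subsingleton.elim i 0]
    simp [mul_comm]
  have hk1 : k = 1 := by
    have hn : z' 0 ^ (q + 1) = 1 := by
      have h1 : herm q (k.1.1 (iW (wv 1))) (k.1.1 (iW (wv 1))) = 1 := by
        rw [UG_app, herm_iW _ _ hF.q_ne_zero, herm_one]; simp
      rw [← hz', herm_ph, herm_one] at h1
      simpa [hF.q_ne_zero, pow_succ'] using h1
    have hne : z' 0 ≠ 0 := fun h => by rw [h, zero_pow (Nat.succ_ne_zero q)] at hn; simp at hn
    let s : UG 1 F q := ⟨LinearEquiv.smulOfNeZero F (Fin 1 → F) (z' 0) hne, fun u v => by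
      change herm q (z' 0 • u) (z' 0 • v) = _
      rw [herm_smul_left, herm_smul_right, ← mul_assoc, ← pow_succ', hn, one_mul]⟩
    have e : k.1.1 = levLin hF one_ne_zero s := LinearEquiv.ext fun v => by
      obtain ⟨⟨⟨x, y⟩, w⟩, rfl⟩ := (ph hF 1).surjective v
      rw [hc, levLin_apply]
      simp [s]
    have hd := mem_SUG.1 k.2
    rw [e] at hd
    have hd' := congrArg Units.val hd
    rw [det_levLin, det_scalar (c := z' 0) s.1 (fun v => rfl)] at hd'
    simp only [one_pow, inv_one, mul_one, one_mul, pow_one, Units.val_one] at hd'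
    exact SG_ext hF fun ⟨⟨x, y⟩, w⟩ => by rw [hc, hd']; simp
  rw [hgk, hk1, mul_one]

theorem card_SG_one : Nat.card (SG 1 F q) = q ^ 3 * (q ^ 3 + 1) * (q ^ 2 - 1) := by
  have h := card_SUG hF (n := 1 + 2) (by norm_num)
  rw [card_UG hF (1 + 2)] at h
  have h2 : (∏ i ∈ Finset.range 3, (if Even i then q ^ (i + 1) + 1 else q ^ (i + 1) - 1)) =
      (q + 1) * ((q ^ 2 - 1) * (q ^ 3 + 1)) := by
    simp [Finset.prod_range_succ, parity_simps]
    ring
  rw [h2] at h
  refine Nat.eq_of_mul_eq_mul_left (Nat.succ_pos q) ?_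
  change (q + 1) * _ = (q + 1) * _
  rw [h]
  norm_num
  ring

end Cfsg.Agent.MinU3
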