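/-
Invariant sets of isotropic vectors of a stabiliser, and whole transvection groups.
-/
import Mathlib
import Cfsg.Agent.MinU3.Basic
import Cfsg.Agent.MinU.Full

set_option autoImplicit false
set_option linter.unusedSectionVars false

namespace Cfsg.Agent.MinU3

open Cfsg.Agent.Classical.U Cfsg.Agent.MinU Module

universe u v

variable {F : Type u} [Field F] {q : ℕ}
variable (hF : SqField F q)
include hF

/-- Two independent isotropic vectors are not orthogonal. -/
theorem herm_ne_zero_of_li {u v : Fin (1 + 2) → F} (hu : herm q u u = 0) (hv : herm q v v = 0)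
    (h : LinearIndependent F ![u, v]) : herm q u v ≠ 0 := by
  intro huv
  have hti : ∀ a ∈ Submodule.span F (Set.range ![u, v]),
      ∀ b ∈ Submodule.span F (Set.range ![u, v]), herm q a b = 0 := by
    refine ti_span hF ?_
    rintro _ ⟨i, rfl⟩ _ ⟨j, rfl⟩
    fin_cases i <;> fin_cases j <;> simp [hu, hv, huv, Forms.herm_comm_zero hF huv]
  have := two_finrank_le hF _ hti
  rw [finrank_span_eq_card h, Fintype.card_fin] at this
  omega

theorem herm_ne_zero_of_ne {u v : Fin (1 + 2) → F} (hu0 : u ≠ 0) (hu : herm q u u = 0)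
    (hv : herm q v v = 0) (h : ∀ c : F, c • u ≠ v) : herm q u v ≠ 0 :=
  herm_ne_zero_of_li hF hu hv (by rw [LinearIndependent.pair_iff' hu0]; exact h)

theorem mapL_mapL (g h : SG 1 F q) (L : Submodule F (Fin (1 + 2) → F)) :
    mapL g (mapL h L) = mapL (g * h) L := by
  rw [mapL, mapL, mapL, ← Submodule.map_comp]
  rfl

variable {X : Type v} [UAct F q X 1] [Finite X]

/-- An invariant line gives many points. -/
theorem card_orbit_le (y : X) (L₀ : Submodule F (Fin (1 + 2) → F))
    (hinv : ∀ g : SG 1 F q, g • y = y → mapL g L₀ = L₀)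
    (S : Set (Submodule F (Fin (1 + 2) → F)))
    (htr : ∀ L ∈ S, ∃ g : SG 1 F q, mapL g L₀ = L) : Nat.card S ≤ Nat.card X := by
  choose g hg using htr
  refine Nat.card_le_card_of_injective (fun L : S => g L.1 L.2 • y) fun L L' h => Subtype.ext ?_
  have h2 : ((g L.1 L.2)⁻¹ * g L'.1 L'.2) • y = y := by
    rw [mul_smul, inv_smul_eq_iff]
    exact h.symm
  have := congrArg (mapL (g L.1 L.2)) (hinv _ h2)
  rw [hg L.1 L.2, mapL_mapL hF, mul_inv_cancel_left, hg L'.1 L'.2] at this
  exact this.symm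

/-- The number of anisotropic lines. -/
theorem card_noniso_lines : q ^ 3 < Nat.card (linesOf {v : Fin (1 + 2) → F | herm q v v ≠ 0}) := by
  obtain ⟨hfin, -⟩ := id hF
  have hq := hF.one_lt
  have h := card_linesOf hF {v : Fin (1 + 2) → F | herm q v v ≠ 0}
    (fun v hv h0 => hv (by rw [h0, herm_zero_left]))
    (fun v hv c hc => by
      change herm q (c • v) (c • v) ≠ 0
      rw [herm_smul_left, herm_smul_right]
      exact mul_ne_zero hc (mul_ne_zero (pow_ne_zero _ hc) hv))
  have h2 := card_noniso hF (1 + 2)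
  rw [show isoN q (1 + 2) = q ^ 3 + 1 from isoN_three q] at h2
  change Nat.card {v : Fin (1 + 2) → F | herm q v v ≠ 0} + _ + _ = _ at h2
  rw [← h] at h2
  by_contra hle
  push Not at hle
  have h1 : (1 : ℕ) ≤ q ^ 2 := Nat.one_le_pow _ _ (by omega)
  have h3 := Nat.mul_le_mul_right (q ^ 2 - 1) hle
  zify [h1] at h2 h3
  have hq' : (2 : ℤ) ≤ q := by exact_mod_cast hq
  rw [show (q : ℤ) ^ (2 * (1 + 2)) = q ^ 6 from rfl] at h2
  nlinarith [mul_nonneg (pow_nonneg (show (0:ℤ) ≤ q by omega) 5) (sub_nonneg.2 hq'),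
    mul_pos (pow_pos (show (0:ℤ) < q by omega) 2) (show (0:ℤ) < 2 * q - 1 by omega)]

/-- An invariant set of isotropic vectors of a small action spans. -/
theorem exists_three (hX : Nat.card X ≤ q ^ 3) (y : X) (S : Set (Fin (1 + 2) → F))
    (hiso : ∀ v ∈ S, v ≠ 0 ∧ herm q v v = 0)
    (hinv : ∀ g : SG 1 F q, g • y = y → ∀ v ∈ S, g.1.1 v ∈ S) {v₁ : Fin (1 + 2) → F} (h₁ : v₁ ∈ S) :
    ∃ v₂ ∈ S, ∃ v₃ ∈ S, LinearIndependent F ![v₁, v₂] ∧
      v₃ ∉ Submodule.span F (Set.range ![v₁, v₂]) := by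
  obtain ⟨hfin, -⟩ := id hF
  by_cases hone : ∀ v ∈ S, ∃ c : F, c • v₁ = v
  · exfalso
    have h := card_orbit_le hF y (Submodule.span F {v₁}) (fun g hg => by
      obtain ⟨c, hc⟩ := hone _ (hinv g hg v₁ h₁)
      rw [mapL_span, ← hc]
      refine Submodule.span_singleton_smul_eq (IsUnit.mk0 _ ?_) _
      rintro rfl
      rw [zero_smul] at hc
      exact (hiso v₁ h₁).1 (g.1.1.injective (hc.symm.trans (map_zero _).symm)))
      (isoLines (1 + 2) F q) (by
      rintro _ ⟨v, ⟨hv, hv0⟩, rfl⟩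
      obtain ⟨g, c, hc, e⟩ := exists_SUG_line hF (hiso v₁ h₁).1 (hiso v₁ h₁).2 hv hv0
      exact ⟨g, by rw [mapL_span, e]; exact Submodule.span_singleton_smul_eq (IsUnit.mk0 _ hc) _⟩)
    rw [card_isoLines hF, show isoN q (1 + 2) = q ^ 3 + 1 from isoN_three q] at h
    omega
  push Not at hone
  obtain ⟨v₂, h₂, hne⟩ := hone
  have hli : LinearIndependent F ![v₁, v₂] := by
    rw [LinearIndependent.pair_iff' (hiso v₁ h₁).1]; exact hne
  refine ⟨v₂, h₂, ?_⟩
  by_contra hcon
  push Not at hcon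
  have hall : ∀ v ∈ S, v ∈ Submodule.span F (Set.range ![v₁, v₂]) := fun v hv => hcon v hv hli
  set W := Submodule.span F (Set.range ![v₁, v₂]) with hW
  have hh := herm_ne_zero_of_li hF (hiso v₁ h₁).2 (hiso v₂ h₂).2 hli
  have hh' : herm q v₂ v₁ ≠ 0 := by rw [← hF.herm_symm]; exact pow_ne_zero _ hh
  obtain ⟨w, hw⟩ : ∃ w, w ∉ W := by
    by_contra h
    push Not at h
    have h3 := finrank_span_eq_card hli
    rw [← hW, Submodule.eq_top_iff'.2 h, finrank_top, Module.finrank_fin_fun, Fintype.card_fin] at h3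
    omega
  set z := w - (herm q w v₂ / herm q v₁ v₂) • v₁ - (herm q w v₁ / herm q v₂ v₁) • v₂ with hz
  have hm₁ : v₁ ∈ W := Submodule.subset_span ⟨0, rfl⟩
  have hm₂ : v₂ ∈ W := Submodule.subset_span ⟨1, rfl⟩
  have hzW : z ∉ W := fun h => hw (by
    have := W.add_mem (W.add_mem h (W.smul_mem (herm q w v₂ / herm q v₁ v₂) hm₁))
      (W.smul_mem (herm q w v₁ / herm q v₂ v₁) hm₂)
    rw [hz] at this
    convert this using 1
    abel)
  have z1 : herm q z v₁ = 0 := by
    simp [hz, herm_sub_left, herm_smul_left, (hiso v₁ h₁).2, hh']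
  have z2 : herm q z v₂ = 0 := by
    simp [hz, herm_sub_left, herm_smul_left, (hiso v₂ h₂).2, hh]
  have hWrepr : ∀ x ∈ W, ∃ a b : F, x = a • v₁ + b • v₂ := fun x hx => by
    rw [hW, Matrix.range_cons_cons_empty, Submodule.mem_span_pair] at hx
    obtain ⟨a, b, e⟩ := hx
    exact ⟨a, b, e.symm⟩
  have hdec : ∀ x, ∃ a b c : F, x = a • v₁ + b • v₂ + c • z := by
    have htop : W ⊔ Submodule.span F {z} = ⊤ := by
      refine Submodule.eq_top_of_finrank_eq ?_
      have hlt : W < W ⊔ Submodule.span F {z} := lt_of_le_of_ne le_sup_left fun h => hzW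
        (h ▸ Submodule.mem_sup_right (Submodule.mem_span_singleton_self z))
      have h1 := Submodule.finrank_lt_finrank_of_lt hlt
      have h2 := (W ⊔ Submodule.span F {z}).finrank_le
      rw [finrank_span_eq_card hli, Fintype.card_fin] at h1
      rw [Module.finrank_fin_fun] at h2 ⊢
      omega
    intro x
    have : x ∈ W ⊔ Submodule.span F {z} := htop ▸ Submodule.mem_top
    obtain ⟨x₁, hx₁, x₂, hx₂, rfl⟩ := Submodule.mem_sup.1 this
    obtain ⟨a, b, rfl⟩ := hWrepr x₁ hx₁
    obtain ⟨c, rfl⟩ := Submodule.mem_span_singleton.1 hx₂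
    exact ⟨a, b, c, rfl⟩
  have hperp : ∀ x, herm q x v₁ = 0 → herm q x v₂ = 0 → ∃ c : F, x = c • z := fun x x1 x2 => by
    obtain ⟨a, b, c, rfl⟩ := hdec x
    simp [herm_add_left, herm_smul_left, z1, z2, (hiso v₁ h₁).2, (hiso v₂ h₂).2, hh, hh'] at x1 x2
    exact ⟨c, by simp [x1, x2]⟩
  have hzz : herm q z z ≠ 0 := fun h0 => hzW (by
    have : z = 0 := hF.eq_zero_of_herm z fun x => by
      obtain ⟨a, b, c, rfl⟩ := hdec x
      simp [hF.herm_add_right, herm_smul_right, z1, z2, h0]
    rw [this]; exact W.zero_mem)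
  have h := card_orbit_le hF y (Submodule.span F {z}) (fun g hg => by
    have hperp' : ∀ u ∈ S, herm q (g.1.1 z) (g.1.1 u) = 0 := fun u hu => by
      obtain ⟨a, b, rfl⟩ := hWrepr u (hall u hu)
      simp [UG_app, hF.herm_add_right, herm_smul_right, z1, z2]
    have hW' : ∀ x ∈ W, herm q (g.1.1 z) x = 0 := by
      intro x hx
      have hginv : g⁻¹ • y = y := by rw [inv_smul_eq_iff, hg]
      obtain ⟨a, b, rfl⟩ := hWrepr x hx
      have e : ∀ u ∈ S, herm q (g.1.1 z) u = 0 := fun u hu => by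
        have := hperp' _ (hinv g⁻¹ hginv u hu)
        rwa [← LinearEquiv.mul_apply, ← Subgroup.coe_mul, ← Subgroup.coe_mul, mul_inv_cancel,
          Subgroup.coe_one, Subgroup.coe_one, LinearEquiv.coe_one, id] at this
      simp [hF.herm_add_right, herm_smul_right, e v₁ h₁, e v₂ h₂]
    obtain ⟨c, hc⟩ := hperp _ (hW' v₁ hm₁) (hW' v₂ hm₂)
    rw [mapL_span, hc]
    refine Submodule.span_singleton_smul_eq (IsUnit.mk0 _ ?_) _
    rintro rfl
    rw [zero_smul, map_eq_zero_iff _ g.1.1.injective] at hc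
    exact hzz (by rw [hc, herm_zero_left]))
    (linesOf {v : Fin (1 + 2) → F | herm q v v ≠ 0}) (by
    rintro _ ⟨v, hv, rfl⟩
    obtain ⟨c, hc⟩ := hF.exists_norm (c := herm q v v / herm q z z)
      (by rw [div_pow, hF.herm_symm, hF.herm_symm])
    have hc0 : c ≠ 0 := by
      rintro rfl
      rw [zero_pow (Nat.succ_ne_zero q)] at hc
      exact div_ne_zero hv hzz hc.symm
    have hcz : herm q (c • z) (c • z) = herm q v v := by
      rw [herm_smul_left, herm_smul_right, ← mul_assoc, ← pow_succ', hc, div_mul_cancel₀ _ hzz]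
    obtain ⟨g, hg⟩ := exists_SUG_map hF (by norm_num) (by rw [hcz]; exact hv) hcz
    refine ⟨g, ?_⟩
    rw [← hg, mapL_span, map_smul]
    exact (Submodule.span_singleton_smul_eq (IsUnit.mk0 _ hc0) _).symm)
  exact absurd (lt_of_lt_of_le (card_noniso_lines hF) h) (by omega)

/-- All transvections at a vector fix the point. -/
def TrvAt (y : X) (v : Fin (1 + 2) → F) : Prop :=
  ∀ (a : F) (h : TrvCond q v a), tS hF h • y = y

theorem TrvAt.map {y : X} {v : Fin (1 + 2) → F} (hf : TrvAt hF y v) (g : SG 1 F q) :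
    TrvAt hF (g • y) (g.1.1 v) := by
  intro a h
  have h0 : TrvCond q v a := ⟨by have := h.1; rwa [UG_app] at this, h.2⟩
  obtain ⟨h', e⟩ := tS_conj hF g h0
  change tS hF h' • (g • y) = g • y
  rw [← e, mul_smul, mul_smul, inv_smul_smul, hf a h0]

theorem TrvAt.smul_vec {y : X} {v : Fin (1 + 2) → F} (hf : TrvAt hF y v) {c : F} (hc : c ≠ 0) :
    TrvAt hF y (c • v) := by
  intro a h
  have h' : TrvCond q v (c * c ^ q * a) := by
    obtain ⟨h1, h2⟩ := h
    rw [herm_smul_left, herm_smul_right] at h1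
    refine ⟨(mul_eq_zero.1 ((mul_eq_zero.1 h1).resolve_left hc)).resolve_left (pow_ne_zero q hc), ?_⟩
    rw [mul_pow, mul_pow, hF.pow_pow, h2]; ring
  rw [tS_smul hF h h']
  exact hf _ h'

theorem trvAt_eV {y : X} (h : Kset hF y = skew hF) : TrvAt hF y (eV hF 1) := by
  intro a ha
  have has : a ∈ skew hF := (mem_skew hF).2 ha.2
  rw [show ha = trvCond_eV hF has from rfl, tS_eV]
  exact (mem_Kset hF has).1 (by rw [h]; exact has)

omit [Finite X] in
theorem tS_apply {v : Fin (1 + 2) → F} {a : F} (h : TrvCond q v a) (x : Fin (1 + 2) → F) :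
    (tS hF h).1.1 x = x + (a * herm q x v) • v := trv_apply hF h x

/-- The closure step along a hyperbolic pair. -/
theorem TrvAt.shift {y : X} {e f z : Fin (1 + 2) → F} {a a' b : F} (he : herm q e e = 0)
    (hfe : herm q f e = 1) (hze : herm q z e = 0) (hye : TrvAt hF y e)
    (h : TrvAt hF y (a • e + b • f + z)) (hb : b ≠ 0)
    (heq : a * b ^ q + b * a ^ q = a' * b ^ q + b * a' ^ q) :
    TrvAt hF y (a' • e + b • f + z) := by
  have hbq := pow_ne_zero q hb
  have hsk : TrvCond q e ((a' - a) / b) := by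
    refine ⟨he, ?_⟩
    rw [div_pow, hF.sub_pow]
    field_simp
    linear_combination -heq
  have := h.map hF (tS hF hsk)
  rw [hye _ hsk, tS_apply] at this
  simp only [herm_add_left, herm_smul_left, he, hfe, hze, mul_zero, mul_one, zero_add, add_zero,
    div_mul_cancel₀ _ hb] at this
  rwa [show a • e + b • f + z + (a' - a) • e = a' • e + b • f + z by module] at this

/-- No point is fixed by a whole transvection group. -/
theorem Kset_ne_skew (hn : ¬ (1 + 2 = 3 ∧ q = 2)) (hX : Nat.card X ≤ q ^ 3)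
    (hnofix : ∀ y : X, ∃ g : SG 1 F q, g • y ≠ y) (y : X) : Kset hF y ≠ skew hF := by
  intro hK
  obtain ⟨hfin, -⟩ := id hF
  set S := {v : Fin (1 + 2) → F | (v ≠ 0 ∧ herm q v v = 0) ∧ TrvAt hF y v} with hS
  have he : eV hF 1 ∈ S := ⟨⟨(pair_spec hF).1.ne_zero, h_ee hF⟩, trvAt_eV hF hK⟩
  obtain ⟨f, hf, z₀, hz₀, hli, hz₀W⟩ := exists_three hF hX y S (fun v hv => hv.1) (fun g hg v hv => by
    refine ⟨⟨fun h => hv.1.1 (g.1.1.injective (h.trans (map_zero _).symm)), by
      rw [UG_app]; exact hv.1.2⟩, ?_⟩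
    have := hv.2.map hF g
    rwa [hg] at this) he
  set e := eV hF 1 with hee
  have hef := herm_ne_zero_of_li hF he.1.2 hf.1.2 hli
  set f₁ := ((herm q e f)⁻¹) ^ q • f with hf1
  have hc₁ : ((herm q e f)⁻¹) ^ q ≠ 0 := pow_ne_zero _ (inv_ne_zero hef)
  have h11 : herm q f₁ f₁ = 0 := by rw [hf1, herm_smul_left, herm_smul_right, hf.1.2]; ring
  have hef1 : herm q e f₁ = 1 := by
    rw [hf1, herm_smul_right, hF.pow_pow, inv_mul_cancel₀ hef]
  have hfe1 : herm q f₁ e = 1 := by rw [← hF.herm_symm, hef1, one_pow]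
  have hyf : TrvAt hF y f₁ := hf.2.smul_vec hF hc₁
  set a₀ := herm q z₀ f₁
  set b₀ := herm q z₀ e
  set z := z₀ - a₀ • e - b₀ • f₁ with hz
  have hze : herm q z e = 0 := by
    simp [hz, a₀, b₀, herm_sub_left, herm_smul_left, he.1.2, hfe1]
  have hzf : herm q z f₁ = 0 := by
    simp [hz, a₀, b₀, herm_sub_left, herm_smul_left, h11, hef1]
  have hez : herm q e z = 0 := Forms.herm_comm_zero hF hze
  have hfz : herm q f₁ z = 0 := Forms.herm_comm_zero hF hzf
  have hval : ∀ a b : F, herm q (a • e + b • f₁ + z) (a • e + b • f₁ + z) =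
      a * b ^ q + b * a ^ q + herm q z z := fun a b => by
    simp only [herm_add_left, hF.herm_add_right, herm_smul_left, herm_smul_right, he.1.2, h11, hef1,
      hfe1, hze, hzf, hez, hfz]
    ring
  have hzW : z ∉ Submodule.span F (Set.range ![e, f]) := fun h => hz₀W (by
    have hm₁ : e ∈ Submodule.span F (Set.range ![e, f]) := Submodule.subset_span ⟨0, rfl⟩
    have hm₂ : f₁ ∈ Submodule.span F (Set.range ![e, f]) :=
      Submodule.smul_mem _ _ (Submodule.subset_span ⟨1, rfl⟩)
    have := Submodule.add_mem _ (Submodule.add_mem _ h (Submodule.smul_mem _ a₀ hm₁))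
      (Submodule.smul_mem _ b₀ hm₂)
    rw [hz] at this
    convert this using 1
    abel)
  have hdec : ∀ x, ∃ a b c : F, x = a • e + b • f₁ + c • z := by
    have hm₁ : e ∈ Submodule.span F (Set.range ![e, f]) := Submodule.subset_span ⟨0, rfl⟩
    have htop : Submodule.span F (Set.range ![e, f]) ⊔ Submodule.span F {z} = ⊤ := by
      refine Submodule.eq_top_of_finrank_eq ?_
      have hlt : Submodule.span F (Set.range ![e, f]) <
          Submodule.span F (Set.range ![e, f]) ⊔ Submodule.span F {z} :=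
        lt_of_le_of_ne le_sup_left fun h => hzW
          (h ▸ Submodule.mem_sup_right (Submodule.mem_span_singleton_self z))
      have h1 := Submodule.finrank_lt_finrank_of_lt hlt
      have h2 := (Submodule.span F (Set.range ![e, f]) ⊔ Submodule.span F {z}).finrank_le
      rw [finrank_span_eq_card hli, Fintype.card_fin] at h1
      rw [Module.finrank_fin_fun] at h2 ⊢
      omega
    intro x
    have hx : x ∈ Submodule.span F (Set.range ![e, f]) ⊔ Submodule.span F {z} :=
      htop ▸ Submodule.mem_top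
    obtain ⟨x₁, hx₁, x₂, hx₂, rfl⟩ := Submodule.mem_sup.1 hx
    rw [Matrix.range_cons_cons_empty, Submodule.mem_span_pair] at hx₁
    obtain ⟨a, b, rfl⟩ := hx₁
    obtain ⟨c, rfl⟩ := Submodule.mem_span_singleton.1 hx₂
    refine ⟨a, b * herm q e f ^ q, c, ?_⟩
    rw [hf1, smul_smul, mul_assoc, ← mul_pow, mul_inv_cancel₀ hef, one_pow, mul_one]
  have hzz : herm q z z ≠ 0 := fun h0 => hzW (by
    have : z = 0 := hF.eq_zero_of_herm z fun x => by
      obtain ⟨a, b, c, rfl⟩ := hdec x
      simp [hF.herm_add_right, herm_smul_right, hze, hzf, h0]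
    rw [this]; exact Submodule.zero_mem _)
  have hz₀eq : z₀ = a₀ • e + b₀ • f₁ + z := by rw [hz]; abel
  have hb₀ : b₀ ≠ 0 := by
    intro h0
    have h2 := hval a₀ b₀
    rw [← hz₀eq, hz₀.1.2, h0, zero_pow hF.q_ne_zero] at h2
    exact hzz (by simpa using h2.symm)
  have hz0T : TrvAt hF y (a₀ • e + b₀ • f₁ + z) := hz₀eq ▸ hz₀.2
  have step : ∀ a b a' : F, b ≠ 0 → herm q (a • e + b • f₁ + z) (a • e + b • f₁ + z) = 0 →
      herm q (a' • e + b • f₁ + z) (a' • e + b • f₁ + z) = 0 →
      TrvAt hF y (a • e + b • f₁ + z) → TrvAt hF y (a' • e + b • f₁ + z) := by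
    intro a b a' hb h h' hT
    rw [hval] at h h'
    exact TrvAt.shift hF he.1.2 hfe1 hze he.2 hT hb (by linear_combination h - h')
  have step' : ∀ a b b' : F, a ≠ 0 → herm q (a • e + b • f₁ + z) (a • e + b • f₁ + z) = 0 →
      herm q (a • e + b' • f₁ + z) (a • e + b' • f₁ + z) = 0 →
      TrvAt hF y (a • e + b • f₁ + z) → TrvAt hF y (a • e + b' • f₁ + z) := by
    intro a b b' ha h h' hT
    rw [hval] at h h'
    rw [add_comm (a • e) (b • f₁)] at hT
    rw [add_comm (a • e) (b' • f₁)]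
    exact TrvAt.shift hF h11 hef1 hzf hyf hT ha (by linear_combination h - h')
  have hall : ∀ a b : F, herm q (a • e + b • f₁ + z) (a • e + b • f₁ + z) = 0 →
      TrvAt hF y (a • e + b • f₁ + z) := by
    have h0 : herm q (a₀ • e + b₀ • f₁ + z) (a₀ • e + b₀ • f₁ + z) = 0 := hz₀eq ▸ hz₀.1.2
    have hb_ne : ∀ a b : F, herm q (a • e + b • f₁ + z) (a • e + b • f₁ + z) = 0 → b ≠ 0 := by
      intro a b h hb
      rw [hval, hb, zero_pow hF.q_ne_zero] at h
      exact hzz (by simpa using h)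
    have ha_ne : ∀ a b : F, herm q (a • e + b • f₁ + z) (a • e + b • f₁ + z) = 0 → a ≠ 0 := by
      intro a b h ha
      rw [hval, ha, zero_pow hF.q_ne_zero] at h
      exact hzz (by simpa using h)
    -- a common first coordinate of two second coordinates
    have common : ∀ b b' : F, b ^ q * b' - b' ^ q * b ≠ 0 → ∃ a : F,
        herm q (a • e + b • f₁ + z) (a • e + b • f₁ + z) = 0 ∧
          herm q (a • e + b' • f₁ + z) (a • e + b' • f₁ + z) = 0 := by
      intro b b' hD
      refine ⟨-herm q z z * (b' - b) / (b ^ q * b' - b' ^ q * b), ?_, ?_⟩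
      all_goals
        rw [hval, div_pow, mul_pow, hF.sub_pow, hF.sub_pow, hF.neg_pow, mul_pow, mul_pow, hF.pow_pow,
          hF.pow_pow, hF.herm_symm]
        rw [show b * b' ^ q - b' * b ^ q = -(b ^ q * b' - b' ^ q * b) by ring, div_neg,
          div_mul_eq_mul_div, ← neg_div, mul_div_assoc', ← add_div, div_add' _ _ _ hD,
          div_eq_zero_iff]
        left
        ring
    intro a b hab
    have move : ∀ b' : F, b₀ ^ q * b' - b' ^ q * b₀ ≠ 0 → ∀ a' : F,
        herm q (a' • e + b' • f₁ + z) (a' • e + b' • f₁ + z) = 0 →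
        TrvAt hF y (a' • e + b' • f₁ + z) := by
      intro b' hD a' ha'
      obtain ⟨c, hc1, hc2⟩ := common b₀ b' hD
      exact step c b' a' (hb_ne _ _ hc2) hc2 ha'
        (step' c b₀ b' (ha_ne _ _ hc1) hc1 hc2 (step a₀ b₀ c hb₀ h0 hc1 hz0T))
    by_cases hD : b₀ ^ q * b - b ^ q * b₀ = 0
    swap
    · exact move b hD a hab
    obtain ⟨d, hd, hdq⟩ := hF.exists_skew
    by_cases h2 : (2 : F) = 0
    · obtain ⟨t, ht⟩ := hF.exists_trace (c := (1 : F)) (one_pow q)
      have hD1 : b₀ ^ q * (t * b₀) - (t * b₀) ^ q * b₀ ≠ 0 := by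
        rw [mul_pow, show b₀ ^ q * (t * b₀) - t ^ q * b₀ ^ q * b₀ =
          (t - t ^ q) * (b₀ ^ q * b₀) by ring]
        refine mul_ne_zero ?_ (mul_ne_zero (pow_ne_zero _ hb₀) hb₀)
        rw [show t - t ^ q = 1 by linear_combination ht - t ^ q * h2]
        exact one_ne_zero
      obtain ⟨c, hc1, hc2⟩ := common b (t * b₀) (by
        intro h
        apply hD1
        have hb := hb_ne _ _ hab
        have : (b₀ ^ q * (t * b₀) - (t * b₀) ^ q * b₀) * b ^ q = 0 := by
          linear_combination b₀ ^ q * h + (t * b₀) ^ q * hD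
        exact (mul_eq_zero.1 this).resolve_right (pow_ne_zero _ hb))
      exact step c b a (hb_ne _ _ hab) hc1 hab
        (step' c (t * b₀) b (ha_ne _ _ hc2) hc2 hc1 (move _ hD1 c hc2))
    · have hD1 : b₀ ^ q * (d * b₀) - (d * b₀) ^ q * b₀ ≠ 0 := by
        rw [mul_pow, hdq, show b₀ ^ q * (d * b₀) - -d * b₀ ^ q * b₀ =
          2 * d * (b₀ ^ q * b₀) by ring]
        exact mul_ne_zero (mul_ne_zero h2 hd) (mul_ne_zero (pow_ne_zero _ hb₀) hb₀)
      obtain ⟨c, hc1, hc2⟩ := common b (d * b₀) (by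
        intro h
        apply hD1
        have hb := hb_ne _ _ hab
        have : (b₀ ^ q * (d * b₀) - (d * b₀) ^ q * b₀) * b ^ q = 0 := by
          linear_combination b₀ ^ q * h + (d * b₀) ^ q * hD
        exact (mul_eq_zero.1 this).resolve_right (pow_ne_zero _ hb))
      exact step c b a (hb_ne _ _ hab) hc1 hab
        (step' c (d * b₀) b (ha_ne _ _ hc2) hc2 hc1 (move _ hD1 c hc2))
  have hvec : ∀ w : Fin (1 + 2) → F, w ≠ 0 → herm q w w = 0 → TrvAt hF y w := by
    intro w hw hw0
    obtain ⟨a, b, c, rfl⟩ := hdec w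
    rcases eq_or_ne c 0 with rfl | hc
    · rw [zero_smul, add_zero] at hw hw0 ⊢
      rcases eq_or_ne b 0 with rfl | hb
      · rw [zero_smul, add_zero] at hw ⊢
        exact he.2.smul_vec hF fun h => hw (by rw [h, zero_smul])
      have hsk : (a / b) ^ q = -(a / b) := by
        simp only [herm_add_left, hF.herm_add_right, herm_smul_left, herm_smul_right, he.1.2, h11,
          hef1, hfe1] at hw0
        rw [div_pow]
        have := pow_ne_zero q hb
        field_simp
        linear_combination hw0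
      have h1 : TrvCond q e (a / b) := ⟨he.1.2, hsk⟩
      have h3 := (hyf.smul_vec hF hb).map hF (tS hF h1)
      rw [he.2 _ h1, tS_apply, herm_smul_left, hfe1, mul_one, div_mul_cancel₀ _ hb] at h3
      rwa [add_comm]
    · have e1 : a • e + b • f₁ + c • z = c • ((a / c) • e + (b / c) • f₁ + z) := by
        rw [smul_add, smul_add, smul_smul c (a / c), smul_smul c (b / c), mul_div_cancel₀ _ hc,
          mul_div_cancel₀ _ hc]
      rw [e1] at hw0 ⊢
      rw [herm_smul_left, herm_smul_right] at hw0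
      exact (hall _ _ ((mul_eq_zero.1 ((mul_eq_zero.1 hw0).resolve_left hc)).resolve_left
        (pow_ne_zero q hc))).smul_vec hF hc
  obtain ⟨g, hg⟩ := hnofix y
  have hle : TG (1 + 2) F q ≤
      (MulAction.stabilizer (SG 1 F q) y).map (SUG (1 + 2) F q).subtype := by
    rw [TG, Subgroup.closure_le]
    rintro t ⟨w, a, hw, ht⟩
    refine ⟨tS hF hw, ?_, (mem_TG_generator hF hw ht).symm⟩
    rcases eq_or_ne w 0 with rfl | hw0
    · have : tS hF hw = 1 := by
        refine Subtype.ext (Subtype.ext (LinearEquiv.ext fun x => ?_))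
        change (trv hF hw).1 x = x
        rw [trv_apply]; simp
      rw [this]; exact one_mem _
    · exact hvec w hw0 hw.1 a hw
  obtain ⟨g', hg', e'⟩ := hle (SUG_le_TG hF (1 + 2) (by norm_num) hn g.2)
  obtain rfl : g' = g := Subtype.ext e'
  exact hg hg'

end Cfsg.Agent.MinU3
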