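/-
Subgroups of `SL(2, F)` meeting both root groups.
-/
import Mathlib
import Cfsg.Agent.MaxSub.SubfieldMax.SL2Gen

set_option autoImplicit false
set_option linter.unusedSectionVars false
set_option linter.style.haveILetI false

namespace Cfsg.Agent.MinU3

open Matrix Cfsg.Agent.PSLTwoSub Cfsg.Agent.MaxSub Cfsg.Agent.MaxSub.SubfieldMax
open scoped MatrixGroups OnePoint Cfsg.Agent.MaxSub.Dickson

variable {F : Type*} [Field F]

theorem up_zero' : up (0 : F) = 1 := by
  apply Subtype.ext
  simp [up, Matrix.one_fin_two]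

theorem lo_mul (z w : F) : lo z * lo w = lo (z + w) := by
  apply Subtype.ext
  rw [Matrix.SpecialLinearGroup.coe_mul]
  simp [lo, Matrix.mul_fin_two]

theorem lo_zero' : lo (0 : F) = 1 := by
  apply Subtype.ext
  simp [lo, Matrix.one_fin_two]

/-- The embedding of `SL(2, E)` twisted by the diagonal. -/
noncomputable def twistHom (E : Subfield F) (c : F) (hc : c ≠ 0) : SL(2, E) →* SL(2, F) where
  toFun S := mk22 (S.1 0 0 : F) (c * (S.1 0 1 : F)) (c⁻¹ * (S.1 1 0 : F)) (S.1 1 1 : F) (by
    have h := congrArg (fun x : E => (x : F)) S.2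
    simp only [Matrix.det_fin_two, Subfield.coe_sub, Subfield.coe_mul, Subfield.coe_one] at h
    field_simp
    linear_combination h)
  map_one' := by
    apply Subtype.ext
    ext i j
    fin_cases i <;> fin_cases j <;> simp
  map_mul' S T := by
    apply Subtype.ext
    ext i j
    fin_cases i <;> fin_cases j <;>
      simp [Matrix.mul_apply, Fin.sum_univ_two] <;> field_simp <;> ring

theorem twistHom_apply (E : Subfield F) (c : F) (hc : c ≠ 0) (S : SL(2, E)) :
    (twistHom E c hc S).1 =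
      !![(S.1 0 0 : F), c * (S.1 0 1 : F); c⁻¹ * (S.1 1 0 : F), (S.1 1 1 : F)] := rfl

theorem twistHom_up (E : Subfield F) (c : F) (hc : c ≠ 0) (x : E) :
    twistHom E c hc (up x) = up (c * x) := by
  apply Subtype.ext
  ext i j
  fin_cases i <;> fin_cases j <;> simp [twistHom_apply, up]

theorem twistHom_lo (E : Subfield F) (c : F) (hc : c ≠ 0) (x : E) :
    twistHom E c hc (lo x) = lo (c⁻¹ * x) := by
  apply Subtype.ext
  ext i j
  fin_cases i <;> fin_cases j <;> simp [twistHom_apply, lo]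

variable [Fintype F]

/-- A group with the two test sets, whose traces generate, and of `p`-part beyond `p`, is everything. -/
theorem eq_top_of_products (p : ℕ) [hp : Fact p.Prime] [CharP F p] (H : Subgroup SL(2, F))
    (A B : AddSubgroup F) (hA : A ≠ ⊥) (hB : B ≠ ⊥) (hAH : ∀ a ∈ A, up a ∈ H)
    (hBH : ∀ b ∈ B, lo b ∈ H) (hgen : Subfield.closure {x | ∃ a ∈ A, ∃ b ∈ B, x = a * b} = ⊤)
    (hbig : p ^ 2 ∣ Nat.card A ∨ p ^ 2 ∣ Nat.card B) : H = ⊤ := by
  classical
  obtain ⟨l, hlB, hl⟩ := (AddSubgroup.bot_or_exists_ne_zero B).resolve_left hB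
  obtain ⟨m₁, hmA, hm⟩ := (AddSubgroup.bot_or_exists_ne_zero A).resolve_left hA
  let K := AlgebraicClosure F
  haveI : DecidableEq K := Classical.decEq K
  set π : SL(2, F) →* PGL(2, F) := projHom (RingHom.id F) with hπ
  have hdvd : p ^ 2 ∣ Nat.card (H.map π) := by
    rcases hbig with h | h
    · let ν : Multiplicative A →* (H.map π : Subgroup PGL(2, F)) :=
        MonoidHom.mk' (fun a => ⟨π (up (a.toAdd : F)), _, hAH _ a.toAdd.2, rfl⟩)
          (fun x y => Subtype.ext (by
            show π _ = π _ * π _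
            rw [← map_mul, up_mul]
            rfl))
      have hinj : Function.Injective ν := by
        rw [injective_iff_map_eq_one]
        intro x hx
        have h0 := (projHom_eq_one (RingHom.id F) (congrArg Subtype.val hx)).1
        simp [up] at h0
        exact h0
      have h1 := Subgroup.card_dvd_of_injective ν hinj
      rw [Nat.card_congr Multiplicative.toAdd] at h1
      exact h.trans h1
    · let ν : Multiplicative B →* (H.map π : Subgroup PGL(2, F)) :=
        MonoidHom.mk' (fun a => ⟨π (lo (a.toAdd : F)), _, hBH _ a.toAdd.2, rfl⟩)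
          (fun x y => Subtype.ext (by
            show π _ = π _ * π _
            rw [← map_mul, lo_mul]
            rfl))
      have hinj : Function.Injective ν := by
        rw [injective_iff_map_eq_one]
        intro x hx
        have h0 := (projHom_eq_one (RingHom.id F) (congrArg Subtype.val hx)).2.1
        simp [lo] at h0
        exact h0
      have h1 := Subgroup.card_dvd_of_injective ν hinj
      rw [Nat.card_congr Multiplicative.toAdd] at h1
      exact h.trans h1
  have hsmall : ∀ N : ℕ, p ^ 2 ∣ N → p ≠ 2 → N = 12 ∨ N = 24 ∨ N = 60 → False := by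
    intro N h1 h2 h3
    have hp3 : 3 ≤ p := by have := hp.out.two_le; omega
    have hNpos : 0 < N := by omega
    have hp8 : p < 8 := by
      by_contra hc
      have := Nat.le_of_dvd hNpos h1
      rcases h3 with rfl | rfl | rfl <;> nlinarith
    interval_cases p <;> rcases h3 with rfl | rfl | rfl <;> simp_all (config := { decide := true })
  have key : ∀ F₁ : Subfield F, ∀ h : PGL(2, F),
      (H.map π).map (MulAut.conj h⁻¹).toMonoidHom ≤ (Dickson.subPGL F₁).range → F₁ = ⊤ := by
    intro F₁ h hle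
    have hsq : ∀ g ∈ H, Matrix.trace (g : Matrix (Fin 2) (Fin 2) F) ^ 2 ∈ F₁ := fun g hg =>
      trace_sq_mem (RingHom.id F) F₁ h g (by
        have := hle ⟨_, ⟨g, hg, rfl⟩, rfl⟩
        simpa [MulAut.conj_apply, hπ] using this)
    rw [eq_top_iff, ← hgen, Subfield.closure_le]
    rintro _ ⟨a, ha, b, hb, rfl⟩
    have e₁ := hsq _ (mul_mem (hBH b hb) (hAH a ha))
    have e₂ := hsq _ (mul_mem (hBH b hb) (hAH (-a) (neg_mem ha)))
    rw [trace_lo_mul_up] at e₁ e₂
    rw [SetLike.mem_coe]
    by_cases h2 : (2 : F) = 0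
    · have hx : (a * b) ^ 2 ∈ F₁ := by
        convert e₁ using 1
        linear_combination (-2 - 2 * (a * b)) * h2
      have hp2 : p = 2 := by
        have h2' : ((2 : ℕ) : F) = 0 := by exact_mod_cast h2
        rcases (Nat.dvd_prime Nat.prime_two).mp ((CharP.cast_eq_zero_iff F p 2).mp h2') with h | h
        · exact absurd h hp.out.ne_one
        · exact h
      obtain ⟨n, -, hcard⟩ := FiniteField.card F p
      have hq := FiniteField.pow_card (a * b)
      rw [hcard, hp2, show (2 : ℕ) ^ (n : ℕ) = 2 * 2 ^ ((n : ℕ) - 1) by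
        rw [← pow_succ']; congr 1; have := n.pos; omega, pow_mul] at hq
      rw [← hq]; exact pow_mem hx _
    · have h8 : (2 * 2 * 2 : F) * (a * b) ∈ F₁ := by
        convert sub_mem e₁ e₂ using 1
        ring
      have h8' : (2 * 2 * 2 : F) ∈ F₁ :=
        mul_mem (mul_mem (natCast_mem _ 2) (natCast_mem _ 2)) (natCast_mem _ 2)
      have := div_mem h8 h8'
      rwa [mul_div_cancel_left₀ _ (by simp [h2])] at this
  have hbig' : Dickson.lsub F ≤ H.map π := by
    rcases Dickson.classifyF (K := K) (p := p) (H.map π) with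
      ⟨a, b, m, hpn, -, -, -, -⟩ | ⟨a, b, m, N, -, -, hN, hpn, -, hc, -⟩ | ⟨x, hfix, -⟩ |
      ⟨hp2, hc, -⟩ | ⟨hp2, hc, -⟩ | ⟨hp2, hc, -⟩ | ⟨F₁, h, -, he⟩ | ⟨F₁, h, -, -, he⟩
    · exact absurd ((dvd_pow_self p two_ne_zero).trans hdvd) hpn
    · rw [hc] at hdvd
      have hcop : Nat.Coprime (p ^ 2) N := Nat.Coprime.pow_left _ (hp.out.coprime_iff_not_dvd.2 hpn)
      have := Nat.le_of_dvd two_pos (hcop.dvd_of_dvd_mul_right hdvd)
      have := hp.out.two_le
      nlinarith
    · exfalso
      have h1 := hfix _ ⟨lo l, hBH l hlB, rfl⟩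
      have h2 := hfix _ ⟨up m₁, hAH m₁ hmA, rfl⟩
      change ProjGenLinGroup.mk (Matrix.SpecialLinearGroup.toGL
        (Matrix.SpecialLinearGroup.map (RingHom.id F) (lo l))) • x = x at h1
      change ProjGenLinGroup.mk (Matrix.SpecialLinearGroup.toGL
        (Matrix.SpecialLinearGroup.map (RingHom.id F) (up m₁))) • x = x at h2
      rw [Dickson.mk_smul] at h1 h2
      cases x using OnePoint.rec with
      | infty =>
        rw [OnePoint.smul_infty_eq_self_iff] at h1
        simp [lo] at h1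
        exact hl h1
      | coe x =>
        rw [OnePoint.smul_some_eq_ite] at h2
        simp [up] at h2
        exact hm h2
    · exact absurd hdvd fun h => hsmall _ h hp2 (Or.inl hc)
    · exact absurd hdvd fun h => hsmall _ h hp2 (Or.inr (Or.inl hc))
    · exact absurd hdvd fun h => hsmall _ h hp2 (Or.inr (Or.inr hc))
    · obtain rfl := key F₁ h he.le
      have h1 := Dickson.subPSL_le_subPGL (⊤ : Subfield F)
      rw [← he, Dickson.range_subPSL,
        show Dickson.subPGL (⊤ : Subfield F) = ProjGenLinGroup.map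
          (Subfield.topEquiv : (⊤ : Subfield F) ≃+* F).toRingHom from rfl, Dickson.map_lsub_eq] at h1
      have h2 := Subgroup.map_mono (f := (MulAut.conj h).toMonoidHom) h1
      rw [Dickson.map_conj_lsub, Subgroup.map_map] at h2
      convert h2 using 1
      ext y
      simp [MulAut.conj_apply, mul_assoc]
    · obtain rfl := key F₁ h (he.le.trans (Dickson.subPSL_le_subPGL _))
      have h1 := he.ge
      rw [Dickson.range_subPSL,
        show Dickson.subPGL (⊤ : Subfield F) = ProjGenLinGroup.map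
          (Subfield.topEquiv : (⊤ : Subfield F) ≃+* F).toRingHom from rfl, Dickson.map_lsub_eq] at h1
      have h2 := Subgroup.map_mono (f := (MulAut.conj h).toMonoidHom) h1
      rw [Dickson.map_conj_lsub, Subgroup.map_map] at h2
      convert h2 using 1
      ext y
      simp [MulAut.conj_apply, mul_assoc]
  have hmem : ∀ S : SL(2, F), S ∈ H ∨ -S ∈ H := by
    intro S
    obtain ⟨T, hT, hTS⟩ := hbig'
      (show ProjGenLinGroup.mk (Matrix.SpecialLinearGroup.toGL S) ∈ Dickson.lsub F from ⟨S, rfl⟩)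
    have : π (T * S⁻¹) = 1 := by
      rw [map_mul, map_inv, mul_inv_eq_one, hTS]; rfl
    rw [← MonoidHom.mem_ker] at this
    obtain ⟨h01, h10, h00⟩ := projHom_eq_one (RingHom.id F) this
    have hd := (T * S⁻¹).2
    rw [Matrix.det_fin_two, h01, h10, ← h00, mul_zero, sub_zero] at hd
    rcases mul_self_eq_mul_self_iff.1 (hd.trans (one_mul 1).symm) with h | h
    · left
      have e : T * S⁻¹ = 1 := by
        apply Subtype.ext; ext i j
        fin_cases i <;> fin_cases j <;> simp [h01, h10, ← h00, h]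
      exact mul_inv_eq_one.1 e ▸ hT
    · right
      have e : T * S⁻¹ = -1 := by
        apply Subtype.ext; ext i j
        fin_cases i <;> fin_cases j <;> simp [h01, h10, ← h00, h]
      have : T = -S := by rw [← inv_mul_cancel_right T S, e, neg_one_mul]
      exact this ▸ hT
  have hw : (-1 : SL(2, F)) ∈ H := by
    let w : SL(2, F) := mk22 0 1 (-1) 0 (by ring)
    have e : w * w = -1 := by
      apply Subtype.ext
      rw [Matrix.SpecialLinearGroup.coe_mul]
      simp [w, Matrix.one_fin_two]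
    rcases hmem w with h | h
    · exact e ▸ mul_mem h h
    · have := mul_mem h h
      rwa [neg_mul_neg, e] at this
  rw [eq_top_iff]
  intro S _
  rcases hmem S with h | h
  · exact h
  · simpa using mul_mem hw h

/-- Both root parts of a subgroup are one subfield up to scale, but for tiny parts. -/
theorem pair_dichotomy (p : ℕ) [hp : Fact p.Prime] [CharP F p] (H : Subgroup SL(2, F))
    (A B : AddSubgroup F) (hA : A ≠ ⊥) (hB : B ≠ ⊥) (hAH : ∀ a, a ∈ A ↔ up a ∈ H)
    (hBH : ∀ b, b ∈ B ↔ lo b ∈ H) :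
    (Nat.card A = p ∧ Nat.card B = p ∧ p ≤ 3) ∨
      ∃ E : Subfield F, Nat.card A = Nat.card E ∧ Nat.card B = Nat.card E ∧
        (∀ a ∈ A, ∀ b ∈ B, a * b ∈ E) ∧ (E = ⊤ → A = ⊤) := by
  classical
  by_cases hex : Nat.card A = p ∧ Nat.card B = p ∧ p ≤ 3
  · exact Or.inl hex
  right
  obtain ⟨b₀, hb₀, hb0⟩ := (AddSubgroup.bot_or_exists_ne_zero B).resolve_left hB
  obtain ⟨a₀, ha₀, ha0⟩ := (AddSubgroup.bot_or_exists_ne_zero A).resolve_left hA
  set S := {x : F | ∃ a ∈ A, ∃ b ∈ B, x = a * b} with hS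
  set E := Subfield.closure S with hE
  have hprod : ∀ a ∈ A, ∀ b ∈ B, a * b ∈ E := fun a ha b hb =>
    Subfield.subset_closure ⟨a, ha, b, hb, rfl⟩
  have hAE : ∀ a ∈ A, a * b₀ ∈ E := fun a ha => hprod a ha b₀ hb₀
  have hBE : ∀ b ∈ B, b / b₀ ∈ E := fun b hb => by
    have := div_mem (hprod a₀ ha₀ b hb) (hprod a₀ ha₀ b₀ hb₀)
    rwa [mul_div_mul_left _ _ ha0] at this
  set ι := twistHom E b₀⁻¹ (inv_ne_zero hb0) with hι
  set A' : AddSubgroup E := A.comap ((AddMonoidHom.mulLeft b₀⁻¹).comp E.subtype.toAddMonoidHom)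
    with hA'
  set B' : AddSubgroup E := B.comap ((AddMonoidHom.mulLeft b₀).comp E.subtype.toAddMonoidHom)
    with hB'
  let eA : A' ≃ A :=
    { toFun := fun x => ⟨b₀⁻¹ * (x.1 : F), x.2⟩
      invFun := fun a => ⟨⟨a.1 * b₀, hAE a.1 a.2⟩, by
        change b₀⁻¹ * (a.1 * b₀) ∈ A
        rw [mul_comm a.1, inv_mul_cancel_left₀ hb0]; exact a.2⟩
      left_inv := fun x => Subtype.ext (Subtype.ext (by
        change b₀⁻¹ * (x.1 : F) * b₀ = x.1
        field_simp))
      right_inv := fun a => Subtype.ext (by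
        change b₀⁻¹ * (a.1 * b₀) = a.1
        field_simp) }
  let eB : B' ≃ B :=
    { toFun := fun x => ⟨b₀ * (x.1 : F), x.2⟩
      invFun := fun b => ⟨⟨b.1 / b₀, hBE b.1 b.2⟩, by
        change b₀ * (b.1 / b₀) ∈ B
        rw [mul_div_cancel₀ _ hb0]; exact b.2⟩
      left_inv := fun x => Subtype.ext (Subtype.ext (by
        change b₀ * (x.1 : F) / b₀ = x.1
        field_simp))
      right_inv := fun b => Subtype.ext (by
        change b₀ * (b.1 / b₀) = b.1
        field_simp) }
  have hupA : ∀ x : E, x ∈ A' ↔ up x ∈ H.comap ι := fun x => by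
    rw [Subgroup.mem_comap, hι, twistHom_up]
    exact hAH _
  have hloB : ∀ x : E, x ∈ B' ↔ lo x ∈ H.comap ι := fun x => by
    rw [Subgroup.mem_comap, hι, twistHom_lo, inv_inv]
    exact hBH _
  haveI : CharP E p := E.subtype.charP E.subtype.injective p
  haveI : Fintype E := Fintype.ofFinite E
  have hpow : ∀ (D : AddSubgroup E), D ≠ ⊥ → Nat.card D = p ∨ p ^ 2 ∣ Nat.card D := by
    intro D hD
    obtain ⟨n, -, hcard⟩ := FiniteField.card E p
    obtain ⟨k, -, hk⟩ := (Nat.dvd_prime_pow hp.out).1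
      (show Nat.card D ∣ p ^ (n : ℕ) by
        rw [← hcard, ← Nat.card_eq_fintype_card]; exact D.card_addSubgroup_dvd_card)
    rcases k with _ | _ | k
    · exact absurd (AddSubgroup.eq_bot_of_card_eq D (by simpa using hk)) hD
    · exact Or.inl (by simpa using hk)
    · exact Or.inr (hk ▸ pow_dvd_pow p (by omega))
  have h1B : (1 : E) ∈ B' := by
    change b₀ * ((1 : E) : F) ∈ B
    simpa using hb₀
  have hlam : (⟨a₀ * b₀, hAE a₀ ha₀⟩ : E) ∈ A' := by
    change b₀⁻¹ * (a₀ * b₀) ∈ A
    rw [mul_comm a₀, inv_mul_cancel_left₀ hb0]; exact ha₀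
  have hA'0 : A' ≠ ⊥ := fun h => by
    rw [h, AddSubgroup.mem_bot, Subtype.ext_iff] at hlam
    exact mul_ne_zero ha0 hb0 hlam
  have hB'0 : B' ≠ ⊥ := fun h => by
    rw [h, AddSubgroup.mem_bot] at h1B
    exact one_ne_zero h1B
  have hgen : ∀ T : Set E, (∀ a ∈ A, ∀ b ∈ B, ∃ t ∈ Subfield.closure T, (t : F) = a * b) →
      Subfield.closure T = ⊤ := by
    intro T hT
    have hle : E ≤ (Subfield.closure T).map E.subtype := by
      refine Subfield.closure_le.2 ?_
      rintro _ ⟨a, ha, b, hb, rfl⟩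
      obtain ⟨t, ht, e⟩ := hT a ha b hb
      exact ⟨t, ht, e⟩
    rw [eq_top_iff]
    intro x _
    obtain ⟨t, ht, e⟩ := hle x.2
    rwa [← Subtype.ext e]
  have htop : H.comap ι = ⊤ := by
    by_cases hsm : Nat.card A' = p ∧ Nat.card B' = p
    · obtain ⟨hA1, hB1⟩ := hsm
      rw [Nat.card_congr eA] at hA1
      rw [Nat.card_congr eB] at hB1
      have hp5 : 4 ≤ p := by
        by_contra h
        exact hex ⟨hA1, hB1, by omega⟩
      have h2 : (2 : E) ≠ 0 := fun h => by
        have : ((2 : ℕ) : E) = 0 := by exact_mod_cast h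
        have := Nat.le_of_dvd two_pos ((CharP.cast_eq_zero_iff E p 2).1 this)
        omega
      set lam : E := ⟨a₀ * b₀, hAE a₀ ha₀⟩
      have hlam0 : lam ≠ 0 := fun h => mul_ne_zero ha0 hb0 (congrArg Subtype.val h)
      have hcyc : ∀ (D : AddSubgroup F) (d : F), d ∈ D → d ≠ 0 → Nat.card D = p → ∀ x ∈ D,
          ∃ k : ℕ, x = k • d := fun D d hd hd0 hc x hx => by
        haveI : Fact (Nat.card D).Prime := ⟨hc ▸ hp.out⟩
        have := mem_multiples_of_prime_card (g := (⟨d, hd⟩ : D)) (g' := ⟨x, hx⟩) rfl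
          (fun h => hd0 (congrArg Subtype.val h))
        obtain ⟨k, hk⟩ := (AddSubmonoid.mem_multiples_iff _ _).1 this
        exact ⟨k, (congrArg Subtype.val hk).symm⟩
      have hgen1 : Subfield.closure ({lam} : Set E) = ⊤ := hgen _ fun a ha b hb => by
        obtain ⟨i, rfl⟩ := hcyc A a₀ ha₀ ha0 hA1 a ha
        obtain ⟨j, rfl⟩ := hcyc B b₀ hb₀ hb0 hB1 b hb
        refine ⟨((i * j : ℕ) : E) * lam, mul_mem (natCast_mem _ _)
          (Subfield.subset_closure rfl), ?_⟩
        simp [lam, nsmul_eq_mul]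
        ring
      have hexc : ¬ (Fintype.card E = 9 ∧ lam ^ 2 = -1) := by
        rintro ⟨h9, -⟩
        obtain ⟨n, -, hcard⟩ := FiniteField.card E p
        rw [h9] at hcard
        have := Nat.le_of_dvd (by norm_num) (hcard ▸ dvd_pow_self p n.ne_zero : p ∣ 9)
        have : p ∣ 3 := hp.out.dvd_of_dvd_pow (show p ∣ 3 ^ 2 by rw [show (3:ℕ) ^ 2 = 9 from rfl, hcard]; exact dvd_pow_self p n.ne_zero)
        have := Nat.le_of_dvd (by norm_num) this
        omega
      rw [eq_top_iff, ← PSLTwoSub.closure_eq_top h2 hlam0 hgen1 hexc, Subgroup.closure_le]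
      rintro g (hg | hg)
      · rw [show g = lo 1 from Subtype.ext hg]
        exact (hloB 1).1 h1B
      · rw [show g = up lam from Subtype.ext hg]
        exact (hupA lam).1 hlam
    · refine eq_top_of_products p _ A' B' hA'0 hB'0 (fun x hx => (hupA x).1 hx)
        (fun x hx => (hloB x).1 hx) (hgen _ fun a ha b hb => ?_) ?_
      · refine ⟨(⟨a * b₀, hAE a ha⟩ : E) * ⟨b / b₀, hBE b hb⟩, Subfield.subset_closure
          ⟨_, (eA.symm ⟨a, ha⟩).2, _, (eB.symm ⟨b, hb⟩).2, rfl⟩, ?_⟩
        simp only [Subfield.coe_mul]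
        field_simp
      · rcases hpow A' hA'0 with h | h
        · rcases hpow B' hB'0 with h' | h'
          · exact absurd ⟨h, h'⟩ hsm
          · exact Or.inr h'
        · exact Or.inl h
  have hAtop : A' = ⊤ := eq_top_iff.2 fun x _ => (hupA x).2 (htop ▸ Subgroup.mem_top _)
  have hBtop : B' = ⊤ := eq_top_iff.2 fun x _ => (hloB x).2 (htop ▸ Subgroup.mem_top _)
  refine ⟨E, ?_, ?_, hprod, fun hT => ?_⟩
  · rw [← Nat.card_congr eA, hAtop, AddSubgroup.card_top]
  · rw [← Nat.card_congr eB, hBtop, AddSubgroup.card_top]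
  · refine eq_top_iff.2 fun a _ => ?_
    have ha : a * b₀ ∈ E := by rw [hT]; trivial
    have : (⟨a * b₀, ha⟩ : E) ∈ A' := hAtop ▸ AddSubgroup.mem_top _
    change b₀⁻¹ * (a * b₀) ∈ A at this
    rwa [mul_comm a, inv_mul_cancel_left₀ hb0] at this

end Cfsg.Agent.MinU3
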