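/-
The sizes of the transvection parts of a stabiliser.
-/
import Mathlib
import Cfsg.Agent.MinU3.Full
import Cfsg.Agent.MinU3.Pair

set_option autoImplicit false
set_option linter.unusedSectionVars false
set_option linter.style.haveILetI false

namespace Cfsg.Agent.MinU3

open Cfsg.Agent.Classical.U Cfsg.Agent.MinU Cfsg.Agent.MaxSub.SubfieldMax Matrix
open scoped MatrixGroups

universe u v

variable {F : Type u} [Field F] {q : ℕ}
variable (hF : SqField F q)
include hF

theorem tS_zero {v : Fin (1 + 2) → F} (h : TrvCond q v 0) : tS hF h = 1 :=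
  SG_ext hF fun x => by rw [tS_apply]; simp

theorem tS_add {v : Fin (1 + 2) → F} {a b : F} (ha : TrvCond q v a) (hb : TrvCond q v b)
    (hab : TrvCond q v (a + b)) : tS hF hab = tS hF ha * tS hF hb :=
  SG_ext hF fun x => by
    rw [tS_apply, Subgroup.coe_mul, Subgroup.coe_mul, LinearEquiv.mul_apply, tS_apply, tS_apply,
      herm_add_left, herm_smul_left, ha.1]
    module

variable {X : Type v} [UAct F q X 1]

/-- The parameters of the transvections at a vector fixing the point. -/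
def TPar (y : X) (v : Fin (1 + 2) → F) : AddSubgroup F where
  carrier := {a | a ^ q = -a ∧ ∀ h : TrvCond q v a, tS hF h • y = y}
  zero_mem' := ⟨by simp [hF.q_ne_zero], fun h => by rw [tS_zero, one_smul]⟩
  add_mem' := by
    rintro a b ⟨ha, ea⟩ ⟨hb, eb⟩
    refine ⟨by rw [hF.add_pow, ha, hb]; ring, fun h => ?_⟩
    rw [tS_add hF ⟨h.1, ha⟩ ⟨h.1, hb⟩ h, mul_smul, eb ⟨h.1, hb⟩, ea ⟨h.1, ha⟩]
  neg_mem' := by
    rintro a ⟨ha, ea⟩
    have hna : (-a) ^ q = -(-a) := by rw [hF.neg_pow, ha]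
    refine ⟨hna, fun h => ?_⟩
    have h0 : TrvCond q v (a + -a) := ⟨h.1, by simp [hF.q_ne_zero]⟩
    have e := tS_add hF ⟨h.1, ha⟩ h h0
    have e1 : tS hF h0 = 1 := SG_ext hF fun x => by rw [tS_apply]; simp
    have e2 : tS hF h = (tS hF (⟨h.1, ha⟩ : TrvCond q v a))⁻¹ :=
      eq_inv_of_mul_eq_one_right (e.symm.trans e1)
    rw [e2, inv_smul_eq_iff]
    exact (ea _).symm

theorem mem_TPar {y : X} {v : Fin (1 + 2) → F} (hv : herm q v v = 0) {a : F} :
    a ∈ TPar hF y v ↔ ∃ h : TrvCond q v a, tS hF h • y = y :=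
  ⟨fun ha => ⟨⟨hv, ha.1⟩, ha.2 _⟩, fun ⟨h, e⟩ => ⟨h.2, fun _ => e⟩⟩

theorem TPar_eV (y : X) : TPar hF y (eV hF 1) = Kset hF y := by
  ext a
  rw [mem_TPar hF (h_ee hF)]
  constructor
  · rintro ⟨h, e⟩
    have ha : a ∈ skew hF := (mem_skew hF).2 h.2
    rw [show h = trvCond_eV hF ha from rfl, tS_eV hF ha] at e
    exact (mem_Kset hF ha).2 e
  · rintro ⟨ha, e⟩
    exact ⟨trvCond_eV hF ha, by rw [tS_eV]; exact e⟩

theorem TPar_map (g : SG 1 F q) (y : X) {v : Fin (1 + 2) → F} (hv : herm q v v = 0) :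
    TPar hF (g • y) (g.1.1 v) = TPar hF y v := by
  ext a
  rw [mem_TPar hF hv, mem_TPar hF (by rw [UG_app]; exact hv)]
  constructor
  · rintro ⟨h, e⟩
    have h0 : TrvCond q v a := ⟨hv, h.2⟩
    obtain ⟨h', e'⟩ := tS_conj hF g h0
    refine ⟨h0, ?_⟩
    change tS hF h' • g • y = g • y at e
    rw [← e', mul_smul, mul_smul, inv_smul_smul] at e
    exact MulAction.injective g e
  · rintro ⟨h0, e⟩
    obtain ⟨h', e'⟩ := tS_conj hF g h0
    exact ⟨h', by rw [← e', mul_smul, mul_smul, inv_smul_smul, e]⟩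

theorem mem_TPar_smul (y : X) {v : Fin (1 + 2) → F} (hv : herm q v v = 0) {c : F} (hc : c ≠ 0)
    {a : F} : a ∈ TPar hF y (c • v) ↔ c ^ (q + 1) * a ∈ TPar hF y v := by
  have hcv : herm q (c • v) (c • v) = 0 := by
    rw [herm_smul_left, herm_smul_right, hv, mul_zero, mul_zero]
  rw [mem_TPar hF hcv, mem_TPar hF hv, pow_succ']
  have hN : (c * c ^ q) ^ q = c * c ^ q := by rw [mul_pow, hF.pow_pow, mul_comm]
  have hN0 : c * c ^ q ≠ 0 := mul_ne_zero hc (pow_ne_zero q hc)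
  constructor
  · rintro ⟨h, e⟩
    have h' : TrvCond q v (c * c ^ q * a) := ⟨hv, by rw [mul_pow, hN, h.2]; ring⟩
    exact ⟨h', by rw [← tS_smul hF h h']; exact e⟩
  · rintro ⟨h', e⟩
    have h : TrvCond q (c • v) a := ⟨hcv, mul_left_cancel₀ hN0 (by
      rw [mul_neg]
      conv_rhs => rw [← h'.2, mul_pow, hN])⟩
    exact ⟨h, by rw [tS_smul hF h h']; exact e⟩

theorem card_TPar_smul (y : X) {v : Fin (1 + 2) → F} (hv : herm q v v = 0) {c : F} (hc : c ≠ 0) :
    Nat.card (TPar hF y (c • v)) = Nat.card (TPar hF y v) := by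
  have hN0 : c ^ (q + 1) ≠ 0 := pow_ne_zero _ hc
  exact Nat.card_congr
    { toFun := fun a => ⟨c ^ (q + 1) * a.1, (mem_TPar_smul hF y hv hc).1 a.2⟩
      invFun := fun a => ⟨(c ^ (q + 1))⁻¹ * a.1, (mem_TPar_smul hF y hv hc).2 (by
        rw [mul_inv_cancel_left₀ hN0]; exact a.2)⟩
      left_inv := fun a => Subtype.ext (inv_mul_cancel_left₀ hN0 _)
      right_inv := fun a => Subtype.ext (mul_inv_cancel_left₀ hN0 _) }

/-- The two possible shapes of a pair of parts. -/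
def PairOut (q p : ℕ) (A B : AddSubgroup F) (N : F) : Prop :=
  (Nat.card A = p ∧ Nat.card B = p ∧ p ≤ 3) ∨
    ∃ E : Subfield F, Nat.card A = Nat.card E ∧ Nat.card B = Nat.card E ∧
      (∀ x ∈ E, x ^ q = x) ∧ Nat.card E < q ∧ ∀ a ∈ A, ∀ b ∈ B, a * b * N ∈ E

/-- The dichotomy at the standard pair. -/
theorem pair_std (p : ℕ) [Fact p.Prime] [CharP F p] {y : X} (hns : Kset hF y ≠ skew hF)
    (hA : TPar hF y (eV hF 1) ≠ ⊥) (hB : TPar hF y (fV hF 1) ≠ ⊥) :
    PairOut q p (TPar hF y (eV hF 1)) (TPar hF y (fV hF 1)) 1 := by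
  classical
  obtain ⟨hfin, -⟩ := id hF
  obtain ⟨d, hd, hdq⟩ := hF.exists_skew
  haveI : Fintype (fixF hF) := Fintype.ofFinite _
  haveI : CharP (fixF hF) p := (fixF hF).subtype.charP (fixF hF).subtype.injective p
  let P : SL(2, fixF hF) → SG 1 F q → Prop := fun M g => ∀ (x y : F) (w : Fin 1 → F),
    g.1.1 (ph hF 1 ((x, y), w)) = ph hF 1 (((M.1 0 0 : F) * x + (M.1 0 1 : F) / d * y,
      d * (M.1 1 0 : F) * x + (M.1 1 1 : F) * y), w)
  have hmul : ∀ M M' g g', P M g → P M' g' → P (M * M') (g * g') := by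
    intro M M' g g' h h' x z w
    rw [Subgroup.coe_mul, Subgroup.coe_mul, LinearEquiv.mul_apply, h', h]
    congr 1
    simp only [Matrix.SpecialLinearGroup.coe_mul, Matrix.mul_apply, Fin.sum_univ_two, Subfield.coe_add,
      Subfield.coe_mul]
    refine Prod.ext (Prod.ext ?_ ?_) rfl <;> dsimp only <;> field_simp <;> ring
  have hone : P 1 1 := fun x z w => by simp
  let Hs : Submonoid SL(2, fixF hF) :=
    { carrier := {M | ∃ g : SG 1 F q, g • y = y ∧ P M g}
      one_mem' := ⟨1, one_smul _ _, hone⟩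
      mul_mem' := fun ⟨g, hg, hp⟩ ⟨g', hg', hp'⟩ =>
        ⟨g * g', by rw [mul_smul, hg', hg], hmul _ _ _ _ hp hp'⟩ }
  let H : Subgroup SL(2, fixF hF) :=
    { Hs with
      inv_mem' := fun {M} hM => by
        have h1 : M⁻¹ = M ^ (orderOf M - 1) := inv_eq_of_mul_eq_one_left (by
          rw [← pow_succ, Nat.sub_add_cancel (isOfFinOrder_of_finite M).orderOf_pos, pow_orderOf_eq_one])
        exact h1 ▸ Hs.pow_mem hM _ }
  let A' : AddSubgroup (fixF hF) := (TPar hF y (eV hF 1)).comap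
    ((AddMonoidHom.mulLeft d⁻¹).comp (fixF hF).subtype.toAddMonoidHom)
  let B' : AddSubgroup (fixF hF) := (TPar hF y (fV hF 1)).comap
    ((AddMonoidHom.mulLeft d).comp (fixF hF).subtype.toAddMonoidHom)
  have hskA : ∀ x : fixF hF, (d⁻¹ * (x : F)) ^ q = -(d⁻¹ * (x : F)) := fun x => by
    rw [mul_pow, inv_pow, hdq, (mem_fixF hF).1 x.2, inv_neg, neg_mul]
  have hskB : ∀ x : fixF hF, (d * (x : F)) ^ q = -(d * (x : F)) := fun x => by
    rw [mul_pow, hdq, (mem_fixF hF).1 x.2, neg_mul]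
  have hfixA : ∀ a : TPar hF y (eV hF 1), d * a.1 ∈ fixF hF := fun a => by
    rw [mem_fixF, mul_pow, hdq, a.2.1, neg_mul_neg]
  have hfixB : ∀ a : TPar hF y (fV hF 1), d⁻¹ * a.1 ∈ fixF hF := fun a => by
    rw [mem_fixF, mul_pow, inv_pow, hdq, a.2.1, inv_neg, neg_mul_neg]
  let eA : A' ≃ TPar hF y (eV hF 1) :=
    { toFun := fun x => ⟨d⁻¹ * (x.1 : F), x.2⟩
      invFun := fun a => ⟨⟨d * a.1, hfixA a⟩, by
        change d⁻¹ * (d * a.1) ∈ TPar hF y (eV hF 1)
        rw [inv_mul_cancel_left₀ hd]; exact a.2⟩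
      left_inv := fun x => Subtype.ext (Subtype.ext (mul_inv_cancel_left₀ hd _))
      right_inv := fun a => Subtype.ext (inv_mul_cancel_left₀ hd _) }
  let eB : B' ≃ TPar hF y (fV hF 1) :=
    { toFun := fun x => ⟨d * (x.1 : F), x.2⟩
      invFun := fun a => ⟨⟨d⁻¹ * a.1, hfixB a⟩, by
        change d * (d⁻¹ * a.1) ∈ TPar hF y (fV hF 1)
        rw [mul_inv_cancel_left₀ hd]; exact a.2⟩
      left_inv := fun x => Subtype.ext (Subtype.ext (inv_mul_cancel_left₀ hd _))
      right_inv := fun a => Subtype.ext (mul_inv_cancel_left₀ hd _) }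
  have hAH : ∀ x : fixF hF, x ∈ A' ↔ up x ∈ H := by
    intro x
    have hc : TrvCond q (eV hF 1) (d⁻¹ * (x : F)) := ⟨h_ee hF, hskA x⟩
    have hP : P (up x) (tS hF hc) := by
      intro a b w
      rw [tS_apply]
      conv_lhs => rw [← ph_eV hF (m := 1), herm_ph, ← map_smul, ← map_add]
      congr 1
      simp [up, hF.q_ne_zero, hF.herm_zero_right, div_eq_inv_mul]
    constructor
    · intro hx
      exact ⟨_, (mem_TPar hF (h_ee hF)).1 hx |>.2, hP⟩
    · rintro ⟨g, hg, hPg⟩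
      have : g = tS hF hc := SG_ext hF fun ⟨⟨a, b⟩, w⟩ => by rw [hPg, hP]
      exact (mem_TPar hF (h_ee hF)).2 ⟨hc, this ▸ hg⟩
  have hBH : ∀ x : fixF hF, x ∈ B' ↔ lo x ∈ H := by
    intro x
    have hc : TrvCond q (fV hF 1) (d * (x : F)) := ⟨h_ff hF, hskB x⟩
    have hP : P (lo x) (tS hF hc) := by
      intro a b w
      rw [tS_apply]
      conv_lhs => rw [← ph_fV hF (m := 1), herm_ph, ← map_smul, ← map_add]
      congr 1
      simp [lo, hF.q_ne_zero, hF.herm_zero_right]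
      ring
    constructor
    · intro hx
      exact ⟨_, (mem_TPar hF (h_ff hF)).1 hx |>.2, hP⟩
    · rintro ⟨g, hg, hPg⟩
      have : g = tS hF hc := SG_ext hF fun ⟨⟨a, b⟩, w⟩ => by rw [hPg, hP]
      exact (mem_TPar hF (h_ff hF)).2 ⟨hc, this ▸ hg⟩
  have hA' : A' ≠ ⊥ := fun h => hA (AddSubgroup.eq_bot_of_card_eq _ (by
    rw [← Nat.card_congr eA, h, AddSubgroup.card_bot]))
  have hB' : B' ≠ ⊥ := fun h => hB (AddSubgroup.eq_bot_of_card_eq _ (by
    rw [← Nat.card_congr eB, h, AddSubgroup.card_bot]))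
  rcases pair_dichotomy p H A' B' hA' hB' hAH hBH with ⟨h1, h2, h3⟩ | ⟨E, h1, h2, h3, h4⟩
  · exact Or.inl ⟨(Nat.card_congr eA).symm.trans h1, (Nat.card_congr eB).symm.trans h2, h3⟩
  have hEc : Nat.card (E.map (fixF hF).subtype) = Nat.card E :=
    (Nat.card_congr (Equiv.Set.image _ (E : Set (fixF hF)) Subtype.val_injective)).symm
  refine Or.inr ⟨E.map (fixF hF).subtype, ?_, ?_, ?_, ?_, fun a ha b hb => ?_⟩
  · rw [← Nat.card_congr eA, h1, hEc]
  · rw [← Nat.card_congr eB, h2, hEc]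
  · rintro _ ⟨x, -, rfl⟩
    exact (mem_fixF hF).1 x.2
  · rw [hEc]
    refine lt_of_lt_of_eq ?_ (card_fixF hF)
    by_contra hle
    push Not at hle
    refine hns (le_antisymm (Kset_le hF y) fun a ha => ?_)
    have hEt : E = ⊤ := SetLike.coe_injective (Set.eq_univ_of_univ_subset fun x _ => by
      have hbij := (Function.Injective.bijective_of_nat_card_le
        (f := (Subtype.val : E → fixF hF)) Subtype.val_injective hle).2 x
      obtain ⟨e, rfl⟩ := hbij
      exact e.2)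
    have : (⟨d * a, by rw [mem_fixF, mul_pow, hdq, (mem_skew hF).1 ha, neg_mul_neg]⟩ : fixF hF) ∈
        A' := h4 hEt ▸ AddSubgroup.mem_top _
    change d⁻¹ * (d * a) ∈ TPar hF y (eV hF 1) at this
    rwa [inv_mul_cancel_left₀ hd, TPar_eV] at this
  · refine ⟨_, h3 _ (eA.symm ⟨a, ha⟩).2 _ (eB.symm ⟨b, hb⟩).2, ?_⟩
    change (d * a) * (d⁻¹ * b) = a * b * 1
    field_simp

/-- Any two points carry the standard pair. -/
theorem exists_move {v w : Fin (1 + 2) → F} (hv0 : v ≠ 0) (hv : herm q v v = 0)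
    (hw : herm q w w = 0) (hvw : herm q v w ≠ 0) :
    ∃ (g : SG 1 F q) (c d : F), c ≠ 0 ∧ d ≠ 0 ∧ c • g.1.1 (eV hF 1) = v ∧
      d • g.1.1 (fV hF 1) = w := by
  obtain ⟨g₁, c, hc, e₁⟩ := exists_SUG_line hF hv0 hv (pair_spec hF).1.ne_zero (h_ee hF)
  obtain ⟨⟨⟨x, b⟩, z⟩, hz⟩ := (ph hF 1).surjective (g₁.1.1 w)
  have h1 : herm q (g₁.1.1 w) (g₁.1.1 v) = herm q w v := UG_app _ _ _
  rw [e₁, ← hz, ← ph_eV hF, ← map_smul, herm_ph] at h1
  have hb : b ≠ 0 := by
    rintro rfl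
    refine hvw ?_
    rw [← hF.herm_symm w v, ← h1]
    simp [hF.q_ne_zero, hF.herm_zero_right]
  have hiso : x * b ^ q + b * x ^ q + herm q z z = 0 := by
    have h2 : herm q (g₁.1.1 w) (g₁.1.1 w) = 0 := by rw [UG_app, hw]
    rwa [← hz, herm_ph] at h2
  have hcond : x / b + (x / b) ^ q + herm q (b⁻¹ • z) (b⁻¹ • z) = 0 := by
    rw [herm_smul_left, herm_smul_right, div_pow, inv_pow]
    have := pow_ne_zero q hb
    field_simp
    linear_combination hiso
  set t := tE hF (mkH (b⁻¹ • z) (x / b) hcond) with ht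
  refine ⟨g₁⁻¹ * t, c, b, hc, hb, g₁.1.1.injective ?_, g₁.1.1.injective ?_⟩
  · rw [map_smul, e₁, Subgroup.coe_mul, Subgroup.coe_mul, LinearEquiv.mul_apply,
      ← LinearEquiv.mul_apply g₁.1.1, ← Subgroup.coe_mul, ← Subgroup.coe_mul, mul_inv_cancel,
      Subgroup.coe_one, Subgroup.coe_one, LinearEquiv.coe_one, id]
    congr 1
    conv_lhs => rw [← ph_eV hF, ht, tE_apply]
    rw [← ph_eV hF]
    simp
  · rw [map_smul, Subgroup.coe_mul, Subgroup.coe_mul, LinearEquiv.mul_apply,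
      ← LinearEquiv.mul_apply g₁.1.1, ← Subgroup.coe_mul, ← Subgroup.coe_mul, mul_inv_cancel,
      Subgroup.coe_one, Subgroup.coe_one, LinearEquiv.coe_one, id, ← hz]
    conv_lhs => rw [← ph_fV hF, ht, tE_apply, ← map_smul]
    congr 1
    simp [herm_zero_left, mul_div_cancel₀ _ hb, smul_smul, mul_inv_cancel₀ hb]

variable [Finite X]

/-- The dichotomy at any pair. -/
theorem pair_gen (p : ℕ) [Fact p.Prime] [CharP F p] (hns : ∀ y : X, Kset hF y ≠ skew hF) (y : X)
    {v w : Fin (1 + 2) → F} (hv0 : v ≠ 0) (hv : herm q v v = 0) (hw : herm q w w = 0)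
    (hvw : herm q v w ≠ 0) (hA : TPar hF y v ≠ ⊥) (hB : TPar hF y w ≠ ⊥) :
    PairOut q p (TPar hF y v) (TPar hF y w) (herm q v w ^ (q + 1)) := by
  obtain ⟨hfin, -⟩ := id hF
  obtain ⟨g, c, d, hc, hd, rfl, rfl⟩ := exists_move hF hv0 hv hw hvw
  have hge : herm q (g.1.1 (eV hF 1)) (g.1.1 (eV hF 1)) = 0 := by rw [UG_app, h_ee hF]
  have hgf : herm q (g.1.1 (fV hF 1)) (g.1.1 (fV hF 1)) = 0 := by rw [UG_app, h_ff hF]
  obtain ⟨z, rfl⟩ : ∃ z, y = g • z := ⟨g⁻¹ • y, (smul_inv_smul g y).symm⟩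
  have eA : TPar hF (g • z) (g.1.1 (eV hF 1)) = TPar hF z (eV hF 1) := TPar_map hF g z (h_ee hF)
  have eB : TPar hF (g • z) (g.1.1 (fV hF 1)) = TPar hF z (fV hF 1) := TPar_map hF g z (h_ff hF)
  have hA' : TPar hF z (eV hF 1) ≠ ⊥ := fun h => hA (AddSubgroup.eq_bot_of_card_eq _ (by
    rw [card_TPar_smul hF _ hge hc, eA, h, AddSubgroup.card_bot]))
  have hB' : TPar hF z (fV hF 1) ≠ ⊥ := fun h => hB (AddSubgroup.eq_bot_of_card_eq _ (by
    rw [card_TPar_smul hF _ hgf hd, eB, h, AddSubgroup.card_bot]))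
  unfold PairOut
  rw [card_TPar_smul hF _ hge hc, card_TPar_smul hF _ hgf hd, eA, eB]
  rcases pair_std hF p (hns z) hA' hB' with h | ⟨E, h1, h2, h3, h4, h5⟩
  · exact Or.inl h
  refine Or.inr ⟨E, h1, h2, h3, h4, fun a ha b hb => ?_⟩
  rw [mem_TPar_smul hF _ hge hc, eA] at ha
  rw [mem_TPar_smul hF _ hgf hd, eB] at hb
  have := h5 _ ha _ hb
  rw [mul_one] at this
  convert this using 1
  rw [herm_smul_left, herm_smul_right, UG_app, h_ef hF, mul_one, mul_pow, ← pow_mul,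
    pow_mul d q, pow_succ (d ^ q), hF.pow_pow]
  ring

omit [Finite X] in
/-- Subfields of one order are equal. -/
theorem subfield_eq_of_card {E E' : Subfield F} (h : Nat.card E = Nat.card E') : E = E' := by
  classical
  obtain ⟨hfin, -⟩ := id hF
  have key : ∀ E : Subfield F, (E : Set F) = {x | x ^ Nat.card E = x} := by
    intro E
    haveI : Fintype E := Fintype.ofFinite E
    refine Set.eq_of_subset_of_ncard_le (fun x hx => ?_) ?_ (Set.toFinite _)
    · change x ^ Nat.card E = x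
      rw [Nat.card_eq_fintype_card]
      exact congrArg Subtype.val (FiniteField.pow_card (⟨x, hx⟩ : E))
    · rw [← Nat.card_coe_set_eq (E : Set F)]
      have h2 : 2 ≤ Nat.card E := by rw [Nat.card_eq_fintype_card]; exact Fintype.one_lt_card
      set P : Polynomial F := Polynomial.X ^ Nat.card E - Polynomial.X
      have hP : P ≠ 0 := FiniteField.X_pow_card_sub_X_ne_zero F h2
      refine le_trans (Set.ncard_le_ncard (t := (P.roots.toFinset : Set F)) (fun x hx => by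
        simp only [Finset.mem_coe, Multiset.mem_toFinset, Polynomial.mem_roots hP]
        simp [P, Polynomial.IsRoot, sub_eq_zero]
        simpa [Nat.card_eq_fintype_card] using hx) (Set.toFinite _)) ?_
      rw [Set.ncard_coe_finset]
      exact (Multiset.toFinset_card_le _).trans ((Polynomial.card_roots' P).trans
        (FiniteField.X_pow_card_sub_X_natDegree_eq F h2).le)
  exact SetLike.coe_injective (by rw [key E, key E', h])

/-- A nontrivial part is small. -/
theorem Kset_card (hq2 : 3 ≤ q) (hX : Nat.card X ≤ q ^ 3)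
    (htr : MulAction.IsPretransitive (SG 1 F q) X) (hnofix : ∀ y : X, ∃ g : SG 1 F q, g • y ≠ y)
    {y : X} (hK : Kset hF y ≠ ⊥) :
    Nat.card (Kset hF y) ^ 3 ≤ q ∨ Nat.card (Kset hF y) = 2 ∧ q = 4 ∨
      Nat.card (Kset hF y) = 3 ∧ q = 9 := by
  classical
  obtain ⟨hfin, -⟩ := id hF
  obtain ⟨p, k, hp, hcharP, hqk⟩ := hF.exists_char
  haveI := Fact.mk hp
  have hns : ∀ y : X, Kset hF y ≠ skew hF :=
    Kset_ne_skew hF (by omega) hX hnofix
  set S := {v : Fin (1 + 2) → F | (v ≠ 0 ∧ herm q v v = 0) ∧ TPar hF y v ≠ ⊥}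
  have hinv : ∀ g : SG 1 F q, g • y = y → ∀ v ∈ S, g.1.1 v ∈ S := fun g hg v hv => by
    refine ⟨⟨fun h => hv.1.1 (g.1.1.injective (h.trans (map_zero _).symm)), by
      rw [UG_app]; exact hv.1.2⟩, ?_⟩
    have := TPar_map hF g y hv.1.2
    rw [hg] at this
    rw [this]; exact hv.2
  have he : eV hF 1 ∈ S := ⟨⟨(pair_spec hF).1.ne_zero, h_ee hF⟩, by rw [TPar_eV]; exact hK⟩
  obtain ⟨Q, hQ, R, hR, hli, hRW⟩ := exists_three hF hX y S (fun v hv => hv.1) hinv he
  set P := eV hF 1 with hPdef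
  set r := Nat.card (Kset hF y) with hr
  -- the tiny parts
  by_cases hsmall : r = p ∧ p ≤ 3
  · obtain ⟨hrp, hp3⟩ := hsmall
    have hk : k ≠ 0 := by rintro rfl; simp at hqk; omega
    have hlt : r < q := by
      have hsub := Kset_le hF y
      rw [← card_skew hF]
      refine lt_of_le_of_ne (Nat.card_le_card_of_injective _ (AddSubgroup.inclusion_injective hsub)) fun h => ?_
      exact hns y (SetLike.coe_injective (Set.eq_of_subset_of_ncard_le hsub (by
        rw [← Nat.card_coe_set_eq, ← Nat.card_coe_set_eq]; exact h.ge) (Set.toFinite _)))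
    rcases (show k = 1 ∨ k = 2 ∨ 3 ≤ k by omega) with rfl | rfl | h3
    · simp at hqk; omega
    · have := hp.two_le
      rcases (show p = 2 ∨ p = 3 by omega) with rfl | rfl
      · exact Or.inr (Or.inl ⟨hrp, hqk.trans (by norm_num)⟩)
      · exact Or.inr (Or.inr ⟨hrp, hqk.trans (by norm_num)⟩)
    · left
      rw [hrp, hqk]
      exact Nat.pow_le_pow_right hp.pos h3
  have hne : ∀ {u v : Fin (1 + 2) → F}, u ∈ S → v ∈ S → LinearIndependent F ![u, v] →
      herm q u v ≠ 0 := fun hu hv h => herm_ne_zero_of_li hF hu.1.2 hv.1.2 h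
  -- every pair at the first vector has its subfield
  have hpair : ∀ {u v : Fin (1 + 2) → F}, u ∈ S → v ∈ S → herm q u v ≠ 0 →
      Nat.card (TPar hF y u) = r → ∃ E : Subfield F, Nat.card E = r ∧
        Nat.card (TPar hF y v) = r ∧ (∀ x ∈ E, x ^ q = x) ∧ r < q ∧
        ∀ a ∈ TPar hF y u, ∀ b ∈ TPar hF y v, a * b * herm q u v ^ (q + 1) ∈ E := by
    intro u v hu hv huv hcu
    rcases pair_gen hF p hns y hu.1.1 hu.1.2 hv.1.2 huv hu.2 hv.2 with
      ⟨h1, -, h3⟩ | ⟨E, h1, h2, h3, h4, h5⟩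
    · exact absurd ⟨hcu.symm.trans h1, h3⟩ hsmall
    · exact ⟨E, h1.symm.trans hcu, h2.trans (h1.symm.trans hcu), h3, (h1.symm.trans hcu) ▸ h4, h5⟩
  have hcP : Nat.card (TPar hF y P) = r := by rw [hPdef, TPar_eV]
  have hPR : LinearIndependent F ![P, R] := by
    rw [LinearIndependent.pair_iff' he.1.1]
    intro c hc
    exact hRW (hc ▸ Submodule.smul_mem _ c (Submodule.subset_span ⟨0, rfl⟩))
  have hQR : LinearIndependent F ![Q, R] := by
    rw [LinearIndependent.pair_iff' hQ.1.1]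
    intro c hc
    exact hRW (hc ▸ Submodule.smul_mem _ c (Submodule.subset_span ⟨1, rfl⟩))
  have hPQ := hne he hQ hli
  have hPR' := hne he hR hPR
  have hQR' := hne hQ hR hQR
  obtain ⟨E, hE, hcQ, hEq, hrq, hab⟩ := hpair he hQ hPQ hcP
  obtain ⟨E₂, hE₂, hcR, -, -, hag⟩ := hpair he hR hPR' hcP
  obtain ⟨E₃, hE₃, -, -, -, hbg⟩ := hpair hQ hR hQR' hcQ
  obtain rfl := subfield_eq_of_card hF (hE.trans hE₂.symm)
  obtain rfl := subfield_eq_of_card hF (hE.trans hE₃.symm)
  obtain ⟨α, hα, hα0⟩ := (AddSubgroup.bot_or_exists_ne_zero _).resolve_left he.2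
  obtain ⟨β, hβ, hβ0⟩ := (AddSubgroup.bot_or_exists_ne_zero _).resolve_left hQ.2
  obtain ⟨γ, hγ, hγ0⟩ := (AddSubgroup.bot_or_exists_ne_zero _).resolve_left hR.2
  obtain ⟨hαc, hαy⟩ := (mem_TPar hF he.1.2).1 hα
  set t := tS hF hαc
  set Q' := t.1.1 Q with hQ'def
  have hQ' : Q' ∈ S := hinv t hαy Q hQ
  have hQ'eq : Q' = Q + (α * herm q Q P) • P := tS_apply hF hαc Q
  have hQ'R : LinearIndependent F ![R, Q'] := by
    rw [LinearIndependent.pair_iff' hR.1.1]
    intro c hc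
    have h0 : Q' ∈ Submodule.span F (Set.range ![P, Q]) := by
      rw [hQ'eq]
      exact add_mem (Submodule.subset_span ⟨1, rfl⟩)
        (Submodule.smul_mem _ _ (Submodule.subset_span ⟨0, rfl⟩))
    rcases eq_or_ne c 0 with rfl | hc0
    · rw [zero_smul] at hc; exact hQ'.1.1 hc.symm
    · rw [← hc] at h0
      exact hRW (by simpa [smul_smul, inv_mul_cancel₀ hc0] using Submodule.smul_mem _ c⁻¹ h0)
  have hβ' : β ∈ TPar hF y Q' := by
    have := TPar_map hF t y hQ.1.2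
    rw [hαy] at this
    rw [hQ'def, this]; exact hβ
  obtain ⟨E₄, hE₄, -, -, -, hgb⟩ := hpair hR hQ' (hne hR hQ' hQ'R) hcR
  obtain rfl := subfield_eq_of_card hF (hE.trans hE₄.symm)
  -- the algebra of the triangle
  set a := herm q P Q with hadef
  set b := herm q Q R with hbdef
  set c := herm q R P with hcdef
  have hQP : herm q Q P = a ^ q := (hF.herm_symm P Q).symm
  have hRQ : herm q R Q = b ^ q := (hF.herm_symm Q R).symm
  have hPRc : herm q P R = c ^ q := (hF.herm_symm R P).symm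
  have hαq : α ^ q = -α := hα.1
  have hRQ' : herm q R Q' = b ^ q - α * a * c := by
    rw [hQ'eq, hF.herm_add_right, herm_smul_right, hRQ, mul_pow, hαq, hQP, hF.pow_pow]
    ring
  set X' := α * β * γ * (b ^ q * a ^ q * c ^ q) with hX'
  have hβq : β ^ q = -β := hβ.1
  have hγq : γ ^ q = -γ := hγ.1
  have hX'q : X' ^ q = -(α * β * γ * (b * a * c)) := by
    rw [hX', mul_pow, mul_pow, mul_pow, mul_pow, mul_pow, hαq, hβq, hγq, hF.pow_pow, hF.pow_pow,
      hF.pow_pow]
    ring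
  have e1 : β * γ * b ^ (q + 1) ∈ E := hbg β hβ γ hγ
  have e2 : α * β * a ^ (q + 1) ∈ E := hab α hα β hβ
  have e3 : α * γ * c ^ (q + 1) ∈ E := by
    have := hag α hα γ hγ
    rwa [hPRc, show (c ^ q) ^ (q + 1) = c ^ (q + 1) by
      rw [pow_succ (c ^ q), hF.pow_pow, pow_succ c, mul_comm]] at this
  have e4 := hgb γ hγ β hβ'
  rw [hRQ', pow_succ, hF.sub_pow, mul_pow, mul_pow, hαq, hF.pow_pow] at e4
  have hsum : X' + X' ^ q ∈ E := by
    rw [hX'q]
    have : α * β * γ * (b ^ q * a ^ q * c ^ q) + -(α * β * γ * (b * a * c)) =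
        γ * β * ((b - -α * a ^ q * c ^ q) * (b ^ q - α * a * c)) - β * γ * b ^ (q + 1) +
          (α * β * a ^ (q + 1)) * (α * γ * c ^ (q + 1)) := by
      ring
    rw [this]
    exact add_mem (sub_mem (by convert e4 using 1) e1) (mul_mem e2 e3)
  have hprod : X' * X' ^ q ∈ E := by
    rw [hX'q]
    have : α * β * γ * (b ^ q * a ^ q * c ^ q) * -(α * β * γ * (b * a * c)) =
        -((α * β * a ^ (q + 1)) * (β * γ * b ^ (q + 1)) * (α * γ * c ^ (q + 1))) := by ring
    rw [this]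
    exact neg_mem (mul_mem (mul_mem e2 e1) e3)
  by_cases hr3 : r ^ 3 ≤ q
  · exact Or.inl hr3
  exfalso
  haveI : Fintype E := Fintype.ofFinite E
  haveI : CharP E p := E.subtype.charP E.subtype.injective p
  obtain ⟨j, -, hj⟩ := FiniteField.card E p
  rw [← Nat.card_eq_fintype_card, hE] at hj
  have hdiv : (j : ℕ) ∣ k := by
    haveI : Fintype (fixF hF) := Fintype.ofFinite _
    have hle : E ≤ fixF hF := fun x hx => hEq x hx
    letI : Algebra E (fixF hF) := (Subfield.inclusion hle).toAlgebra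
    have hc : Nat.card (fixF hF) = Nat.card E ^ Module.finrank E (fixF hF) :=
      Module.natCard_eq_pow_finrank
    rw [card_fixF hF, hE, hj, ← pow_mul] at hc
    replace hc := hqk.symm.trans hc
    exact ⟨_, Nat.pow_right_injective hp.two_le hc⟩
  obtain ⟨i, rfl⟩ := hdiv
  have hq' : q = r ^ i := by rw [hj, ← pow_mul, hqk]
  have hr2 : 2 ≤ r := hE ▸ (by rw [Nat.card_eq_fintype_card]; exact Fintype.one_lt_card)
  obtain rfl : i = 2 := by
    rcases (show i = 0 ∨ i = 1 ∨ i = 2 ∨ 3 ≤ i by omega) with rfl | rfl | rfl | h3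
    · simp at hq'; omega
    · simp at hq'; omega
    · rfl
    · exact absurd (hq' ▸ Nat.pow_le_pow_right (by omega : 0 < r) h3) hr3
  have hEr : ∀ x ∈ E, x ^ r = x := fun x hx => by
    have := congrArg Subtype.val (FiniteField.pow_card (⟨x, hx⟩ : E))
    rwa [← Nat.card_eq_fintype_card, hE] at this
  have hsubr : ∀ x y : F, (x - y) ^ r = x ^ r - y ^ r := fun x y => by rw [hj, sub_pow_char_pow]
  have haddr : ∀ x y : F, (x + y) ^ r = x ^ r + y ^ r := fun x y => by rw [hj, add_pow_char_pow]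
  have hfix : X' ^ q = X' := by
    set s := X' + X' ^ q with hs
    set m := X' * X' ^ q with hm'
    have h0 : (X' ^ r) ^ 2 - s * X' ^ r + m = 0 := by
      have h1 : (X' ^ 2 - s * X' + m) ^ r = 0 := by
        rw [show X' ^ 2 - s * X' + m = 0 by rw [hs, hm']; ring,
          zero_pow (by omega : r ≠ 0)]
      rw [haddr, hsubr, mul_pow s, hEr s hsum, hEr m hprod, ← pow_mul, mul_comm 2 r, pow_mul] at h1
      exact h1
    have h2 : (X' ^ r - X') * (X' ^ r - (s - X')) = 0 := by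
      rw [hm', hs] at h0
      rw [hs]; linear_combination h0
    rw [hq', show r ^ 2 = r * r from sq r, pow_mul]
    rcases mul_eq_zero.1 h2 with h | h
    · rw [sub_eq_zero.1 h, sub_eq_zero.1 h]
    · rw [sub_eq_zero.1 h, hsubr, hEr s hsum, sub_eq_zero.1 h]; ring
  rw [hX'q, hX'] at hfix
  have htau : b ^ q * a ^ q * c ^ q + b * a * c = 0 := by
    have h0 : α * β * γ * (b ^ q * a ^ q * c ^ q + b * a * c) = 0 := by linear_combination -hfix
    exact (mul_eq_zero.1 h0).resolve_left (mul_ne_zero (mul_ne_zero hα0 hβ0) hγ0)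
  set A₀ := -(b ^ q) / a
  set B₀ := -c / a ^ q
  have haq := pow_ne_zero q hPQ
  set w := A₀ • P + B₀ • Q + R with hw
  have hwP : herm q w P = 0 := by
    simp only [hw, herm_add_left, herm_smul_left, he.1.2, hQP, ← hcdef, mul_zero, zero_add, B₀]
    field_simp
    ring
  have hwQ : herm q w Q = 0 := by
    simp only [hw, herm_add_left, herm_smul_left, hQ.1.2, ← hadef, hRQ, mul_zero, add_zero, A₀]
    field_simp
    ring
  have hwR : herm q w R = 0 := by
    simp only [hw, herm_add_left, herm_smul_left, hR.1.2, ← hbdef, hPRc, add_zero, A₀, B₀]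
    field_simp
    linear_combination -htau
  have hw0 : w = 0 := by
    refine hF.eq_zero_of_herm w fun x => ?_
    have htop : Submodule.span F (Set.range ![P, Q]) ⊔ Submodule.span F {R} = ⊤ := by
      refine Submodule.eq_top_of_finrank_eq ?_
      have hlt : Submodule.span F (Set.range ![P, Q]) <
          Submodule.span F (Set.range ![P, Q]) ⊔ Submodule.span F {R} :=
        lt_of_le_of_ne le_sup_left fun h => hRW
          (h ▸ Submodule.mem_sup_right (Submodule.mem_span_singleton_self R))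
      have h1 := Submodule.finrank_lt_finrank_of_lt hlt
      have h2 := (Submodule.span F (Set.range ![P, Q]) ⊔ Submodule.span F {R}).finrank_le
      rw [finrank_span_eq_card hli, Fintype.card_fin] at h1
      rw [Module.finrank_fin_fun] at h2 ⊢
      omega
    have hx : x ∈ Submodule.span F (Set.range ![P, Q]) ⊔ Submodule.span F {R} :=
      htop ▸ Submodule.mem_top
    obtain ⟨x₁, hx₁, x₂, hx₂, rfl⟩ := Submodule.mem_sup.1 hx
    rw [Matrix.range_cons_cons_empty, Submodule.mem_span_pair] at hx₁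
    obtain ⟨a', b', rfl⟩ := hx₁
    obtain ⟨c', rfl⟩ := Submodule.mem_span_singleton.1 hx₂
    simp [hF.herm_add_right, herm_smul_right, hwP, hwQ, hwR]
  exact hRW (by
    have hRe : R = -(A₀ • P + B₀ • Q) := by
      rw [eq_neg_iff_add_eq_zero, ← hw0, hw]; abel
    rw [hRe]
    exact neg_mem (add_mem (Submodule.smul_mem _ _ (Submodule.subset_span ⟨0, rfl⟩))
      (Submodule.smul_mem _ _ (Submodule.subset_span ⟨1, rfl⟩))))

end Cfsg.Agent.MinU3
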