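/-
Counting the translates of the invariants.
-/
import Mathlib
import Cfsg.Agent.MinU3.Trans

set_option autoImplicit false
set_option linter.unusedSectionVars false
set_option linter.style.haveILetI false

namespace Cfsg.Agent.MinU3

open Cfsg.Agent.Classical.U Cfsg.Agent.MinU

universe u v

/-- Fibres bound a source. -/
theorem card_le_mul_of_fibres {α β : Type*} [Finite α] [Finite β] (f : α → β) {b : ℕ}
    (hb : ∀ c : β, Nat.card {a : α // f a = c} ≤ b) : Nat.card α ≤ Nat.card β * b := by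
  classical
  have := Fintype.ofFinite β
  rw [← Nat.card_congr (Equiv.sigmaFiberEquiv f), Nat.card_sigma, Nat.card_eq_fintype_card,
    ← Finset.card_univ, ← smul_eq_mul]
  exact Finset.sum_le_card_nsmul _ _ _ fun c _ => hb c

theorem card_roots_le {F : Type*} [Field F] {n : ℕ} (hn : 0 < n) (c : F) :
    Nat.card {x : F // x ^ n = c} ≤ n := by
  classical
  have e : {x : F | x ^ n = c} = ((Polynomial.nthRoots n c).toFinset : Set F) := by
    ext x; simp [Polynomial.mem_nthRoots hn]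
  rw [show {x : F // x ^ n = c} = ↥{x : F | x ^ n = c} from rfl, e, Nat.card_coe_set_eq,
    Set.ncard_coe_finset]
  exact (Multiset.toFinset_card_le _).trans (Polynomial.card_nthRoots n c)

variable {F : Type u} [Field F] {q : ℕ}

/-- The factor of a scaling on the quotient of the radical. -/
def mu (q : ℕ) (l : F) : F := l ^ q * (l ^ q * l⁻¹)

theorem mu_mul (q : ℕ) (a b : F) : mu q (a * b) = mu q a * mu q b := by
  simp only [mu, mul_pow, mul_inv]; ring

theorem mu_ne_zero {l : F} (hl : l ≠ 0) (q : ℕ) : mu q l ≠ 0 :=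
  mul_ne_zero (pow_ne_zero _ hl) (mul_ne_zero (pow_ne_zero _ hl) (inv_ne_zero hl))

theorem mu_div {a b : F} (hb : b ≠ 0) (q : ℕ) : mu q (a / b) = mu q a / mu q b := by
  rw [eq_div_iff (mu_ne_zero hb q), ← mu_mul, div_mul_cancel₀ _ hb]

variable (hF : SqField F q)
include hF

theorem mu_eq_one {k : F} (hk : k ≠ 0) (h : mu q k = 1) : k ^ 3 = 1 := by
  have h2 : k ^ (2 * q) = k := by
    rw [mu] at h
    field_simp at h
    rw [two_mul, pow_add]
    linear_combination h
  have h4 : k = k ^ 4 := by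
    conv_lhs => rw [← h2, ← h2]
    rw [← pow_mul, show 2 * q * (2 * q) = q * q * 4 by ring, pow_mul, pow_mul, hF.pow_pow]
  refine mul_left_cancel₀ hk ?_
  rw [mul_one, ← pow_succ']
  exact h4.symm

theorem mu_eq_one' (h3 : q % 3 ≠ 2) {k : F} (hk : k ≠ 0) (h : mu q k = 1) : k = 1 := by
  have h3k := mu_eq_one hF hk h
  rcases (show q % 3 = 0 ∨ q % 3 = 1 by omega) with h0 | h1
  · obtain ⟨hfin, -⟩ := id hF
    obtain ⟨p, n, hp, hcharP, hqn⟩ := hF.exists_char
    have h3p : 3 ∣ p := Nat.Prime.dvd_of_dvd_pow Nat.prime_three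
      (hqn ▸ Nat.dvd_of_mod_eq_zero h0)
    obtain rfl : 3 = p := (Nat.prime_dvd_prime_iff_eq Nat.prime_three hp).1 h3p
    haveI := Fact.mk hp
    have : (k - 1) ^ 3 = 0 := by rw [sub_pow_char, h3k]; simp
    exact sub_eq_zero.1 (pow_eq_zero_iff (by norm_num) |>.1 this)
  · have hkq : k ^ q = k := by
      rw [← Nat.div_add_mod q 3, h1, pow_add, pow_mul, h3k, one_pow, one_mul, pow_one]
    rw [mu, hkq, mul_inv_cancel₀ hk, mul_one] at h
    exact h

variable {X : Type v} [UAct F q X 1]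

theorem Kset_lv {l : F} (hl : l ≠ 0) (y : X) :
    Kset hF (lv hF l hl • y) = (Kset hF y).map (AddMonoidHom.mulLeft (l * l ^ q)) :=
  Kset_lev hF hl _ _ y

theorem Aset_lv {l : F} (hl : l ≠ 0) (y : X) :
    Aset hF (lv hF l hl • y) =
      (Aset hF y).map (DistribMulAction.toAddMonoidHom (Fin 1 → F) (mu q l)) := by
  rw [lv, Aset_lev]
  congr 1
  refine AddMonoidHom.ext fun w => ?_
  change l ^ q • _ = mu q l • w
  rw [UG_one_apply hF _, (exists_det_lev hF le_rfl hl).choose_spec, smul_smul, mu]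

theorem dat_lv_congr {l : F} (hl : l ≠ 0) {y z : X} (h : dat hF y = dat hF z) :
    dat hF (lv hF l hl • y) = dat hF (lv hF l hl • z) := by
  obtain ⟨h1, h2⟩ := Prod.ext_iff.1 h
  exact Prod.ext
    (by change Aset hF _ = Aset hF _; rw [Aset_lv, Aset_lv]; exact congrArg _ h1)
    (by change Kset hF _ = Kset hF _; rw [Kset_lv, Kset_lv]; exact congrArg _ h2)

/-- The scalings keeping the invariants. -/
def Tset (y : X) : Set F := {l | ∃ hl : l ≠ 0, dat hF (lv hF l hl • y) = dat hF y}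

theorem Tset_mul {y : X} {a b : F} (ha : a ∈ Tset hF y) (hb : b ∈ Tset hF y) :
    a * b ∈ Tset hF y := by
  obtain ⟨ha0, ea⟩ := ha
  obtain ⟨hb0, eb⟩ := hb
  refine ⟨mul_ne_zero ha0 hb0, ?_⟩
  rw [← lv_mul hF ha0 hb0, mul_smul, dat_lv_congr hF ha0 eb, ea]

theorem one_mem_Tset (y : X) : (1 : F) ∈ Tset hF y :=
  ⟨one_ne_zero, by rw [lv_one, one_smul]⟩

theorem mu_smul_mem {y : X} {l : F} (hl : l ∈ Tset hF y) {w : Fin 1 → F} (hw : w ∈ Aset hF y) :
    mu q l • w ∈ Aset hF y := by
  obtain ⟨hl0, e⟩ := hl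
  have e1 : Aset hF (lv hF l hl0 • y) = Aset hF y := congrArg Prod.fst e
  rw [← e1, Aset_lv]
  exact ⟨w, hw, rfl⟩

theorem norm_mul_mem {y : X} {l : F} (hl : l ∈ Tset hF y) {a : F} (ha : a ∈ Kset hF y) :
    l * l ^ q * a ∈ Kset hF y := by
  obtain ⟨hl0, e⟩ := hl
  have e1 : Kset hF (lv hF l hl0 • y) = Kset hF y := congrArg Prod.snd e
  rw [← e1, Kset_lv]
  exact ⟨a, ha, rfl⟩

/-- The part of a point in the quotient lies on a line over the fixed field. -/
def IsLine (y : X) : Prop :=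
  ∀ w ∈ Aset hF y, ∀ w' ∈ Aset hF y, w 0 * w' 0 ^ q = w' 0 * w 0 ^ q

theorem isLine_of_Kset_bot {y : X} (hK : Kset hF y = ⊥) : IsLine hF y := by
  intro w hw w' hw'
  have h := comm_mem_Kset hF hw hw'
  rw [hK, AddSubgroup.mem_bot, herm_one, herm_one, sub_eq_zero] at h
  exact h.symm

variable [Finite X]

/-- Enough translates. -/
theorem tset_bound (hX : Nat.card X ≤ q ^ 3) (y : X) :
    q ^ 2 - 1 ≤ Nat.card (Tset hF y) * (Nat.card (Aset hF y) * Nat.card (Kset hF y)) := by
  classical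
  obtain ⟨hfin, hcard⟩ := id hF
  let f : {l : F // l ≠ 0} → trans hF y := fun l =>
    ⟨dat hF (lv hF l.1 l.2 • y),
      l.1, l.2, (exists_det_lev hF le_rfl l.2).choose, (exists_det_lev hF le_rfl l.2).choose_spec, rfl⟩
  have hfib : Nat.card {l : F // l ≠ 0} ≤ Nat.card (trans hF y) * Nat.card (Tset hF y) := by
    refine card_le_mul_of_fibres f fun c => ?_
    rcases isEmpty_or_nonempty {l : {l : F // l ≠ 0} // f l = c} with h | ⟨⟨l₀, h₀⟩⟩
    · simp
    refine Nat.card_le_card_of_injective (fun l => (⟨l₀.1⁻¹ * l.1.1,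
      mul_ne_zero (inv_ne_zero l₀.2) l.1.2, ?_⟩ : Tset hF y)) fun l l' h => ?_
    · have e1 : dat hF (lv hF l.1.1 l.1.2 • y) = dat hF (lv hF l₀.1 l₀.2 • y) :=
        congrArg Subtype.val (l.2.trans h₀.symm)
      rw [← lv_mul hF (inv_ne_zero l₀.2) l.1.2, mul_smul,
        dat_lv_congr hF (inv_ne_zero l₀.2) e1, ← mul_smul, lv_mul,
        lv_congr hF _ one_ne_zero (inv_mul_cancel₀ l₀.2), lv_one, one_smul]
    · exact Subtype.ext (Subtype.ext (mul_left_cancel₀ (inv_ne_zero l₀.2) (congrArg Subtype.val h)))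
  have hF0 : Nat.card {c : F // c ≠ 0} = q ^ 2 - 1 := by
    have := Fintype.ofFinite F
    rw [← hcard, Nat.card_eq_fintype_card, Nat.card_eq_fintype_card, Fintype.card_subtype_compl,
      Fintype.card_subtype_eq]
  rw [hF0] at hfib
  have h1 := trans_mul_le_card hF y
  have h2 := card_qOrb_mul hF y
  rw [show q ^ (2 * 1) * q = q ^ 3 by ring] at h2
  refine Nat.le_of_mul_le_mul_right ?_ (show 0 < q ^ 3 from pow_pos (by have := hF.one_lt; omega) 3)
  set P := Nat.card (Aset hF y) * Nat.card (Kset hF y)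
  calc (q ^ 2 - 1) * q ^ 3 = (q ^ 2 - 1) * (Nat.card (qOrb hF y) * P) := by rw [h2]
    _ ≤ Nat.card (trans hF y) * Nat.card (Tset hF y) * (Nat.card (qOrb hF y) * P) :=
        Nat.mul_le_mul_right _ hfib
    _ = Nat.card (trans hF y) * Nat.card (qOrb hF y) * (Nat.card (Tset hF y) * P) := by ring
    _ ≤ q ^ 3 * (Nat.card (Tset hF y) * P) := Nat.mul_le_mul_right _ (h1.trans hX)
    _ = _ := mul_comm _ _

theorem card_ne_zero_part {G : Type*} [AddGroup G] [Finite G] :
    Nat.card {a : G // a ≠ 0} = Nat.card G - 1 := by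
  classical
  have := Fintype.ofFinite G
  rw [Nat.card_eq_fintype_card, Nat.card_eq_fintype_card, Fintype.card_subtype_compl,
    Fintype.card_subtype_eq]

/-- The norms of the scalings move a centre element. -/
theorem tset_le_norm {y : X} (hK : Kset hF y ≠ ⊥) {b : ℕ}
    (hb : ∀ l ∈ Tset hF y, Nat.card {x : F // x ∈ Tset hF y ∧ x ^ (q + 1) = l ^ (q + 1)} ≤ b) :
    Nat.card (Tset hF y) ≤ (Nat.card (Kset hF y) - 1) * b := by
  classical
  obtain ⟨hfin, -⟩ := id hF
  obtain ⟨a, ha, ha0⟩ := (AddSubgroup.bot_or_exists_ne_zero _).resolve_left hK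
  let f : Tset hF y → {k : Kset hF y // k ≠ 0} := fun l =>
    ⟨⟨_, norm_mul_mem hF l.2 ha⟩, fun h => by
      have : l.1 * l.1 ^ q * a = 0 := congrArg Subtype.val h
      exact mul_ne_zero (mul_ne_zero l.2.1 (pow_ne_zero q l.2.1)) ha0 this⟩
  refine (card_le_mul_of_fibres f (b := b) fun c => ?_).trans (le_of_eq (by rw [card_ne_zero_part hF]))
  rcases isEmpty_or_nonempty {l : Tset hF y // f l = c} with h | ⟨⟨l₀, h₀⟩⟩
  · simp
  refine le_trans (Nat.card_le_card_of_injective (fun l => (⟨l.1.1, l.1.2, ?_⟩ :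
    {x : F // x ∈ Tset hF y ∧ x ^ (q + 1) = l₀.1 ^ (q + 1)})) fun l l' h => ?_) (hb _ l₀.2)
  · have : l.1.1 * l.1.1 ^ q * a = l₀.1 * l₀.1 ^ q * a :=
      congrArg (fun k : {k : Kset hF y // k ≠ 0} => (k.1 : F)) (l.2.trans h₀.symm)
    rw [pow_succ', pow_succ']
    exact mul_right_cancel₀ ha0 this
  · exact Subtype.ext (Subtype.ext (congrArg (fun x : {x : F //
      x ∈ Tset hF y ∧ x ^ (q + 1) = l₀.1 ^ (q + 1)} => x.1) h))

/-- The scalings move a quotient element. -/
theorem tset_le_mu {y : X} (hA : Aset hF y ≠ ⊥) {b : ℕ} (hb0 : 0 < b)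
    (hb : ∀ k : F, k ≠ 0 → mu q k = 1 → k ^ b = 1) :
    Nat.card (Tset hF y) ≤ (Nat.card (Aset hF y) - 1) * b := by
  classical
  obtain ⟨hfin, -⟩ := id hF
  obtain ⟨w, hw, hw0⟩ := (AddSubgroup.bot_or_exists_ne_zero _).resolve_left hA
  let f : Tset hF y → {a : Aset hF y // a ≠ 0} := fun l =>
    ⟨⟨_, mu_smul_mem hF l.2 hw⟩, fun h => by
      have : mu q l.1 • w = 0 := congrArg Subtype.val h
      exact hw0 ((smul_eq_zero.1 this).resolve_left (mu_ne_zero l.2.1 q))⟩
  refine (card_le_mul_of_fibres f (b := b) fun c => ?_).trans (le_of_eq (by rw [card_ne_zero_part hF]))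
  rcases isEmpty_or_nonempty {l : Tset hF y // f l = c} with h | ⟨⟨l₀, h₀⟩⟩
  · simp
  refine le_trans (Nat.card_le_card_of_injective (fun l => (⟨l.1.1 / l₀.1, ?_⟩ :
    {x : F // x ^ b = 1})) fun l l' h => ?_) (card_roots_le hb0 1)
  · refine hb _ (div_ne_zero l.1.2.1 l₀.2.1) ?_
    have : mu q l.1.1 • w = mu q l₀.1 • w :=
      congrArg (fun k : {a : Aset hF y // a ≠ 0} => (k.1 : Fin 1 → F)) (l.2.trans h₀.symm)
    rw [mu_div l₀.2.1, smul_left_injective F hw0 this, div_self (mu_ne_zero l₀.2.1 q)]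
  · exact Subtype.ext (Subtype.ext ((div_left_inj' l₀.2.1).1
      (congrArg (fun x : {x : F // x ^ b = 1} => x.1) h)))

omit [Finite X] in
/-- On a line the factors are fixed. -/
theorem mu_fixed {y : X} (hline : IsLine hF y) (hA : Aset hF y ≠ ⊥) {l : F} (hl : l ∈ Tset hF y) :
    mu q l ^ q = mu q l := by
  obtain ⟨w, hw, hw0⟩ := (AddSubgroup.bot_or_exists_ne_zero _).resolve_left hA
  have hw00 : w 0 ≠ 0 := fun h => hw0 (by rw [eq_wv w, h]; rfl)
  have := hline w hw _ (mu_smul_mem hF hl hw)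
  rw [Pi.smul_apply, smul_eq_mul, mul_pow] at this
  refine mul_right_cancel₀ (mul_ne_zero hw00 (pow_ne_zero q hw00)) ?_
  linear_combination this

/-- Off a line the quotient part is bounded by two centre elements. -/
theorem card_A_le_sq {y : X} (h : ¬ IsLine hF y) :
    Nat.card (Aset hF y) ≤ Nat.card (Kset hF y) * Nat.card (Kset hF y) := by
  obtain ⟨hfin, -⟩ := id hF
  simp only [IsLine, not_forall] at h
  obtain ⟨w, hw, w', hw', hne⟩ := h
  rw [← Nat.card_prod]
  refine Nat.card_le_card_of_injective (fun v : Aset hF y =>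
    ((⟨_, comm_mem_Kset hF v.2 hw⟩ : Kset hF y), (⟨_, comm_mem_Kset hF v.2 hw'⟩ : Kset hF y)))
    fun v v' e => ?_
  obtain ⟨e1, e2⟩ := Prod.ext_iff.1 e
  replace e1 := congrArg Subtype.val e1
  replace e2 := congrArg Subtype.val e2
  simp only [herm_one] at e1 e2
  set d := v.1 0 - v'.1 0 with hd
  have f1 : w 0 * d ^ q = d * w 0 ^ q := by rw [hd, hF.sub_pow]; linear_combination e1
  have f2 : w' 0 * d ^ q = d * w' 0 ^ q := by rw [hd, hF.sub_pow]; linear_combination e2
  have hd0 : d = 0 := by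
    by_contra hd0
    refine hne (mul_left_cancel₀ (pow_ne_zero q hd0) ?_)
    linear_combination w' 0 ^ q * f1 - w 0 ^ q * f2
  exact Subtype.ext (funext fun i => by rw [Subsingleton.elim i 0]; exact sub_eq_zero.1 hd0)

omit [Finite X] in
/-- A line has at most `q` elements. -/
theorem card_A_le_line {y : X} (hline : IsLine hF y) : Nat.card (Aset hF y) ≤ q := by
  obtain ⟨hfin, -⟩ := id hF
  rcases eq_or_ne (Aset hF y) ⊥ with h | h
  · rw [h, AddSubgroup.card_bot]; exact hF.one_lt.le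
  obtain ⟨w, hw, hw0⟩ := (AddSubgroup.bot_or_exists_ne_zero _).resolve_left h
  have hw00 : w 0 ≠ 0 := fun h => hw0 (by rw [eq_wv w, h]; rfl)
  refine le_of_le_of_eq (Nat.card_le_card_of_injective (fun v : Aset hF y =>
    (⟨v.1 0 / w 0, ?_⟩ : fixF hF)) fun v v' e => ?_) (card_fixF hF)
  · rw [mem_fixF, div_pow, div_eq_div_iff (pow_ne_zero q hw00) hw00]
    linear_combination hline w hw v.1 v.2
  · exact Subtype.ext (funext fun i => by
      rw [Subsingleton.elim i 0]; exact (div_left_inj' hw00).1 (congrArg Subtype.val e))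

omit [Finite X] in
/-- Squares put norms into the centre part in characteristic two. -/
theorem card_A_le_char_two (h2 : (2 : F) = 0) {y : X} (hline : IsLine hF y) :
    Nat.card (Aset hF y) ≤ Nat.card (Kset hF y) := by
  obtain ⟨hfin, -⟩ := id hF
  have hN : ∀ v ∈ Aset hF y, v 0 * v 0 ^ q ∈ Kset hF y := by
    rintro v ⟨p, rfl, hp⟩
    have hsq : tE hF (hMul hF p p) • y = y := by rw [← tE_mul, mul_smul, hp, hp]
    have h1 := sub_mem_Kset hF (p := hMul hF p p) (s := hOne hF) (by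
      simp only [hMul, hOne]
      funext i
      simp only [Pi.add_apply, Pi.zero_apply]
      linear_combination p.1.1 i * h2) hsq (by rw [tE_one, one_smul])
    simp only [hMul, hOne, sub_zero, herm_one] at h1
    convert h1 using 1
    linear_combination (p.1.1 0 * p.1.1 0 ^ q - p.1.2) * h2
  refine Nat.card_le_card_of_injective (fun v : Aset hF y => (⟨_, hN v.1 v.2⟩ : Kset hF y))
    fun v v' e => ?_
  have e' : v.1 0 * v.1 0 ^ q = v'.1 0 * v'.1 0 ^ q := congrArg Subtype.val e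
  have hl := hline v.1 v.2 v'.1 v'.2
  refine Subtype.ext (funext fun i => ?_)
  rw [Subsingleton.elim i 0]
  rcases eq_or_ne (v.1 0) 0 with h0 | h0
  · rw [h0, zero_mul, eq_comm, mul_eq_zero, pow_eq_zero_iff hF.q_ne_zero, or_self] at e'
    rw [h0, e']
  have : (v.1 0 - v'.1 0) * (v.1 0 - v'.1 0) * v.1 0 ^ q = 0 := by
    linear_combination v.1 0 * e' + v'.1 0 * hl + (v'.1 0 * v'.1 0 * v.1 0 ^ q - v.1 0 * v'.1 0 * v.1 0 ^ q) * h2
  rcases mul_eq_zero.1 this with h | h
  · exact sub_eq_zero.1 ((mul_eq_zero.1 h).elim id id)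
  · exact absurd h (pow_ne_zero q h0)

omit [Finite X] in
theorem card_dvd_q3 (y : X) : Nat.card (Aset hF y) * Nat.card (Kset hF y) ∣ q ^ 3 :=
  Dvd.intro_left _ (by rw [card_qOrb_mul hF y]; ring)

/-- All radical orbits are large, so the degree is divisible. -/
theorem dvd_card_of_small {p i M : ℕ} (hp : p.Prime) (hq : q ^ 3 = p ^ i) (hM : M ≤ i)
    (h : ∀ y : X, Nat.card (Aset hF y) * Nat.card (Kset hF y) ≤ p ^ M) :
    p ^ (i - M) ∣ Nat.card X := by
  classical
  obtain ⟨hfin, -⟩ := id hF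
  have := Fintype.ofFinite X
  rw [Nat.card_congr (MulAction.selfEquivSigmaOrbits (rad hF 1) X), Nat.card_sigma]
  have := Fintype.ofFinite (MulAction.orbitRel.Quotient (rad hF 1) X)
  refine Finset.dvd_sum fun o _ => ?_
  set y := o.out
  have h1 : qOrb hF y = MulAction.orbit (rad hF 1) y := by
    ext z
    constructor
    · rintro ⟨p, rfl⟩; exact ⟨⟨_, p, rfl⟩, rfl⟩
    · rintro ⟨⟨_, p, rfl⟩, rfl⟩; exact ⟨p, rfl⟩
  rw [← h1]
  have h2 := card_qOrb_mul hF y
  rw [show q ^ (2 * 1) * q = q ^ 3 by ring, hq] at h2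
  obtain ⟨j, -, hj⟩ := (Nat.dvd_prime_pow hp).1 (Dvd.intro_left _ h2)
  obtain ⟨s, -, hs⟩ := (Nat.dvd_prime_pow hp).1 (Dvd.intro _ h2)
  rw [hj, hs, ← pow_add] at h2
  have hji : s + j = i := Nat.pow_right_injective hp.two_le h2
  have hjM : j ≤ M := (Nat.pow_le_pow_iff_right hp.one_lt).1 (hj ▸ h y)
  rw [hs]
  exact pow_dvd_pow p (by omega)

set_option maxHeartbeats 1600000 in
/-- What is left after counting. -/
theorem count_cases (hq : 3 ≤ q) (hX : Nat.card X ≤ q ^ 3)
    [htr : MulAction.IsPretransitive (SG 1 F q) X] [Nonempty X]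
    (hnofix : ∀ y : X, ∃ g : SG 1 F q, g • y ≠ y) :
    (q = 8 ∧ 64 ∣ Nat.card X) ∨ (q = 9 ∧ 27 ∣ Nat.card X) ∨
      ((∀ y : X, Kset hF y = ⊥ ∧ Aset hF y = ⊥) ∧ Nat.card X = q ^ 3) ∨
      (q % 3 = 2 ∧ Odd q ∧ ∀ y : X, Kset hF y = ⊥ ∧ Nat.card (Aset hF y) = q) := by
  classical
  obtain ⟨hfin, -⟩ := id hF
  obtain ⟨p, k, hp, hcharP, hqk⟩ := hF.exists_char
  haveI := Fact.mk hp
  have hq3 : 0 < q ^ 3 := pow_pos (by omega) 3
  have hk : k ≠ 0 := by rintro rfl; simp at hqk; omega
  have h2iff : (2 : F) = 0 ↔ p = 2 := by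
    constructor
    · intro h
      have : ((2 : ℕ) : F) = 0 := by exact_mod_cast h
      exact (Nat.prime_dvd_prime_iff_eq hp Nat.prime_two).1 ((CharP.cast_eq_zero_iff F p 2).1 this)
    · rintro rfl; exact_mod_cast CharP.cast_eq_zero F 2
  have hKdvd : ∀ y : X, Nat.card (Kset hF y) ∣ q := fun y => by
    exact (AddSubgroup.card_dvd_of_le (Kset_le hF y)).trans (card_skew hF).dvd
  have hsq : ∀ y : X, (p = 2 ∨ ¬ IsLine hF y) →
      Nat.card (Aset hF y) ≤ Nat.card (Kset hF y) * Nat.card (Kset hF y) := by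
    intro y h
    by_cases hline : IsLine hF y
    · exact (card_A_le_char_two hF (h2iff.2 (h.resolve_right (not_not.2 hline))) hline).trans
        (Nat.le_mul_of_pos_left _ Nat.card_pos)
    · exact card_A_le_sq hF hline
  have hsmallK : ∀ y : X, Kset hF y ≠ ⊥ → Nat.card (Kset hF y) ^ 3 ≤ q ∨
      Nat.card (Kset hF y) = 2 ∧ q = 4 ∨ Nat.card (Kset hF y) = 3 ∧ q = 9 :=
    fun y h => Kset_card hF hq hX htr hnofix h
  have hbot : ∀ y : X, Kset hF y = ⊥ → Nat.card (Kset hF y) = 1 := fun y h => by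
    rw [h, AddSubgroup.card_bot]
  by_cases hall : ∀ y : X, Kset hF y = ⊥
  · -- the centre parts are trivial
    by_cases hex : ∃ y : X, Aset hF y = ⊥
    · obtain ⟨y, hy⟩ := hex
      right; right; left
      have h := card_qOrb_mul hF y
      rw [hy, hall y, AddSubgroup.card_bot, AddSubgroup.card_bot, one_mul, mul_one,
        show q ^ (2 * 1) * q = q ^ 3 by ring] at h
      have huniv : qOrb hF y = Set.univ := Set.eq_of_subset_of_ncard_le (Set.subset_univ _) (by
        rw [Set.ncard_univ, ← Nat.card_coe_set_eq, h]; exact hX) (Set.toFinite _)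
      refine ⟨fun z => ⟨hall z, ?_⟩, le_antisymm hX ?_⟩
      · have := dat_of_mem_qOrb hF (show z ∈ qOrb hF y by rw [huniv]; trivial)
        exact (congrArg Prod.fst this).trans hy
      · rw [← h]; exact Finite.card_subtype_le _
    push Not at hex
    right; right; right
    have hline : ∀ y : X, IsLine hF y := fun y => isLine_of_Kset_bot hF (hall y)
    have hp2 : p ≠ 2 := fun h => by
      obtain ⟨y⟩ := ‹Nonempty X›
      refine hex y (AddSubgroup.eq_bot_of_card_eq _ (le_antisymm ?_ Nat.card_pos))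
      exact (card_A_le_char_two hF (h2iff.2 h) (hline y)).trans (hbot y (hall y)).le
    have hfull : ∀ y : X, Nat.card (Aset hF y) = q := by
      intro y
      refine le_antisymm (card_A_le_line hF (hline y)) ?_
      by_contra hlt
      push Not at hlt
      obtain ⟨j, -, hj⟩ := (Nat.dvd_prime_pow hp).1 (show Nat.card (Aset hF y) ∣ p ^ (3 * k) by
        rw [mul_comm, pow_mul, ← hqk]
        exact (Dvd.intro _ rfl).trans (card_dvd_q3 hF y))
      rw [hj, hqk] at hlt
      have hjk : j + 1 ≤ k := (Nat.pow_lt_pow_iff_right hp.one_lt).1 hlt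
      have hap : p * Nat.card (Aset hF y) ≤ q := by
        rw [hj, hqk, ← pow_succ']
        exact Nat.pow_le_pow_right hp.pos hjk
      have hp3 : 3 ≤ p := by have := hp.two_le; omega
      have hT := tset_le_mu hF (hex y) (by norm_num : 0 < 3) fun k hk h => mu_eq_one hF hk h
      have hb := tset_bound hF hX y
      rw [hbot y (hall y), mul_one] at hb
      set a := Nat.card (Aset hF y)
      have ha1 : 1 ≤ a := Nat.card_pos
      have h3a : 3 * a ≤ q := (Nat.mul_le_mul_right a hp3).trans hap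
      obtain ⟨b, hb'⟩ : ∃ b, a = b + 1 := ⟨a - 1, by omega⟩
      rw [hb'] at hb hT h3a
      simp only [Nat.add_sub_cancel] at hT
      have h4 := hb.trans (Nat.mul_le_mul_right _ hT)
      have h5 : q ^ 2 ≤ b * 3 * (b + 1) + 1 := by omega
      nlinarith
    refine ⟨?_, (hp.odd_of_ne_two hp2).pow |> (fun h => hqk ▸ h), fun y => ⟨hall y, hfull y⟩⟩
    by_contra h3
    obtain ⟨y⟩ := ‹Nonempty X›
    have hT := tset_le_mu hF (hex y) one_pos fun k hk h => by rw [pow_one]; exact mu_eq_one' hF h3 hk h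
    have hb := tset_bound hF hX y
    rw [hbot y (hall y), mul_one, hfull y] at hb
    rw [hfull y, mul_one] at hT
    obtain ⟨b, rfl⟩ : ∃ b, q = b + 1 := ⟨q - 1, by omega⟩
    simp only [Nat.add_sub_cancel] at hT
    have h4 := hb.trans (Nat.mul_le_mul_right _ hT)
    have h5 : (b + 1) ^ 2 ≤ b * (b + 1) + 1 := by omega
    nlinarith
  push Not at hall
  obtain ⟨y, hy⟩ := hall
  by_cases h8 : q = 8
  · left
    have hp2 : p = 2 := by
      have : p ∣ 2 ^ 3 := by rw [show (2:ℕ) ^ 3 = q by rw [h8]; rfl, hqk]; exact dvd_pow_self p hk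
      exact (Nat.prime_dvd_prime_iff_eq hp Nat.prime_two).1 (hp.dvd_of_dvd_pow this)
    refine ⟨h8, dvd_card_of_small hF Nat.prime_two (i := 9) (M := 3) (by rw [h8]; rfl) (by norm_num)
      fun z => ?_⟩
    have ha := hsq z (Or.inl hp2)
    obtain ⟨r, hr⟩ : ∃ r, r = Nat.card (Kset hF z) := ⟨_, rfl⟩
    rw [← hr]
    have hr2 : r ≤ 2 := by
      by_cases hz : Kset hF z = ⊥
      · rw [hr, hbot z hz]; norm_num
      · have hsm := hsmallK z hz
        rw [← hr] at hsm
        rcases hsm with h | ⟨h, h'⟩ | ⟨h, h'⟩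
        · by_contra hc
          have := Nat.pow_le_pow_left (show 3 ≤ r by omega) 3
          omega
        · omega
        · omega
    rw [← hr] at ha
    calc Nat.card (Aset hF z) * r ≤ r * r * r := Nat.mul_le_mul_right _ ha
      _ ≤ 2 * 2 * 2 := Nat.mul_le_mul (Nat.mul_le_mul hr2 hr2) hr2
  by_cases h9 : q = 9
  · right; left
    refine ⟨h9, dvd_card_of_small hF Nat.prime_three (i := 6) (M := 3) (by rw [h9]; rfl) (by norm_num)
      fun z => ?_⟩
    obtain ⟨r, hr⟩ : ∃ r, r = Nat.card (Kset hF z) := ⟨_, rfl⟩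
    rw [← hr]
    have hr3 : r ≤ 3 := by
      by_cases hz : Kset hF z = ⊥
      · rw [hr, hbot z hz]; norm_num
      · have hsm := hsmallK z hz
        rw [← hr] at hsm
        rcases hsm with h | ⟨h, h'⟩ | ⟨h, h'⟩
        · by_contra hc
          have := Nat.pow_le_pow_left (show 4 ≤ r by omega) 3
          omega
        · omega
        · omega
    have ha : Nat.card (Aset hF z) ≤ 9 := by
      by_cases hline : IsLine hF z
      · exact h9 ▸ card_A_le_line hF hline
      · exact (card_A_le_sq hF hline).trans (hr ▸ Nat.mul_le_mul hr3 hr3)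
    exact Nat.mul_le_mul ha hr3
  exfalso
  have hb := tset_bound hF hX y
  set T := Nat.card (Tset hF y)
  obtain ⟨r, hr⟩ : ∃ r, r = Nat.card (Kset hF y) := ⟨_, rfl⟩
  rw [← hr] at hb
  set a := Nat.card (Aset hF y) with ha
  have hr2 : 2 ≤ r := hr ▸ (AddSubgroup.one_lt_card_iff_ne_bot _).2 hy
  have hq2 : 9 ≤ q ^ 2 := by
    calc 9 = 3 ^ 2 := rfl
      _ ≤ q ^ 2 := Nat.pow_le_pow_left hq 2
  have hTN := tset_le_norm hF hy (b := q + 1) fun l _ => le_trans
    (Nat.card_le_card_of_injective (fun x => (⟨x.1, x.2.2⟩ : {x : F // x ^ (q + 1) = l ^ (q + 1)}))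
      fun x x' h => Subtype.ext (congrArg Subtype.val h :)) (card_roots_le (Nat.succ_pos q) _)
  have hsm := hsmallK y hy
  rw [← hr] at hsm hTN
  have hr3 : r * r * r ≤ q * 2 := by
    rcases hsm with h | ⟨h, h'⟩ | ⟨h, h'⟩
    · rw [pow_succ, pow_two] at h; omega
    · rw [h, h']
    · omega
  by_cases hA : Aset hF y = ⊥
  · have ha1 : a = 1 := by rw [ha, hA, AddSubgroup.card_bot]
    rw [ha1, one_mul] at hb
    obtain ⟨s, hs⟩ : ∃ s, r = s + 1 := ⟨r - 1, by omega⟩
    rw [hs] at hb hTN hr3 hr2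
    rw [Nat.add_sub_cancel] at hTN
    have h4 := hb.trans (Nat.mul_le_mul_right _ hTN)
    have hsq' : s * (s + 1) + 2 ≤ q := by
      rcases hsm with h | ⟨h, h'⟩ | ⟨h, h'⟩
      · rw [hs] at h; nlinarith
      · rw [hs] at h; obtain rfl : s = 1 := by omega
        omega
      · omega
    have h5 := Nat.mul_le_mul_right (q + 1) hsq'
    have h6 : q ^ 2 ≤ s * (q + 1) * (s + 1) + 1 := by omega
    nlinarith
  by_cases hodd : p ≠ 2 ∧ IsLine hF y
  · obtain ⟨hp2, hline⟩ := hodd
    have hc : ∀ c : ℕ, 0 < c → (∀ k : F, k ≠ 0 → k ^ 6 = 1 → k ^ c = 1) → T ≤ (r - 1) * c := by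
      intro c hc hroot
      rw [hr]
      refine tset_le_norm hF hy fun l hl => le_trans (Nat.card_le_card_of_injective
        (fun x => (⟨x.1 / l, hroot _ (div_ne_zero x.2.1.1 hl.1) ?_⟩ : {x : F // x ^ c = 1}))
        fun x x' h => Subtype.ext ((div_left_inj' hl.1).1 (congrArg Subtype.val h))) (card_roots_le hc 1)
      set k := x.1 / l with hkdef
      have hk0 : k ≠ 0 := div_ne_zero x.2.1.1 hl.1
      have hk1 : k ^ (q + 1) = 1 := by
        rw [hkdef, div_pow, x.2.2, div_self (pow_ne_zero _ hl.1)]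
      have hkq : k ^ q = k⁻¹ := eq_inv_of_mul_eq_one_left (by rw [← pow_succ, hk1])
      have hmk : mu q k ^ q = mu q k := by
        rw [hkdef, mu_div hl.1, div_pow, mu_fixed hF hline hA x.2.1, mu_fixed hF hline hA hl]
      rw [mu, hkq, mul_pow, mul_pow, inv_pow, hkq, inv_inv] at hmk
      field_simp at hmk
      linear_combination hmk
    have ha' : a ≤ q := card_A_le_line hF hline
    have fin : ∀ c : ℕ, T ≤ (r - 1) * c → (r - 1) * c * r + 1 ≤ q → False := by
      intro c hT hn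
      have h1 := (hb.trans (Nat.mul_le_mul_right _ hT)).trans
        (Nat.mul_le_mul_left _ (Nat.mul_le_mul_right r ha'))
      have h2 := Nat.mul_le_mul_right q hn
      have h3 : q ^ 2 ≤ (r - 1) * c * (q * r) + 1 := by omega
      nlinarith
    obtain ⟨j, -, hj⟩ := (Nat.dvd_prime_pow hp).1 ((hKdvd y).trans hqk.dvd)
    rw [← hr] at hj
    have hj0 : j ≠ 0 := by rintro rfl; simp at hj; omega
    have hrp : p ≤ r := by rw [hj]; exact Nat.le_self_pow hj0 p
    have hp2' := hp.two_le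
    have hsq3 : r * r * r ≤ q := by
      rcases hsm with h | ⟨h, h'⟩ | ⟨h, h'⟩
      · rw [pow_succ, pow_two] at h; exact h
      · omega
      · omega
    obtain ⟨s, hs⟩ : ∃ s, r = s + 1 := ⟨r - 1, by omega⟩
    by_cases hp3 : p = 3
    · subst hp3
      refine fin 2 (hc 2 two_pos fun k _ h6 => ?_) ?_
      · have h0 : (k ^ 2 - 1) ^ 3 = 0 := by
          rw [sub_pow_char, ← pow_mul, h6]; simp
        exact sub_eq_zero.1 ((pow_eq_zero_iff (by norm_num)).1 h0)
      · rw [hs, Nat.add_sub_cancel]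
        rw [hs] at hsq3 hrp
        nlinarith
    · refine fin 6 (hc 6 (by norm_num) fun k _ h6 => h6) ?_
      have : p ≠ 4 := by rintro rfl; norm_num at hp
      have := hp.two_le
      rw [hs, Nat.add_sub_cancel]
      rw [hs] at hsq3 hrp
      have h5 : 4 ≤ s := by omega
      nlinarith
  have ha2 : a ≤ r * r := by
    rw [hr]
    refine hsq y ?_
    by_cases h : p = 2
    · exact Or.inl h
    · exact Or.inr fun hl => hodd ⟨h, hl⟩
  rcases hsm with h | ⟨h, h'⟩ | ⟨h, h'⟩
  · have hT := tset_le_mu hF hA (by norm_num : 0 < 3) fun k hk h => mu_eq_one hF hk h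
    have h1 := hb.trans (Nat.mul_le_mul (hT.trans (Nat.mul_le_mul_right 3 (Nat.sub_le_sub_right ha2 1)))
      (Nat.mul_le_mul_right r ha2))
    obtain ⟨s, hs⟩ : ∃ s, r * r = s + 1 := ⟨r * r - 1, by have := Nat.mul_le_mul hr2 hr2; omega⟩
    rw [hs, Nat.add_sub_cancel] at h1
    rw [pow_succ, pow_two, hs] at h
    have h2 : q ^ 2 ≤ s * 3 * ((s + 1) * r) + 1 := by omega
    rcases (show r = 2 ∨ r = 3 ∨ 4 ≤ r by omega) with h0 | h0 | h0
    · obtain rfl : s = 3 := by rw [h0] at hs; omega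
      rw [h0] at h2
      obtain rfl : p = 2 := by
        have h' : 2 ∣ p ^ k := h0 ▸ hr ▸ (hKdvd y).trans hqk.dvd
        exact ((Nat.prime_dvd_prime_iff_eq Nat.prime_two hp).1 (Nat.prime_two.dvd_of_dvd_pow h')).symm
      have h16 : 16 ≤ q := by
        rw [h0] at h
        rcases (show k ≤ 3 ∨ 4 ≤ k by omega) with hk3 | hk4
        · interval_cases k <;> omega
        · rw [hqk]; exact le_trans (by norm_num) (Nat.pow_le_pow_right two_pos hk4)
      nlinarith
    · obtain rfl : s = 8 := by rw [h0] at hs; omega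
      rw [h0] at h2 h
      nlinarith
    · nlinarith [Nat.mul_le_mul h h]
  · -- two and four
    have hT := tset_le_mu hF hA one_pos fun k hk h => by
      rw [pow_one]; exact mu_eq_one' hF (by omega) hk h
    rw [mul_one] at hT
    rw [h] at hb ha2
    have hT1 : ∀ l ∈ Tset hF y, l = 1 := by
      intro l hl
      by_contra hl1
      have h5 : l ^ 5 = 1 := by
        obtain ⟨a₀, ha₀, ha0⟩ := (AddSubgroup.bot_or_exists_ne_zero _).resolve_left hy
        have hm := norm_mul_mem hF hl ha₀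
        have hne : l * l ^ q * a₀ ≠ 0 := mul_ne_zero (mul_ne_zero hl.1 (pow_ne_zero q hl.1)) ha0
        have huniq : ∀ x ∈ Kset hF y, x ≠ 0 → x = a₀ := by
          intro x hx hx0
          by_contra hne'
          have : 3 ≤ r := by
            have := Nat.card_le_card_of_injective
              (![⟨0, zero_mem _⟩, ⟨a₀, ha₀⟩, ⟨x, hx⟩] : Fin 3 → Kset hF y) (by
                intro i j hij
                fin_cases i <;> fin_cases j <;>
                  simp [Subtype.ext_iff, ha0, ha0.symm, hx0, hx0.symm, hne', Ne.symm hne'] at hij ⊢)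
            rw [hr]; simpa using this
          omega
        have e := huniq _ hm hne
        rw [h'] at e
        refine mul_right_cancel₀ ha0 ?_
        rw [one_mul, pow_succ' l 4]
        exact e
      have hpow : ∀ i : ℕ, l ^ i ∈ Tset hF y := by
        intro i
        induction i with
        | zero => rw [pow_zero]; exact one_mem_Tset hF y
        | succ i ih => rw [pow_succ]; exact Tset_mul hF ih hl
      haveI : Fact (Nat.Prime 5) := ⟨Nat.prime_five⟩
      have hord : orderOf l = 5 := orderOf_eq_prime h5 hl1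
      have := Nat.card_le_card_of_injective (fun i : Fin 5 => (⟨l ^ (i : ℕ), hpow i⟩ : Tset hF y))
        fun i j e => Fin.ext (pow_injOn_Iio_orderOf (by simp [hord]) (by simp [hord])
          (congrArg Subtype.val e))
      rw [Nat.card_fin] at this
      change 5 ≤ T at this
      omega
    have : T ≤ 1 := by
      haveI : Subsingleton (Tset hF y) := ⟨fun a b => Subtype.ext ((hT1 _ a.2).trans (hT1 _ b.2).symm)⟩
      exact Finite.card_le_one_iff_subsingleton.2 inferInstance
    have := hb.trans (Nat.mul_le_mul this (Nat.mul_le_mul_right 2 ha2))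
    rw [h'] at this
    norm_num at this
  · exact h9 h'

end Cfsg.Agent.MinU3
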