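/-
The pairing of the points of a hyperbolic plane given by the centraliser of a reflection.
-/
import Mathlib
import Cfsg.Agent.MinU3.Count

set_option autoImplicit false
set_option linter.unusedSectionVars false
set_option linter.style.haveILetI false

namespace Cfsg.Agent.MinU3

open Cfsg.Agent.Classical.U Cfsg.Agent.MinU

universe u v

variable {F : Type u} [Field F] {q : ℕ}
variable (hF : SqField F q)
include hF

theorem SG_mul_apply (g h : SG 1 F q) (w : Fin (1 + 2) → F) :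
    (g * h).1.1 w = g.1.1 (h.1.1 w) := rfl

theorem SG_inv_apply (g : SG 1 F q) (w : Fin (1 + 2) → F) : g⁻¹.1.1 (g.1.1 w) = w :=
  g.1.1.symm_apply_apply w

theorem tE_eV (p : Heis 1 F q) : (tE hF p).1.1 (eV hF 1) = eV hF 1 := by
  conv_lhs => rw [← ph_eV hF, tE_apply]
  rw [← ph_eV hF]
  simp [herm_zero_left]

theorem lv_eV {l : F} (hl : l ≠ 0) : (lv hF l hl).1.1 (eV hF 1) = l • eV hF 1 := by
  conv_lhs => rw [← ph_eV hF, lv_apply]
  rw [← ph_eV hF, ← map_smul]
  simp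

theorem lv_fV {l : F} (hl : l ≠ 0) : (lv hF l hl).1.1 (fV hF 1) = (l ^ q)⁻¹ • fV hF 1 := by
  conv_lhs => rw [← ph_fV hF, lv_apply]
  rw [← ph_fV hF, ← map_smul]
  simp

theorem tE_lv_eV (p : Heis 1 F q) {l : F} (hl : l ≠ 0) :
    (tE hF p * lv hF l hl).1.1 (eV hF 1) = l • eV hF 1 := by
  rw [SG_mul_apply hF, lv_eV, map_smul, tE_eV]

variable {X : Type v} [UAct F q X 1]

/-- What the pairing argument needs. -/
structure PairSetup (x₀ : X) (l₁ : F) (e : ℕ) : Prop where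
  hK : Kset hF x₀ = ⊥
  hN1 : l₁ ^ (q + 1) = 1
  h31 : l₁ ^ 3 ≠ 1
  hh : ∀ hl : l₁ ≠ 0, lv hF l₁ hl • x₀ = x₀
  hlift : ∀ (p : Heis 1 F q) (l : F) (hl : l ≠ 0),
    (tE hF p * lv hF l hl) • x₀ = x₀ → lv hF l hl • x₀ = x₀
  htr : ∀ v : Fin (1 + 2) → F, v ≠ 0 → herm q v v = 0 →
    ∃ k : SG 1 F q, k • x₀ = x₀ ∧ ∃ c : F, c ≠ 0 ∧ k.1.1 (eV hF 1) = c • v
  hND : ∀ x : F, x ≠ 0 → x ^ q = x →
    ∃ (l : F) (hl : l ≠ 0), lv hF l hl • x₀ = x₀ ∧ l ^ (q + 1) = x ^ e
  hnt : ∃ (l : F) (hl : l ≠ 0), lv hF l hl • x₀ = x₀ ∧ l ^ (q + 1) ≠ 1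

variable [Finite X]

/-- The pairing bounds the degree of the field. -/
theorem pairing {x₀ : X} {l₁ : F} {e : ℕ} (he : 0 < e) (hS : PairSetup hF x₀ l₁ e) :
    Odd q ∧ q ≤ 2 * (e * e) + 3 := by
  classical
  obtain ⟨hfin, -⟩ := id hF
  obtain ⟨hK, hN1, h31, hh, hlift, htr, hND, hnt⟩ := hS
  have hl1 : l₁ ≠ 0 := fun h => by rw [h, zero_pow (Nat.succ_ne_zero q)] at hN1; exact zero_ne_one hN1
  set h := lv hF l₁ hl1 with hhdef
  have hhx : h • x₀ = x₀ := hh hl1
  have hμ : mu q l₁ ≠ 1 := fun hc => h31 (mu_eq_one hF hl1 hc)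
  have hq1 : l₁ ^ q = l₁⁻¹ := eq_inv_of_mul_eq_one_left (by rw [← pow_succ, hN1])
  -- the fixed radical part commuting with `h` is trivial
  have hcz : ∀ p : Heis 1 F q, tE hF p • x₀ = x₀ → h * tE hF p = tE hF p * h → tE hF p = 1 := by
    intro p hp hc
    obtain ⟨p', e1, e2, -⟩ := lv_tE hF hl1 p
    rw [← hhdef, hc] at e1
    obtain rfl := tE_injective hF (mul_right_cancel e1)
    have hw : p.1.1 0 = 0 := by
      have : (mu q l₁ - 1) * p.1.1 0 = 0 := by rw [mu]; linear_combination -e2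
      exact (mul_eq_zero.1 this).resolve_left (sub_ne_zero.2 hμ)
    have hw' : p.1.1 = (hOne hF : Heis 1 F q).1.1 := funext fun i => by
      rw [Subsingleton.elim i 0, hw]; rfl
    have := sub_mem_Kset hF hw' hp (by rw [tE_one, one_smul])
    rw [hK, AddSubgroup.mem_bot, sub_eq_zero] at this
    rw [show p = hOne hF from Subtype.ext (Prod.ext hw' this), tE_one]
  -- conjugates of `h` inside the stabiliser of the line
  have hconj : ∀ p : Heis 1 F q, (tE hF p * h) • x₀ = x₀ →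
      ∃ r : Heis 1 F q, tE hF r • x₀ = x₀ ∧ tE hF p * h = tE hF r * h * (tE hF r)⁻¹ := by
    intro p hp
    rw [mul_smul, hhx] at hp
    have hT : l₁ ∈ Tset hF x₀ := ⟨hl1, by rw [hh hl1]⟩
    let M : Aset hF x₀ → Aset hF x₀ := fun w =>
      ⟨w.1 - mu q l₁ • w.1, sub_mem w.2 (mu_smul_mem hF hT w.2)⟩
    have hMinj : Function.Injective M := by
      intro w w' e
      have e' : w.1 - mu q l₁ • w.1 = w'.1 - mu q l₁ • w'.1 := congrArg Subtype.val e
      have h0 : (1 - mu q l₁) • (w.1 - w'.1) = 0 := by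
        linear_combination (norm := module) e'
      exact Subtype.ext (sub_eq_zero.1 ((smul_eq_zero.1 h0).resolve_left (sub_ne_zero.2 (Ne.symm hμ))))
    obtain ⟨⟨w, r, rfl, hr⟩, hw⟩ := (Finite.injective_iff_surjective.1 hMinj) ⟨p.1.1, p, rfl, hp⟩
    have hw' : r.1.1 - mu q l₁ • r.1.1 = p.1.1 := congrArg Subtype.val hw
    obtain ⟨r', e1, e2, -⟩ := lv_tE hF hl1 (hInv hF r)
    rw [← hhdef] at e1
    refine ⟨r, hr, ?_⟩
    have hfix : tE hF (hMul hF r r') • x₀ = x₀ := by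
      have e3 : tE hF (hMul hF r r') = tE hF r * h * (tE hF r)⁻¹ * h⁻¹ := by
        rw [← tE_mul, tE_inv, mul_assoc (tE hF r) h, e1]; group
      rw [e3, mul_smul, mul_smul, mul_smul, inv_smul_eq_iff.2 hhx.symm, inv_smul_eq_iff.2 hr.symm,
        hhx, hr]
    have hwe : (hMul hF r r').1.1 = p.1.1 := funext fun i => by
      rw [Subsingleton.elim i 0, ← hw']
      simp only [hMul, Pi.add_apply, Pi.sub_apply, Pi.smul_apply, smul_eq_mul, e2, hInv,
        Pi.neg_apply, mu]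
      ring
    have := sub_mem_Kset hF hwe hfix hp
    rw [hK, AddSubgroup.mem_bot, sub_eq_zero] at this
    rw [← show hMul hF r r' = p from Subtype.ext (Prod.ext hwe this), ← tE_mul, tE_inv,
      mul_assoc (tE hF r) h, e1, mul_assoc]
  -- the vectors of the plane
  have hplane : ∀ v : Fin (1 + 2) → F, h.1.1 v = l₁ • v →
      ∃ a b : F, v = a • eV hF 1 + b • fV hF 1 := by
    intro v hv
    obtain ⟨⟨⟨a, b⟩, z⟩, rfl⟩ := (ph hF 1).surjective v
    rw [hhdef, lv_apply, ← map_smul] at hv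
    have e1 := congrArg (fun p : (F × F) × (Fin 1 → F) => p.2 0) ((ph hF 1).injective hv)
    simp only [Prod.smul_snd, Pi.smul_apply, smul_eq_mul, hq1] at e1
    have hz : z 0 = 0 := by
      by_contra hz
      have e2 := mul_right_cancel₀ hz e1
      refine h31 ?_
      field_simp at e2
      linear_combination -e2
    refine ⟨a, b, ?_⟩
    rw [ph_apply, show z = 0 from funext fun i => by rw [Subsingleton.elim i 0, hz]; rfl]
    simp only [add_eq_left]
    funext i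
    fin_cases i <;> rfl
  let C : Subgroup (SG 1 F q) := MulAction.stabilizer (SG 1 F q) x₀ ⊓ Subgroup.centralizer {h}
  have memC : ∀ g, g ∈ C ↔ g • x₀ = x₀ ∧ h * g = g * h := fun g => by
    rw [Subgroup.mem_inf, MulAction.mem_stabilizer_iff, Subgroup.mem_centralizer_singleton_iff]
    exact and_congr_right fun _ => eq_comm
  have hlvC : ∀ (l : F) (hl : l ≠ 0), lv hF l hl • x₀ = x₀ → lv hF l hl ∈ C := fun l hl hx =>
    (memC _).2 ⟨hx, by rw [hhdef, lv_mul, lv_mul]; exact lv_congr hF _ _ (mul_comm _ _)⟩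
  have hCe : ∀ g ∈ C, ∀ v, h.1.1 v = l₁ • v → h.1.1 (g.1.1 v) = l₁ • g.1.1 v := by
    intro g hg v hv
    rw [← SG_mul_apply hF, ((memC g).1 hg).2, SG_mul_apply hF, hv, map_smul]
  have hhe : h.1.1 (eV hF 1) = l₁ • eV hF 1 := lv_eV hF hl1
  have hhf : h.1.1 (fV hF 1) = l₁ • fV hF 1 := by
    rw [hhdef, lv_fV, hq1, inv_inv]
  -- elements fixing the first line
  have hD : ∀ g ∈ C, ∀ c : F, g.1.1 (eV hF 1) = c • eV hF 1 →
      ∃ hc : c ≠ 0, g = lv hF c hc := by
    intro g hg c hgc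
    obtain ⟨p, hc, rfl⟩ := exists_tE_lv hF hgc
    obtain ⟨hx, hcomm⟩ := (memC _).1 hg
    have hlv := hlift p c hc hx
    refine ⟨hc, ?_⟩
    have h1 : tE hF p • x₀ = x₀ := by rw [mul_smul, hlv] at hx; exact hx
    have h2 : h * tE hF p = tE hF p * h := by
      have e1 := ((memC _).1 (hlvC c hc hlv)).2
      rw [← mul_assoc, mul_assoc (tE hF p), ← e1, ← mul_assoc] at hcomm
      exact mul_right_cancel hcomm
    rw [hcz p h1 h2, one_mul]
  -- transitivity on the plane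
  have hCtr : ∀ v : Fin (1 + 2) → F, v ≠ 0 → herm q v v = 0 → h.1.1 v = l₁ • v →
      ∃ g ∈ C, ∃ c : F, c ≠ 0 ∧ g.1.1 (eV hF 1) = c • v := by
    intro v hv0 hv hhv
    obtain ⟨k, hk, c, hc, hke⟩ := htr v hv0 hv
    have he1 : (k⁻¹ * h * k).1.1 (eV hF 1) = l₁ • eV hF 1 := by
      rw [SG_mul_apply hF, SG_mul_apply hF, hke, map_smul, hhv, smul_comm, ← hke, map_smul,
        SG_inv_apply hF]
    obtain ⟨p, hl, hp⟩ := exists_tE_lv hF he1
    have hfix : (tE hF p * h) • x₀ = x₀ := by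
      rw [hhdef, ← hp, mul_smul, mul_smul, hk, hhx, inv_smul_eq_iff, hk]
    obtain ⟨r, hr, hre⟩ := hconj p hfix
    have e : k⁻¹ * h * k = tE hF r * h * (tE hF r)⁻¹ := hp.trans hre
    refine ⟨k * tE hF r, (memC _).2 ⟨by rw [mul_smul, hr, hk], ?_⟩, c, hc, ?_⟩
    · calc h * (k * tE hF r) = k * (k⁻¹ * h * k) * tE hF r := by group
        _ = k * tE hF r * h := by rw [e]; group
    · rw [SG_mul_apply hF, tE_eV, hke]
  obtain ⟨d, hd, hdq⟩ := hF.exists_skew
  obtain ⟨g₀, hg₀, c₀, hc₀, hg₀e⟩ := hCtr (fV hF 1) ((pair_spec hF).1.symm hF).ne_zero (h_ff hF) hhf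
  have hg₀f : ∃ b : F, b ≠ 0 ∧ g₀.1.1 (fV hF 1) = b • eV hF 1 := by
    obtain ⟨a, b, hab⟩ := hplane _ (hCe g₀ hg₀ _ hhf)
    obtain ⟨l, hl, hlx, hlN⟩ := hnt
    have hmem : g₀⁻¹ * lv hF l hl * g₀ ∈ C :=
      C.mul_mem (C.mul_mem (C.inv_mem hg₀) (hlvC l hl hlx)) hg₀
    have he2 : (g₀⁻¹ * lv hF l hl * g₀).1.1 (eV hF 1) = (l ^ q)⁻¹ • eV hF 1 := by
      rw [SG_mul_apply hF, SG_mul_apply hF, hg₀e, map_smul, lv_fV, smul_comm, ← hg₀e, map_smul,
        SG_inv_apply hF]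
    obtain ⟨hne, heq⟩ := hD _ hmem _ he2
    have he3 : (lv hF l hl).1.1 (g₀.1.1 (fV hF 1)) =
        g₀.1.1 ((lv hF ((l ^ q)⁻¹) hne).1.1 (fV hF 1)) := by
      rw [← heq, ← SG_mul_apply hF, ← SG_mul_apply hF]
      congr 2
      group
    rw [lv_fV, map_smul, hab, map_add, map_smul, map_smul, lv_eV, lv_fV, smul_smul, smul_smul,
      smul_add, smul_smul, smul_smul, inv_pow, inv_inv, hF.pow_pow] at he3
    have hb : b = 0 := by
      by_contra hb
      have h1 := congrArg (fun v => herm q v (eV hF 1)) he3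
      simp only [herm_add_left, herm_smul_left, h_ee hF, h_fe hF, mul_zero, mul_one, zero_add] at h1
      have h2 : (l ^ q)⁻¹ = l := mul_left_cancel₀ hb (by linear_combination h1)
      refine hlN ?_
      rw [pow_succ]
      nth_rewrite 2 [← h2]
      exact mul_inv_cancel₀ (pow_ne_zero q hl)
    refine ⟨a, fun ha => ?_, by rw [hab, hb, zero_smul, add_zero]⟩
    rw [ha, hb, zero_smul, zero_smul, add_zero] at hab
    exact ((pair_spec hF).1.symm hF).ne_zero (g₀.1.1.injective (hab.trans (map_zero _).symm))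
  obtain ⟨b₀, hb₀, hg₀f⟩ := hg₀f
  -- the points
  let vec : Option (skew hF) → (Fin (1 + 2) → F) := fun o =>
    o.elim (eV hF 1) fun s => s.1 • eV hF 1 + fV hF 1
  have hvec : ∀ o, h.1.1 (vec o) = l₁ • vec o ∧ vec o ≠ 0 ∧ herm q (vec o) (vec o) = 0 := by
    rintro (_ | s)
    · exact ⟨hhe, (pair_spec hF).1.ne_zero, h_ee hF⟩
    · refine ⟨?_, fun h0 => ?_, ?_⟩
      · change h.1.1 (s.1 • eV hF 1 + fV hF 1) = l₁ • (s.1 • eV hF 1 + fV hF 1)
        rw [map_add, map_smul, hhe, hhf, smul_comm, smul_add]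
      · change s.1 • eV hF 1 + fV hF 1 = 0 at h0
        have := congrArg (fun v => herm q v (eV hF 1)) h0
        simp [herm_add_left, herm_smul_left, h_ee hF, h_fe hF] at this
      · change herm q (s.1 • eV hF 1 + fV hF 1) (s.1 • eV hF 1 + fV hF 1) = 0
        simp only [herm_add_left, hF.herm_add_right, herm_smul_left, herm_smul_right, h_ee hF,
          h_ff hF, h_ef hF, h_fe hF]
        linear_combination (mem_skew hF).1 s.2
  have hpt : ∀ v, v ≠ 0 → herm q v v = 0 → h.1.1 v = l₁ • v →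
      ∃ o, ∃ c : F, c ≠ 0 ∧ v = c • vec o := by
    intro v hv0 hv hhv
    obtain ⟨a, b, rfl⟩ := hplane v hhv
    rcases eq_or_ne b 0 with rfl | hb
    · rw [zero_smul, add_zero] at hv0 ⊢
      exact ⟨none, a, fun ha => hv0 (by rw [ha, zero_smul]), rfl⟩
    · simp only [herm_add_left, hF.herm_add_right, herm_smul_left, herm_smul_right, h_ee hF, h_ff hF,
        h_ef hF, h_fe hF] at hv
      have hs : a / b ∈ skew hF := by
        rw [mem_skew, div_pow, ← neg_div, div_eq_div_iff (pow_ne_zero q hb) hb]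
        linear_combination hv
      refine ⟨some ⟨a / b, hs⟩, b, hb, ?_⟩
      change _ = b • ((a / b) • eV hF 1 + fV hF 1)
      rw [smul_add, smul_smul, mul_div_cancel₀ _ hb]
  have hvec_inj : ∀ o o', ∀ c : F, vec o = c • vec o' → o = o' := by
    intro o o' c hc
    have h1 := congrArg (fun v => herm q v (eV hF 1)) hc
    have h2 := congrArg (fun v => herm q v (fV hF 1)) hc
    rcases o with _ | s <;> rcases o' with _ | s' <;>
      simp [vec, herm_add_left, herm_smul_left, h_ee hF, h_fe hF, h_ef hF, h_ff hF] at h1 h2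
    · rfl
    · rw [← h1] at h2; simp at h2
    · rw [← h1, one_mul] at h2
      rw [Subtype.ext h2]
  -- the pairing
  have key : ∀ o, ∃ o', ∃ g ∈ C, (∃ c : F, c ≠ 0 ∧ g.1.1 (eV hF 1) = c • vec o) ∧
      ∃ c : F, c ≠ 0 ∧ g.1.1 (fV hF 1) = c • vec o' := by
    intro o
    obtain ⟨g, hg, c, hc, hge⟩ := hCtr _ (hvec o).2.1 (hvec o).2.2 (hvec o).1
    have hf0 : g.1.1 (fV hF 1) ≠ 0 := fun h0 =>
      ((pair_spec hF).1.symm hF).ne_zero (g.1.1.injective (h0.trans (map_zero _).symm))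
    obtain ⟨o', c', hc', e'⟩ := hpt _ hf0 (by rw [UG_app, h_ff hF]) (hCe g hg _ hhf)
    exact ⟨o', g, hg, ⟨c, hc, hge⟩, c', hc', e'⟩
  choose σ hσ using key
  have hσ_eq : ∀ g ∈ C, ∀ o o', (∃ c : F, c ≠ 0 ∧ g.1.1 (eV hF 1) = c • vec o) →
      (∃ c : F, c ≠ 0 ∧ g.1.1 (fV hF 1) = c • vec o') → σ o = o' := by
    rintro g hg o o' ⟨c, hc, e1⟩ ⟨c', hc', e2⟩
    obtain ⟨g', hg', ⟨a, ha, e3⟩, a', ha', e4⟩ := hσ o
    have he' : (g⁻¹ * g').1.1 (eV hF 1) = (a * c⁻¹) • eV hF 1 := by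
      rw [SG_mul_apply hF, e3, show a • vec o = (a * c⁻¹) • g.1.1 (eV hF 1) by
        rw [e1, smul_smul, mul_assoc, inv_mul_cancel₀ hc, mul_one], map_smul, SG_inv_apply hF]
    obtain ⟨hne, heq⟩ := hD _ (C.mul_mem (C.inv_mem hg) hg') _ he'
    have e5 : g' = g * lv hF _ hne := by rw [← heq, mul_inv_cancel_left]
    rw [e5, SG_mul_apply hF, lv_fV, map_smul, e2, smul_smul] at e4
    refine hvec_inj _ _ (a'⁻¹ * (((a * c⁻¹) ^ q)⁻¹ * c')) ?_
    rw [← smul_smul, e4, smul_smul, inv_mul_cancel₀ ha', one_smul]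
  have hσne : ∀ o, σ o ≠ o := by
    intro o ho
    obtain ⟨g, hg, ⟨a, ha, e1⟩, a', ha', e2⟩ := hσ o
    rw [ho] at e2
    have : g.1.1 (a' • eV hF 1) = g.1.1 (a • fV hF 1) := by
      rw [map_smul, map_smul, e1, e2, smul_comm]
    have h2 := congrArg (fun v => herm q v (eV hF 1)) (g.1.1.injective this)
    simp [herm_smul_left, h_ee hF, h_fe hF] at h2
    exact ha h2.symm
  have hσσ : ∀ o, σ (σ o) = o := by
    intro o
    obtain ⟨g, hg, ⟨a, ha, e1⟩, a', ha', e2⟩ := hσ o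
    exact hσ_eq (g * g₀) (C.mul_mem hg hg₀) _ _
      ⟨c₀ * a', mul_ne_zero hc₀ ha', by rw [SG_mul_apply hF, hg₀e, map_smul, e2, smul_smul]⟩
      ⟨b₀ * a, mul_ne_zero hb₀ ha, by rw [SG_mul_apply hF, hg₀f, map_smul, e1, smul_smul]⟩
  have hσequiv : ∀ g ∈ C, ∀ o o', (∃ c : F, c ≠ 0 ∧ g.1.1 (vec o) = c • vec o') →
      ∀ o'', (∃ c : F, c ≠ 0 ∧ g.1.1 (vec (σ o)) = c • vec o'') → σ o' = o'' := by
    rintro g hg o o' ⟨c, hc, e3⟩ o'' ⟨c', hc', e4⟩
    obtain ⟨g', hg', ⟨a, ha, e1⟩, a', ha', e2⟩ := hσ o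
    exact hσ_eq (g * g') (C.mul_mem hg hg') _ _
      ⟨a * c, mul_ne_zero ha hc, by rw [SG_mul_apply hF, e1, map_smul, e3, smul_smul]⟩
      ⟨a' * c', mul_ne_zero ha' hc', by rw [SG_mul_apply hF, e2, map_smul, e4, smul_smul]⟩
  haveI : Fintype (Option (skew hF)) := Fintype.ofFinite _
  constructor
  · let π : Equiv.Perm (Option (skew hF)) := ⟨σ, σ, hσσ, hσσ⟩
    have h2 : π ^ 2 = 1 := by ext o : 1; simp [sq, π, hσσ]
    have hsupp : π.support = Finset.univ := Finset.eq_univ_of_forall fun o =>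
      Equiv.Perm.mem_support.2 (hσne o)
    have heven := Equiv.Perm.two_dvd_card_support h2
    rw [hsupp, Finset.card_univ, ← Nat.card_eq_fintype_card, Finite.card_option, card_skew hF] at heven
    exact Nat.not_even_iff_odd.1 fun he => by rw [even_iff_two_dvd] at he; omega
  -- the quadratic equations
  let zero' : skew hF := 0
  have hv0 : vec (some zero') = fV hF 1 := by simp [vec, zero']
  have hσnone : σ none = some zero' :=
    hσ_eq 1 C.one_mem none (some zero') ⟨1, one_ne_zero, by simp [vec]⟩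
      ⟨1, one_ne_zero, by simp [hv0]⟩
  have hσ0 : σ (some zero') = none := by rw [← hσnone, hσσ]
  have hsne : ∀ s : skew hF, s ≠ 0 → ∃ t : skew hF, t ≠ 0 ∧ σ (some s) = some t := by
    intro s hs
    cases ht : σ (some s) with
    | none => exact absurd (by
        have := hσσ (some s); rw [ht, hσnone] at this; exact (Option.some.inj this).symm) hs
    | some t =>
      refine ⟨t, fun h0 => ?_, rfl⟩
      have := hσσ (some s); rw [ht, h0, show (0 : skew hF) = zero' from rfl, hσ0] at this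
      simp at this
  choose! tt htt using hsne
  let cc : {s : skew hF // s ≠ 0} → F := fun s => (tt s.1 : F) / (s.1 : F)
  have hcc1 : ∀ s, cc s ≠ 1 ∧ cc s ≠ 0 ∧ cc s ^ q = cc s := by
    rintro ⟨s, hs⟩
    have hs0 : (s : F) ≠ 0 := fun h => hs (Subtype.ext h)
    refine ⟨fun h1 => ?_, div_ne_zero (fun h => (htt s hs).1 (Subtype.ext h)) hs0, ?_⟩
    · have : tt s = s := Subtype.ext ((div_eq_one_iff_eq hs0).1 h1)
      exact hσne (some s) (by rw [(htt s hs).2, this])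
    · change ((tt s : F) / (s : F)) ^ q = (tt s : F) / (s : F)
      rw [div_pow, (mem_skew hF).1 (tt s).2, (mem_skew hF).1 s.2, neg_div_neg_eq]
  haveI : Fintype {s : skew hF // s ≠ 0} := Fintype.ofFinite _
  haveI : Fintype F := Fintype.ofFinite F
  let R : Finset F := Finset.univ.image cc
  -- few values
  have hR : R.card ≤ e := by
    haveI : Fintype (fixF hF) := Fintype.ofFinite _
    obtain ⟨g, hg⟩ := IsCyclic.exists_zpow_surjective (G := (fixF hF)ˣ)
    have hgF : ∀ i : ℕ, d * ((g : fixF hF) : F) ^ i ∈ skew hF := fun i => by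
      rw [mem_skew, mul_pow, hdq, ← pow_mul, mul_comm i q, pow_mul, (mem_fixF hF).1 (g : fixF hF).2,
        neg_mul]
    have hg0 : ((g : fixF hF) : F) ≠ 0 := fun h => g.ne_zero (Subtype.ext h)
    have hne : ∀ i : ℕ, (⟨_, hgF i⟩ : skew hF) ≠ 0 := fun i h =>
      mul_ne_zero hd (pow_ne_zero i hg0) (congrArg Subtype.val h)
    refine le_trans (Finset.card_le_card (t := (Finset.range e).image fun i => cc ⟨_, hne i⟩) ?_)
      (Finset.card_image_le.trans (Finset.card_range e).le)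
    intro c hc
    obtain ⟨⟨s, hs⟩, -, rfl⟩ := Finset.mem_image.1 hc
    have hs0 : (s : F) ≠ 0 := fun h => hs (Subtype.ext h)
    have hfix : (s : F) / d ∈ fixF hF := by
      rw [mem_fixF, div_pow, (mem_skew hF).1 s.2, hdq, neg_div_neg_eq]
    obtain ⟨i, hi⟩ := mem_powers_iff_mem_zpowers.2
      (hg (Units.mk0 ⟨_, hfix⟩ fun h => div_ne_zero hs0 hd (congrArg Subtype.val h)))
    have hi' : ((g : fixF hF) : F) ^ i = (s : F) / d := by
      have := congrArg (fun u : (fixF hF)ˣ => ((u : fixF hF) : F)) hi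
      simpa using this
    obtain ⟨l, hl, hlx, hlN⟩ := hND (((g : fixF hF) : F) ^ (i / e)) (pow_ne_zero _ hg0)
      (by rw [← pow_mul, mul_comm, pow_mul, (mem_fixF hF).1 (g : fixF hF).2])
    refine Finset.mem_image.2 ⟨i % e, Finset.mem_range.2 (Nat.mod_lt _ he), ?_⟩
    set s₂ : skew hF := ⟨_, hgF (i % e)⟩
    have hss : (s : F) = l ^ (q + 1) * s₂ := by
      rw [hlN, ← pow_mul]
      change (s : F) = _ * (d * _)
      rw [mul_left_comm, ← pow_add, Nat.mul_comm (i / e) e, Nat.div_add_mod, hi',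
        mul_div_cancel₀ _ hd]
    have hlv : ∀ t : skew hF, ∀ t' : skew hF, (t' : F) = l ^ (q + 1) * t →
        ∃ c : F, c ≠ 0 ∧ (lv hF l hl).1.1 (vec (some t)) = c • vec (some t') := by
      intro t t' e
      refine ⟨(l ^ q)⁻¹, inv_ne_zero (pow_ne_zero q hl), ?_⟩
      change (lv hF l hl).1.1 (t.1 • eV hF 1 + fV hF 1) = _ • (t'.1 • eV hF 1 + fV hF 1)
      rw [map_add, map_smul, lv_eV, lv_fV, smul_add, smul_smul, smul_smul, e]
      congr 2
      have := pow_ne_zero q hl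
      field_simp
      ring
    have htsk : l ^ (q + 1) * (tt s₂ : F) ∈ skew hF := by
      rw [mem_skew, mul_pow, (mem_skew hF).1 (tt s₂).2, ← pow_mul, add_mul, one_mul, pow_add,
        pow_mul, hF.pow_pow]
      ring
    have he6 := hσequiv _ (hlvC l hl hlx) (some s₂) (some s) (hlv s₂ s hss) (some ⟨_, htsk⟩)
      (by rw [(htt s₂ (hne _)).2]; exact hlv _ _ rfl)
    rw [(htt s hs).2, Option.some.injEq] at he6
    change (tt s₂ : F) / (s₂ : F) = (tt s : F) / (s : F)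
    rw [he6, hss, mul_div_mul_left _ _ (pow_ne_zero _ hl)]
  -- the equation
  let s₁ : skew hF := ⟨d, (mem_skew hF).2 hdq⟩
  have hs₁ : s₁ ≠ 0 := fun h => hd (congrArg Subtype.val h)
  obtain ⟨g, hg, ⟨γ, hγ, hge⟩, δ, hδ, hgf⟩ := hσ (some s₁)
  rw [(htt s₁ hs₁).2] at hgf
  set s₂ := tt s₁ with hs₂
  have hs₂0 : (s₂ : F) ≠ 0 := fun h => (htt s₁ hs₁).1 (Subtype.ext h)
  have hgv : ∀ x : F, g.1.1 (x • eV hF 1 + fV hF 1) =
      (γ * d * x + δ * s₂) • eV hF 1 + (γ * x + δ) • fV hF 1 := fun x => by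
    rw [map_add, map_smul, hge, hgf]
    change x • γ • (d • eV hF 1 + fV hF 1) + δ • ((s₂ : F) • eV hF 1 + fV hF 1) = _
    module
  have hroots : ∀ s : {s : skew hF // s ≠ 0}, (s.1 : F) = -(δ * s₂) / (γ * d) ∨ (s.1 : F) = -δ / γ ∨
      ∃ c ∈ R, ∃ c' ∈ R,
        (γ * d * (c * s.1) + δ * s₂) * (γ * s.1 + δ) -
          c' * (γ * d * s.1 + δ * s₂) * (γ * (c * s.1) + δ) = 0 := by
    rintro ⟨s, hs⟩
    by_cases h1 : γ * d * s + δ * s₂ = 0
    · left
      rw [eq_div_iff (mul_ne_zero hγ hd)]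
      linear_combination h1
    by_cases h2 : γ * (s : F) + δ = 0
    · right; left
      rw [eq_div_iff hγ]
      linear_combination h2
    right; right
    have hs0 : (s : F) ≠ 0 := fun h => hs (Subtype.ext h)
    have hne : g.1.1 (vec (some s)) ≠ 0 := fun h0 =>
      (hvec (some s)).2.1 (g.1.1.injective (h0.trans (map_zero _).symm))
    obtain ⟨o', k, hk, ek⟩ := hpt _ hne (by rw [UG_app]; exact (hvec _).2.2)
      (hCe g hg _ (hvec _).1)
    have ek' := (hgv s).symm.trans ek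
    rcases o' with _ | t
    · exfalso
      have := congrArg (fun v => herm q v (eV hF 1)) ek'
      simp [vec, herm_add_left, herm_smul_left, h_ee hF, h_fe hF] at this
      exact h2 this
    have p1 := congrArg (fun v => herm q v (eV hF 1)) ek'
    have p2 := congrArg (fun v => herm q v (fV hF 1)) ek'
    simp [vec, herm_add_left, herm_smul_left, h_ee hF, h_fe hF, h_ef hF, h_ff hF] at p1 p2
    have ht : t ≠ 0 := fun h0 => h1 (by rw [p2, h0]; simp)
    obtain ⟨o'', k', hk', ek2⟩ := hpt (g.1.1 (vec (σ (some s))))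
      (fun h0 => (hvec _).2.1 (g.1.1.injective (h0.trans (map_zero _).symm)))
      (by rw [UG_app]; exact (hvec _).2.2) (hCe g hg _ (hvec _).1)
    have he7 := hσequiv g hg (some s) (some t) ⟨k, hk, ek⟩ o'' ⟨k', hk', ek2⟩
    rw [(htt t ht).2] at he7
    subst he7
    rw [(htt s hs).2] at ek2
    have ek2' := (hgv (tt s)).symm.trans ek2
    have r1 := congrArg (fun v => herm q v (eV hF 1)) ek2'
    have r2 := congrArg (fun v => herm q v (fV hF 1)) ek2'
    simp [vec, herm_add_left, herm_smul_left, h_ee hF, h_fe hF, h_ef hF, h_ff hF] at r1 r2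
    have ht0 : (t : F) ≠ 0 := fun h => ht (Subtype.ext h)
    refine ⟨cc ⟨s, hs⟩, Finset.mem_image_of_mem _ (Finset.mem_univ _), cc ⟨t, ht⟩,
      Finset.mem_image_of_mem _ (Finset.mem_univ _), ?_⟩
    have es : cc ⟨s, hs⟩ * s = tt s := div_mul_cancel₀ _ hs0
    have et : cc ⟨t, ht⟩ * t = tt t := div_mul_cancel₀ _ ht0
    dsimp only
    rw [es, r1, r2, p1, p2, ← et]
    ring
  let P : F → F → Finset F := fun c c' => Finset.univ.filter fun x =>
    (γ * d * (c * x) + δ * s₂) * (γ * x + δ) - c' * (γ * d * x + δ * s₂) * (γ * (c * x) + δ) = 0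
  have hP : ∀ c ∈ R, ∀ c' ∈ R, (P c c').card ≤ 2 := by
    intro c hc c' hc'
    obtain ⟨sc, -, rfl⟩ := Finset.mem_image.1 hc
    obtain ⟨sc', -, rfl⟩ := Finset.mem_image.1 hc'
    have hlead : γ * d * γ * cc sc * (1 - cc sc') ≠ 0 :=
      mul_ne_zero (mul_ne_zero (mul_ne_zero (mul_ne_zero hγ hd) hγ) (hcc1 sc).2.1)
        (sub_ne_zero.2 (Ne.symm (hcc1 sc').1))
    by_contra hlt
    push Not at hlt
    obtain ⟨x, hx, y, hy, z, hz, hxy, hxz, hyz⟩ := Finset.two_lt_card.1 hlt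
    simp only [P, Finset.mem_filter, Finset.mem_univ, true_and] at hx hy hz
    refine mul_ne_zero (mul_ne_zero (mul_ne_zero hlead (sub_ne_zero.2 hxy)) (sub_ne_zero.2 hxz))
      (sub_ne_zero.2 hyz) ?_
    linear_combination (y - z) * hx + (z - x) * hy + (x - y) * hz
  have hcard : q - 1 ≤ 2 + R.card * R.card * 2 := by
    let S : Finset F := (({-(δ * s₂) / (γ * d), -δ / γ} : Finset F)) ∪
      (R ×ˢ R).biUnion fun cc' => P cc'.1 cc'.2
    have hle := Nat.card_le_card_of_injective (β := S)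
      (fun s : {s : skew hF // s ≠ 0} => ⟨(s.1 : F), by
        rcases hroots s with h | h | ⟨c, hc, c', hc', h⟩
        · exact Finset.mem_union_left _ (by simp [h])
        · exact Finset.mem_union_left _ (by simp [h])
        · exact Finset.mem_union_right _ (Finset.mem_biUnion.2
            ⟨(c, c'), Finset.mem_product.2 ⟨hc, hc'⟩, by simpa [P] using h⟩)⟩)
      fun a b h => Subtype.ext (Subtype.ext (congrArg (fun z : S => (z : F)) h :))
    rw [card_ne_zero_part hF, card_skew hF, Nat.card_eq_finsetCard] at hle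
    refine hle.trans ((Finset.card_union_le _ _).trans (Nat.add_le_add Finset.card_le_two ?_))
    refine (Finset.card_biUnion_le_card_mul _ _ 2 fun cc' h => ?_).trans (by rw [Finset.card_product])
    obtain ⟨h1, h2⟩ := Finset.mem_product.1 h
    exact hP _ h1 _ h2
  have := Nat.mul_le_mul hR hR
  omega

end Cfsg.Agent.MinU3
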