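/-
The two remaining shapes: a regular radical, and radical orbits on lines.
-/
import Mathlib
import Cfsg.Agent.MinU3.Pairing

set_option autoImplicit false
set_option linter.unusedSectionVars false
set_option linter.style.haveILetI false

namespace Cfsg.Agent.MinU3

open Cfsg.Agent.Classical.U Cfsg.Agent.MinU

universe u v

variable {F : Type u} [Field F] {q : ℕ}
variable (hF : SqField F q)
include hF

/-- The stabiliser of the first line. -/
def Bsub : Subgroup (SG 1 F q) where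
  carrier := {g | ∃ c : F, c ≠ 0 ∧ g.1.1 (eV hF 1) = c • eV hF 1}
  one_mem' := ⟨1, one_ne_zero, by simp⟩
  mul_mem' := fun {g g'} ⟨c, hc, e⟩ ⟨c', hc', e'⟩ =>
    ⟨c' * c, mul_ne_zero hc' hc, by rw [SG_mul_apply hF, e', map_smul, e, smul_smul]⟩
  inv_mem' := fun {g} ⟨c, hc, e⟩ => ⟨c⁻¹, inv_ne_zero hc, g.1.1.injective (by
    rw [map_smul, e, ← SG_mul_apply hF, mul_inv_cancel, smul_smul, inv_mul_cancel₀ hc, one_smul]; rfl)⟩

theorem mem_Bsub {g : SG 1 F q} :
    g ∈ Bsub hF ↔ ∃ c : F, c ≠ 0 ∧ g.1.1 (eV hF 1) = c • eV hF 1 := Iff.rfl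

theorem card_units_sq : Nat.card {l : F // l ≠ 0} = q ^ 2 - 1 := by
  obtain ⟨hfin, hcard⟩ := id hF
  classical
  have := Fintype.ofFinite F
  rw [← hcard, Nat.card_eq_fintype_card, Nat.card_eq_fintype_card, Fintype.card_subtype_compl,
    Fintype.card_subtype_eq]

theorem card_Bsub : Nat.card (Bsub hF) = q ^ 3 * (q ^ 2 - 1) := by
  let f : Heis 1 F q × {l : F // l ≠ 0} → Bsub hF := fun r =>
    ⟨tE hF r.1 * lv hF r.2.1 r.2.2, r.2.1, r.2.2, tE_lv_eV hF _ _⟩
  have hf : Function.Bijective f := by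
    constructor
    · rintro ⟨p, l, hl⟩ ⟨p', l', hl'⟩ h
      have h' : tE hF p * lv hF l hl = tE hF p' * lv hF l' hl' := congrArg Subtype.val h
      have e := congrArg (fun g : SG 1 F q => g.1.1 (eV hF 1)) h'
      simp only [tE_lv_eV] at e
      obtain rfl := smul_left_injective F (pair_spec hF).1.ne_zero e
      rw [tE_injective hF (mul_right_cancel h')]
    · rintro ⟨g, c, hc, e⟩
      obtain ⟨p, hl, rfl⟩ := exists_tE_lv hF e
      exact ⟨(p, ⟨c, hl⟩), rfl⟩
  rw [← Nat.card_eq_of_bijective f hf, Nat.card_prod, card_units_sq hF, card_heis hF]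
  ring

/-- A parameter of the centre part of a product. -/
theorem hZ_of_fst_eq_zero {p : Heis 1 F q} (h : p.1.1 = 0) :
    ∃ ha : p.1.2 ∈ skew hF, p = hZ hF ha := by
  have ha : p.1.2 ∈ skew hF := by
    rw [mem_skew]
    have := p.2
    rw [h, herm_zero_left, add_zero] at this
    linear_combination this
  exact ⟨ha, Subtype.ext (Prod.ext h rfl)⟩

/-- An element of the radical fixing an isotropic vector off the first line is trivial. -/
theorem tE_fix_line {p : Heis 1 F q} (hp : tE hF p ≠ 1) {v : Fin (1 + 2) → F}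
    (hv : herm q v v = 0) (he : (tE hF p).1.1 v = v) : ∃ c : F, v = c • eV hF 1 := by
  obtain ⟨⟨⟨x, y⟩, z⟩, rfl⟩ := (ph hF 1).surjective v
  rw [tE_apply] at he
  have e := (ph hF 1).injective he
  simp only [Prod.mk.injEq, and_true] at e
  obtain ⟨e1, e2⟩ := e
  rcases eq_or_ne y 0 with rfl | hy
  · rw [herm_ph] at hv
    simp [hF.q_ne_zero, herm_one] at hv
    refine ⟨x, ?_⟩
    rw [ph_apply, show z = 0 from funext fun i => by rw [Subsingleton.elim i 0, hv]; rfl]
    simp only [zero_smul, add_zero]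
    rw [add_eq_left]
    funext i
    fin_cases i <;> rfl
  · exfalso
    have hw : p.1.1 = 0 := by
      rw [add_eq_left] at e2
      exact (smul_eq_zero.1 e2).resolve_left hy
    rw [hw, hF.herm_zero_right, sub_zero, add_eq_left] at e1
    obtain ⟨ha, hp'⟩ := hZ_of_fst_eq_zero hF hw
    refine hp ?_
    rw [show p = hOne hF from Subtype.ext (Prod.ext hw ((mul_eq_zero.1 e1).resolve_right hy)), tE_one]

variable {X : Type v} [UAct F q X 1] [Finite X]

/-- The transitivity of a stabiliser on isotropic points from that of the first line's. -/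
theorem htr_of_Btrans [htr : MulAction.IsPretransitive (SG 1 F q) X] {x₀ : X}
    (hB : ∀ y : X, ∃ b ∈ Bsub hF, b • x₀ = y) {v : Fin (1 + 2) → F} (hv0 : v ≠ 0)
    (hv : herm q v v = 0) :
    ∃ k : SG 1 F q, k • x₀ = x₀ ∧ ∃ c : F, c ≠ 0 ∧ k.1.1 (eV hF 1) = c • v := by
  obtain ⟨g, c, hc, e⟩ := exists_SUG_line hF hv0 hv (pair_spec hF).1.ne_zero (h_ee hF)
  obtain ⟨b, ⟨d, hd, eb⟩, hb⟩ := hB (g • x₀)
  refine ⟨g⁻¹ * b, by rw [mul_smul, hb, inv_smul_smul], d * c⁻¹, mul_ne_zero hd (inv_ne_zero hc), ?_⟩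
  apply g.1.1.injective
  rw [map_smul, e, smul_smul, mul_assoc, inv_mul_cancel₀ hc, mul_one, SG_mul_apply hF, eb,
    ← SG_mul_apply hF, mul_inv_cancel]
  rfl

/-- Where the radical is regular, the field has three elements. -/
theorem regular_case (hq : 3 ≤ q) (h5 : q ≠ 5) [MulAction.IsPretransitive (SG 1 F q) X]
    [Nonempty X] (hfree : ∀ y : X, Kset hF y = ⊥ ∧ Aset hF y = ⊥) (hn : Nat.card X = q ^ 3) :
    q = 3 := by
  classical
  obtain ⟨hfin, hcard⟩ := id hF
  have htrU : ∀ y z : X, ∃ p : Heis 1 F q, tE hF p • y = z := by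
    intro y z
    have h := card_qOrb_mul hF y
    rw [(hfree y).1, (hfree y).2, AddSubgroup.card_bot, AddSubgroup.card_bot, one_mul, mul_one,
      show q ^ (2 * 1) * q = q ^ 3 by ring] at h
    have huniv : qOrb hF y = Set.univ := Set.eq_of_subset_of_ncard_le (Set.subset_univ _) (by
      rw [Set.ncard_univ, ← Nat.card_coe_set_eq, h, hn]) (Set.toFinite _)
    obtain ⟨p, hp⟩ := (show z ∈ qOrb hF y by rw [huniv]; trivial)
    exact ⟨p, hp⟩
  have hfix : ∀ (y : X) (p : Heis 1 F q), tE hF p • y = y → p = hOne hF := by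
    intro y p hp
    have hw : p.1.1 = (hOne hF : Heis 1 F q).1.1 := by
      have : p.1.1 ∈ Aset hF y := ⟨p, rfl, hp⟩
      rw [(hfree y).2, AddSubgroup.mem_bot] at this
      exact this
    have := sub_mem_Kset hF hw hp (by rw [tE_one, one_smul])
    rw [(hfree y).1, AddSubgroup.mem_bot, sub_eq_zero] at this
    exact Subtype.ext (Prod.ext hw this)
  haveI : Fintype F := Fintype.ofFinite F
  obtain ⟨g, hg⟩ := IsCyclic.exists_generator (α := Fˣ)
  have hord : orderOf (g : F) = q ^ 2 - 1 := by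
    rw [orderOf_units, orderOf_eq_card_of_forall_mem_zpowers hg, Nat.card_units, hcard]
  set l₀ := (g : F)
  have hl₀ : l₀ ≠ 0 := g.ne_zero
  have hsq : 9 ≤ q ^ 2 := Nat.pow_le_pow_left hq 2
  have hq2 : q * 3 ≤ q ^ 2 := by rw [pow_two]; exact Nat.mul_le_mul_left q hq
  have hN0 : l₀ ^ (q + 1) ≠ 1 := fun h => by
    have := Nat.le_of_dvd (Nat.succ_pos q) (orderOf_dvd_of_pow_eq_one h)
    omega
  have hμ0 : mu q l₀ ≠ 1 := fun h => by
    have := Nat.le_of_dvd (by norm_num) (orderOf_dvd_of_pow_eq_one (mu_eq_one hF hl₀ h))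
    omega
  -- centralising the scaling
  have hcent : ∀ p : Heis 1 F q, lv hF l₀ hl₀ * tE hF p = tE hF p * lv hF l₀ hl₀ → p = hOne hF := by
    intro p hc
    obtain ⟨p', e1, e2, e3⟩ := lv_tE hF hl₀ p
    rw [hc] at e1
    obtain rfl := tE_injective hF (mul_right_cancel e1)
    refine Subtype.ext (Prod.ext (funext fun i => ?_) ?_)
    · rw [Subsingleton.elim i 0]
      have : (mu q l₀ - 1) * p.1.1 0 = 0 := by rw [mu]; linear_combination -e2
      exact (mul_eq_zero.1 this).resolve_left (sub_ne_zero.2 hμ0)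
    · have : (l₀ * l₀ ^ q - 1) * p.1.2 = 0 := by linear_combination -e3
      exact (mul_eq_zero.1 this).resolve_left (sub_ne_zero.2 (by rw [← pow_succ']; exact hN0))
  obtain ⟨x⟩ := ‹Nonempty X›
  obtain ⟨p₀, hp₀⟩ := htrU (lv hF l₀ hl₀ • x) x
  haveI : Finite (Heis 1 F q) := Subtype.finite
  let T : Heis 1 F q → Heis 1 F q := fun u => hMul hF u (lv_tE hF hl₀ (hInv hF u)).choose
  have hT : ∀ u, tE hF (T u) = tE hF u * lv hF l₀ hl₀ * (tE hF u)⁻¹ * (lv hF l₀ hl₀)⁻¹ := by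
    intro u
    have e1 := (lv_tE hF hl₀ (hInv hF u)).choose_spec.1
    change tE hF (hMul hF u (lv_tE hF hl₀ (hInv hF u)).choose) = _
    revert e1
    generalize (lv_tE hF hl₀ (hInv hF u)).choose = c
    intro e1
    rw [← tE_mul, tE_inv, mul_assoc (tE hF u) (lv hF l₀ hl₀), e1]
    group
  have hTinj : Function.Injective T := by
    intro u u' h
    have e := congrArg (tE hF) h
    rw [hT, hT, mul_left_inj] at e
    have hc : lv hF l₀ hl₀ * tE hF (hMul hF (hInv hF u) u') =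
        tE hF (hMul hF (hInv hF u) u') * lv hF l₀ hl₀ := by
      rw [← tE_mul, ← tE_inv]
      calc lv hF l₀ hl₀ * ((tE hF u)⁻¹ * tE hF u')
          = (tE hF u)⁻¹ * (tE hF u * lv hF l₀ hl₀ * (tE hF u)⁻¹) * tE hF u' := by group
        _ = _ := by rw [e]; group
    have := congrArg (tE hF) (hcent _ hc)
    rw [← tE_mul, ← tE_inv, tE_one, inv_mul_eq_one] at this
    exact tE_injective hF this
  obtain ⟨u, hu⟩ := Finite.injective_iff_surjective.1 hTinj p₀
  set x₁ := (tE hF u)⁻¹ • x with hx₁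
  have hl₀x : lv hF l₀ hl₀ • x₁ = x₁ := by
    have e := hT u
    rw [hu] at e
    rw [e, mul_smul, mul_smul, inv_smul_smul, ← hx₁] at hp₀
    rw [mul_smul] at hp₀
    rw [hx₁, eq_inv_smul_iff, ← hx₁]
    exact hp₀
  have hlv : ∀ (l : F) (hl : l ≠ 0), lv hF l hl • x₁ = x₁ := by
    intro l hl
    obtain ⟨p, hp⟩ := htrU (lv hF l hl • x₁) x₁
    obtain ⟨p', e1, -⟩ := lv_tE hF hl₀ p
    have hcomm : lv hF l₀ hl₀ * lv hF l hl = lv hF l hl * lv hF l₀ hl₀ := by
      rw [lv_mul, lv_mul]; exact lv_congr hF _ _ (mul_comm _ _)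
    have e2 : tE hF p' • lv hF l hl • x₁ = x₁ := by
      have : (lv hF l₀ hl₀ * tE hF p * lv hF l hl) • x₁ = x₁ := by
        rw [mul_smul, mul_smul, hp, hl₀x]
      rwa [e1, mul_assoc, hcomm, mul_smul, mul_smul, hl₀x] at this
    have e3 : p' = p := by
      have h1 : tE hF (hMul hF (hInv hF p) p') • (lv hF l hl • x₁) = lv hF l hl • x₁ := by
        rw [← tE_mul, ← tE_inv, mul_smul, e2, inv_smul_eq_iff, hp]
      have := congrArg (tE hF) (hfix _ _ h1)
      rw [← tE_mul, ← tE_inv, tE_one, inv_mul_eq_one] at this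
      exact (tE_injective hF this).symm
    rw [e3] at e1
    rwa [hcent p e1, tE_one, one_smul] at hp
  have hB : ∀ y : X, ∃ b ∈ Bsub hF, b • x₁ = y := fun y => by
    obtain ⟨p, hp⟩ := htrU x₁ y
    exact ⟨_, ⟨1, one_ne_zero, by rw [tE_eV, one_smul]⟩, hp⟩
  have hord1 : orderOf (l₀ ^ (q - 1)) = q + 1 := by
    have e : q ^ 2 - 1 = (q - 1) * (q + 1) := by
      rw [mul_comm, ← Nat.sq_sub_sq, one_pow]
    rw [orderOf_pow' _ (by omega), hord, e, Nat.gcd_mul_right_left, Nat.mul_div_cancel_left _ (by omega)]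
  have hS : PairSetup hF x₁ (l₀ ^ (q - 1)) 1 :=
    { hK := (hfree x₁).1
      hN1 := by rw [← hord1]; exact pow_orderOf_eq_one _
      h31 := fun h => by
        have := Nat.le_of_dvd (by norm_num) (orderOf_dvd_of_pow_eq_one h)
        omega
      hh := fun hl => hlv _ hl
      hlift := fun p l hl _ => hlv l hl
      htr := fun v hv0 hv => htr_of_Btrans hF hB hv0 hv
      hND := fun y hy0 hy => by
        obtain ⟨l, hl⟩ := hF.exists_norm hy
        have hl' : l ≠ 0 := by rintro rfl; rw [zero_pow (Nat.succ_ne_zero q)] at hl; exact hy0 hl.symm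
        exact ⟨l, hl', hlv _ hl', by rw [pow_one]; exact hl⟩
      hnt := ⟨l₀, hl₀, hlv _ hl₀, hN0⟩ }
  obtain ⟨hodd, hle⟩ := pairing hF one_pos hS
  obtain ⟨j, hj⟩ := hodd
  omega

/-- The scalings with a lift fixing the point. -/
def TliftM (y : X) : Submonoid Fˣ :=
      { carrier := {u | ∃ p : Heis 1 F q, (tE hF p * lv hF (u : F) u.ne_zero) • y = y}
        one_mem' := ⟨hOne hF, by
          rw [tE_one, one_mul, lv_congr hF _ one_ne_zero Units.val_one, lv_one, one_smul]⟩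
        mul_mem' := fun {a b} ⟨p, hp⟩ ⟨r, hr⟩ => by
          obtain ⟨r', e, -⟩ := lv_tE hF a.ne_zero r
          refine ⟨hMul hF p r', ?_⟩
          have e2 : tE hF p * lv hF (a : F) a.ne_zero * (tE hF r * lv hF (b : F) b.ne_zero) =
              tE hF (hMul hF p r') * lv hF ((a * b : Fˣ) : F) (a * b).ne_zero := by
            rw [← tE_mul, mul_assoc, ← mul_assoc (lv hF (a : F) _), e, mul_assoc, lv_mul,
              ← mul_assoc]
            exact congrArg (_ * ·) (lv_congr hF _ _ (Units.val_mul a b).symm)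
          rw [← e2, mul_smul, hr, hp] }

/-- The group of those scalings. -/
def Tlift (y : X) : Subgroup Fˣ :=
  haveI : Finite F := hF.1
  { TliftM hF y with
    inv_mem' := fun {a} (ha : a ∈ TliftM hF y) => by
      have h1 : a⁻¹ = a ^ (orderOf a - 1) := inv_eq_of_mul_eq_one_left (by
        rw [← pow_succ, Nat.sub_add_cancel (isOfFinOrder_of_finite a).orderOf_pos, pow_orderOf_eq_one])
      exact h1 ▸ (TliftM hF y).pow_mem ha _ }

theorem mem_Tlift {y : X} {u : Fˣ} :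
    u ∈ Tlift hF y ↔ ∃ p : Heis 1 F q, (tE hF p * lv hF (u : F) u.ne_zero) • y = y := Iff.rfl

/-- Lifts and the fixed radical part make the stabiliser in the first line's. -/
theorem card_Bfix (y : X) : Nat.card {g : Bsub hF // (g : SG 1 F q) • y = y} =
    Nat.card (Tlift hF y) * (Nat.card (Aset hF y) * Nat.card (Kset hF y)) := by
  rw [← card_fixed_heis hF y, ← Nat.card_prod]
  choose sec hsec using fun u : Tlift hF y => (mem_Tlift hF).1 u.2
  let f : Tlift hF y × {p : Heis 1 F q // tE hF p • y = y} →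
      {g : Bsub hF // (g : SG 1 F q) • y = y} := fun r =>
    ⟨⟨tE hF (hMul hF r.2.1 (sec r.1)) * lv hF (r.1.1 : F) r.1.1.ne_zero, _, r.1.1.ne_zero,
      tE_lv_eV hF _ _⟩, by
      change (tE hF (hMul hF r.2.1 (sec r.1)) * lv hF (r.1.1 : F) r.1.1.ne_zero) • y = y
      rw [← tE_mul, mul_assoc, mul_smul, hsec, r.2.2]⟩
  refine (Nat.card_eq_of_bijective f ⟨?_, ?_⟩).symm
  · rintro ⟨⟨a, ha⟩, p⟩ ⟨⟨b, hb⟩, r⟩ h
    have h' : tE hF (hMul hF p.1 (sec ⟨a, ha⟩)) * lv hF (a : F) a.ne_zero =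
        tE hF (hMul hF r.1 (sec ⟨b, hb⟩)) * lv hF (b : F) b.ne_zero :=
      congrArg (fun g : {g : Bsub hF // (g : SG 1 F q) • y = y} => (g.1 : SG 1 F q)) h
    have e := congrArg (fun g : SG 1 F q => g.1.1 (eV hF 1)) h'
    simp only [tE_lv_eV] at e
    obtain rfl := Units.ext (smul_left_injective F (pair_spec hF).1.ne_zero e)
    have e2 := mul_right_cancel h'
    rw [← tE_mul, ← tE_mul] at e2
    exact Prod.ext rfl (Subtype.ext (tE_injective hF (mul_right_cancel e2)))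
  · rintro ⟨⟨g, c, hc, e⟩, hg⟩
    obtain ⟨p, hl, rfl⟩ := exists_tE_lv hF e
    have hu : Units.mk0 c hl ∈ Tlift hF y := ⟨p, hg⟩
    set s := sec ⟨_, hu⟩
    have hfix : tE hF (hMul hF p (hInv hF s)) • y = y := by
      have h1 : (tE hF s * lv hF c hl) • y = y := hsec ⟨_, hu⟩
      rw [mul_smul] at h1 hg
      rw [← tE_mul, ← tE_inv, mul_smul]
      conv_lhs => rw [← h1, inv_smul_smul]
      exact hg
    refine ⟨(⟨_, hu⟩, ⟨_, hfix⟩), Subtype.ext (Subtype.ext ?_)⟩
    change tE hF (hMul hF (hMul hF p (hInv hF s)) s) * lv hF c _ = tE hF p * lv hF c hl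
    rw [← tE_mul, ← tE_mul, ← tE_inv, inv_mul_cancel_right]

/-- An involution has an isotropic eigenvector. -/
theorem exists_iso_eigen (h2 : (2 : F) ≠ 0) {t : SG 1 F q} (ht : t * t = 1) :
    ∃ (v : Fin (1 + 2) → F) (ε : F), v ≠ 0 ∧ herm q v v = 0 ∧ ε * ε = 1 ∧ t.1.1 v = ε • v := by
  classical
  set e := eV hF 1
  have he0 : e ≠ 0 := (pair_spec hF).1.ne_zero
  have htt : ∀ x, t.1.1 (t.1.1 x) = x := fun x => by rw [← SG_mul_apply hF, ht]; rfl
  by_cases hdep : ∃ c : F, c • e = t.1.1 e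
  · obtain ⟨c, hc⟩ := hdep
    refine ⟨e, c, he0, h_ee hF, ?_, hc.symm⟩
    have := htt e
    rw [← hc, map_smul, ← hc, smul_smul] at this
    exact smul_left_injective F he0 (this.trans (one_smul F e).symm)
  push Not at hdep
  have hte : herm q (t.1.1 e) (t.1.1 e) = 0 := by rw [UG_app, h_ee hF]
  have hne := herm_ne_zero_of_ne hF he0 (h_ee hF) hte hdep
  have hsym : herm q (t.1.1 e) e = herm q e (t.1.1 e) := by
    conv_lhs => rw [← UG_app t.1, htt]
  set r := herm q e (t.1.1 e)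
  have hr : r ^ q = r := by rw [hF.herm_symm, hsym]
  set w₀ := e + t.1.1 e
  set w₁ := e - t.1.1 e
  have h00 : herm q w₀ w₀ = 2 * r := by
    simp only [w₀, herm_add_left, hF.herm_add_right, h_ee hF, e, hte, hsym]; ring
  have h11 : herm q w₁ w₁ = -(2 * r) := by
    simp only [w₁, herm_sub_left, hF.herm_sub_right, h_ee hF, e, hte, hsym]; ring
  have h01 : herm q w₀ w₁ = 0 := by
    simp only [w₀, w₁, herm_add_left, hF.herm_sub_right, h_ee hF, e, hte, hsym]; ring
  have h10 : herm q w₁ w₀ = 0 := Forms.herm_comm_zero hF h01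
  have t0 : t.1.1 w₀ = (1 : F) • w₀ := by
    rw [one_smul, map_add, htt]; exact add_comm _ _
  have t1 : t.1.1 w₁ = (-1 : F) • w₁ := by
    rw [map_sub, htt, neg_smul, one_smul, neg_sub]
  have h2r : 2 * r ≠ 0 := mul_ne_zero h2 hne
  obtain ⟨x, hx⟩ : ∃ x, x ∉ Submodule.span F (Set.range ![w₀, w₁]) := by
    by_contra h
    push Not at h
    have h3 := finrank_range_le_card (R := F) ![w₀, w₁]
    rw [Set.finrank, Submodule.eq_top_iff'.2 h, finrank_top, Module.finrank_fin_fun, Fintype.card_fin] at h3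
    omega
  set z := x - (herm q x w₀ / (2 * r)) • w₀ - (herm q x w₁ / -(2 * r)) • w₁ with hz
  have hz0 : z ≠ 0 := fun h => hx (by
    rw [hz, sub_sub, sub_eq_zero] at h
    rw [h]
    exact add_mem (Submodule.smul_mem _ _ (Submodule.subset_span ⟨0, rfl⟩))
      (Submodule.smul_mem _ _ (Submodule.subset_span ⟨1, rfl⟩)))
  have zw0 : herm q z w₀ = 0 := by
    rw [hz, herm_sub_left, herm_sub_left, herm_smul_left, herm_smul_left, h00, h10]
    field_simp
    ring
  have zw1 : herm q z w₁ = 0 := by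
    rw [hz, herm_sub_left, herm_sub_left, herm_smul_left, herm_smul_left, h11, h01]
    field_simp
    ring
  have tzw0 : herm q (t.1.1 z) w₀ = 0 := by
    rw [show w₀ = t.1.1 w₀ by rw [t0, one_smul], UG_app, zw0]
  have tzw1 : herm q (t.1.1 z) w₁ = 0 := by
    rw [show w₁ = (-1 : F) • t.1.1 w₁ by rw [t1, smul_smul]; simp, herm_smul_right, UG_app, zw1,
      mul_zero]
  obtain ⟨u, σ, hu0, hσ, htu, uw0, uw1⟩ : ∃ (u : Fin (1 + 2) → F) (σ : F), u ≠ 0 ∧ (σ = 1 ∨ σ = -1) ∧ t.1.1 u = σ • u ∧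
      herm q u w₀ = 0 ∧ herm q u w₁ = 0 := by
    by_cases hp : z + t.1.1 z = 0
    · refine ⟨z, -1, hz0, Or.inr rfl, ?_, zw0, zw1⟩
      rw [neg_smul, one_smul]
      exact eq_neg_of_add_eq_zero_right hp
    · exact ⟨_, 1, hp, Or.inl rfl, by rw [one_smul, map_add, htt]; exact add_comm _ _,
        by rw [herm_add_left, zw0, tzw0, add_zero], by rw [herm_add_left, zw1, tzw1, add_zero]⟩
  have hσσ : σ * σ = 1 := by rcases hσ with rfl | rfl <;> ring
  by_cases huu : herm q u u = 0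
  · exact ⟨u, σ, hu0, huu, hσσ, htu⟩
  obtain ⟨w, hw, hww, huw⟩ : ∃ w, t.1.1 w = σ • w ∧ herm q w w ≠ 0 ∧ herm q u w = 0 := by
    rcases hσ with rfl | rfl
    · exact ⟨w₀, t0, by rw [h00]; exact h2r, uw0⟩
    · exact ⟨w₁, t1, by rw [h11]; exact neg_ne_zero.2 h2r, uw1⟩
  have hwu : herm q w u = 0 := Forms.herm_comm_zero hF huw
  obtain ⟨b, hb⟩ := hF.exists_norm (c := -herm q w w / herm q u u)
    (by rw [div_pow, hF.neg_pow, hF.herm_symm, hF.herm_symm])
  refine ⟨w + b • u, σ, fun h0 => hww ?_, ?_, hσσ, by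
    rw [map_add, map_smul, hw, htu, smul_add, smul_comm]⟩
  · have := congrArg (fun v => herm q v w) h0
    simpa [herm_add_left, herm_smul_left, huw] using this
  · rw [herm_add_left, herm_smul_left, hF.herm_add_right, hF.herm_add_right, herm_smul_right,
      herm_smul_right, hwu, huw]
    rw [eq_div_iff huu, pow_succ'] at hb
    linear_combination hb

/-- A conjugate of the radical. -/
noncomputable def conjRad (g : SG 1 F q) : Subgroup (SG 1 F q) :=
  (rad hF 1).map (MulAut.conj g).toMonoidHom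

omit [Finite X] in
theorem mem_conjRad {g z : SG 1 F q} :
    z ∈ conjRad hF g ↔ ∃ r : Heis 1 F q, g * tE hF r * g⁻¹ = z := by
  rw [conjRad, Subgroup.mem_map]
  constructor
  · rintro ⟨_, ⟨r, rfl⟩, e⟩
    exact ⟨r, e⟩
  · rintro ⟨r, e⟩
    exact ⟨tE hF r, ⟨r, rfl⟩, e⟩

omit [Finite X] in
/-- A conjugate of the radical in a stabiliser. -/
theorem card_conjRad (g : SG 1 F q) (x₀ : X) :
    Nat.card ((conjRad hF g).subgroupOf (MulAction.stabilizer (SG 1 F q) x₀)) =
      Nat.card {u : Heis 1 F q // tE hF u • g⁻¹ • x₀ = g⁻¹ • x₀} := by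
  let f : {u : Heis 1 F q // tE hF u • g⁻¹ • x₀ = g⁻¹ • x₀} →
      (conjRad hF g).subgroupOf (MulAction.stabilizer (SG 1 F q) x₀) := fun u =>
    ⟨⟨g * tE hF u.1 * g⁻¹, by
      rw [MulAction.mem_stabilizer_iff, mul_smul, mul_smul, u.2, smul_inv_smul]⟩,
      Subgroup.mem_subgroupOf.2 ((mem_conjRad hF).2 ⟨u.1, rfl⟩)⟩
  refine (Nat.card_eq_of_bijective f ⟨fun u u' h => ?_, ?_⟩).symm
  · have : g * tE hF u.1 * g⁻¹ = g * tE hF u'.1 * g⁻¹ :=
      congrArg (fun z : (conjRad hF g).subgroupOf (MulAction.stabilizer (SG 1 F q) x₀) =>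
        (z.1 : SG 1 F q)) h
    exact Subtype.ext (tE_injective hF (mul_left_cancel (mul_right_cancel this)))
  · rintro ⟨⟨z, hz⟩, hmem⟩
    obtain ⟨r, e⟩ := (mem_conjRad hF).1 (Subgroup.mem_subgroupOf.1 hmem)
    have e' : g * tE hF r * g⁻¹ = z := e
    have hz' : z • x₀ = x₀ := hz
    rw [← e', mul_smul, mul_smul, ← eq_inv_smul_iff] at hz'
    exact ⟨⟨r, hz'⟩, Subtype.ext (Subtype.ext e')⟩

set_option maxHeartbeats 800000 in
/-- The first line's stabiliser moves a point through everything. -/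
theorem line_Btrans (hq : 3 ≤ q) (hX : Nat.card X ≤ q ^ 3)
    [MulAction.IsPretransitive (SG 1 F q) X] (h3 : q % 3 = 2) (hodd : Odd q)
    (hall : ∀ y : X, Kset hF y = ⊥ ∧ Nat.card (Aset hF y) = q) (x₀ : X) :
    ∃ J, (J = 1 ∨ J = 2) ∧ Nat.card X = J * (q ^ 2 * ((q + 1) / 3)) ∧
      Nat.card (Tlift hF x₀) * J = 3 * (q - 1) ∧ ∀ y : X, ∃ b ∈ Bsub hF, b • x₀ = y := by
  classical
  obtain ⟨hfin, hcard⟩ := id hF
  haveI : Finite (SG 1 F q) := by
    haveI : Finite ((Fin (1 + 2) → F) ≃ₗ[F] (Fin (1 + 2) → F)) :=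
      Finite.of_injective (fun g : (Fin (1 + 2) → F) ≃ₗ[F] (Fin (1 + 2) → F) => (g : _ → _))
        DFunLike.coe_injective
    exact Finite.of_injective (fun g : SG 1 F q => g.1.1) fun a b h => Subtype.ext (Subtype.ext h)
  obtain ⟨p, k, hp, hcharP, hqk⟩ := hF.exists_char
  haveI := Fact.mk hp
  have hk : k ≠ 0 := by rintro rfl; simp at hqk; omega
  have hpq : p ∣ q := hqk ▸ dvd_pow_self p hk
  have hp2 : p ≠ 2 := by rintro rfl; exact (Nat.not_even_iff_odd.2 hodd) (even_iff_two_dvd.2 hpq)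
  have hp3 : p ≠ 3 := by rintro rfl; omega
  have hT : ∀ y : X, Nat.card (Tlift hF y) ∣ 3 * (q - 1) := by
    intro y
    rw [← IsCyclic.exponent_eq_card, Monoid.exponent_dvd_iff_forall_pow_eq_one]
    rintro ⟨u, hu⟩
    obtain ⟨r, hr⟩ := hu
    refine Subtype.ext (Units.ext ?_)
    push_cast
    have hmem : (u : F) ∈ Tset hF y := ⟨u.ne_zero, by
      conv_rhs => rw [← hr, mul_smul]
      exact (dat_of_mem_qOrb hF ⟨r, rfl⟩).symm⟩
    have hA : Aset hF y ≠ ⊥ := fun h => by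
      have := (hall y).2; rw [h, AddSubgroup.card_bot] at this; omega
    have hfix := mu_fixed hF (isLine_of_Kset_bot hF (hall y).1) hA hmem
    have hpow : mu q ((u : F) ^ (q - 1)) = mu q (u : F) ^ (q - 1) := by
      simp only [mu, mul_pow, inv_pow]; ring
    have h1 : mu q ((u : F) ^ (q - 1)) = 1 := by
      rw [hpow]; exact (hF.fixed_iff (mu_ne_zero u.ne_zero q)).1 hfix
    have := mu_eq_one hF (pow_ne_zero _ u.ne_zero) h1
    rwa [← pow_mul, mul_comm] at this
  obtain ⟨d, hd⟩ : ∃ d, d = (q + 1) / 3 := ⟨_, rfl⟩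
  rw [← hd]
  have hdiv : 3 * d = q + 1 := by omega
  obtain ⟨m₀, hm₀⟩ : ∃ m, m = q ^ 2 * d := ⟨_, rfl⟩
  rw [← hm₀]
  have horb : ∀ y : X, ∃ s, Nat.card (MulAction.orbit (Bsub hF) y) = s * m₀ ∧
      Nat.card (Tlift hF y) * s = 3 * (q - 1) := by
    intro y
    have h := Nat.card_congr (MulAction.orbitProdStabilizerEquivGroup (Bsub hF) y)
    have h' : Nat.card (MulAction.stabilizer (Bsub hF) y) = Nat.card (Tlift hF y) * q := by
      have := card_Bfix hF y
      rw [(hall y).1, (hall y).2, AddSubgroup.card_bot, mul_one] at this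
      exact this
    rw [Nat.card_prod, h', card_Bsub hF] at h
    obtain ⟨s, hs⟩ := hT y
    refine ⟨s, ?_, hs.symm⟩
    set t := Nat.card (Tlift hF y)
    set o := Nat.card (MulAction.orbit (Bsub hF) y)
    have htpos : 0 < t := Nat.card_pos
    rw [hm₀]
    refine Nat.eq_of_mul_eq_mul_left (show 0 < 3 * t * q by positivity) ?_
    have h1 : 1 ≤ q ^ 2 := Nat.one_le_pow _ _ (by omega)
    have hq1 : 1 ≤ q := by omega
    zify [h1, hq1] at h hs hdiv ⊢
    linear_combination (3 : ℤ) * h + (q : ℤ) ^ 3 * (q + 1) * hs - (q : ℤ) ^ 3 * t * s * hdiv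
  have hm0 : m₀ ∣ Nat.card X := by
    haveI := Fintype.ofFinite X
    rw [Nat.card_congr (MulAction.selfEquivSigmaOrbits (Bsub hF) X), Nat.card_sigma]
    haveI := Fintype.ofFinite (MulAction.orbitRel.Quotient (Bsub hF) X)
    refine Finset.dvd_sum fun o _ => ?_
    obtain ⟨s, hs, -⟩ := horb o.out
    exact ⟨s, by rw [hs]; ring⟩
  obtain ⟨J, hJ⟩ := hm0
  haveI : Nonempty X := ⟨x₀⟩
  have hJ12 : J = 1 ∨ J = 2 := by
    rcases (show J = 0 ∨ J = 1 ∨ J = 2 ∨ 3 ≤ J by omega) with rfl | h | h | h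
    · rw [mul_zero] at hJ; exact absurd hJ Nat.card_pos.ne'
    · exact Or.inl h
    · exact Or.inr h
    · exfalso
      have h1 : q ^ 2 * (q + 1) ≤ Nat.card X := by
        rw [hJ, ← hdiv]
        calc q ^ 2 * (3 * d) = m₀ * 3 := by rw [hm₀]; ring
          _ ≤ _ := Nat.mul_le_mul_left _ h
      rw [mul_add, mul_one, show q ^ 2 * q = q ^ 3 by ring] at h1
      have : 0 < q ^ 2 := pow_pos (by omega) 2
      omega
  refine ⟨J, hJ12, by rw [hJ, mul_comm], ?_⟩
  -- the stabiliser of the point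
  set K := MulAction.stabilizer (SG 1 F q) x₀
  have hKn : Nat.card X * Nat.card K = q ^ 3 * (q ^ 3 + 1) * (q ^ 2 - 1) := by
    rw [← card_SG_one hF, ← Nat.card_prod,
      ← Nat.card_congr (MulAction.orbitProdStabilizerEquivGroup (SG 1 F q) x₀), Nat.card_prod,
      Nat.card_prod, Nat.card_coe_set_eq, MulAction.orbit_eq_univ, Set.ncard_univ]
  have hKcard : J * Nat.card K = q * (3 * (q ^ 3 + 1) * (q - 1)) := by
    refine Nat.eq_of_mul_eq_mul_left (show 0 < q ^ 2 * (q + 1) by positivity) ?_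
    rw [hJ] at hKn
    have h1 : 1 ≤ q ^ 2 := Nat.one_le_pow _ _ (by omega)
    have hq1 : 1 ≤ q := by omega
    rw [hm₀] at hKn
    zify [h1, hq1] at hKn hdiv ⊢
    linear_combination (3 : ℤ) * hKn - (J : ℤ) * Nat.card K * (q : ℤ) ^ 2 * hdiv
  have hfixU : ∀ g : SG 1 F q, Nat.card {u : Heis 1 F q // tE hF u • g⁻¹ • x₀ = g⁻¹ • x₀} = q := by
    intro g
    rw [card_fixed_heis, (hall _).1, (hall _).2, AddSubgroup.card_bot, mul_one]
  let U : SG 1 F q → Subgroup K := fun g => (conjRad hF g).subgroupOf K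
  have hUcard : ∀ g, Nat.card (U g) = q := fun g => (card_conjRad hF g x₀).trans (hfixU g)
  have hUpg : ∀ g, IsPGroup p (U g) := fun g => IsPGroup.of_card (n := k) ((hUcard g).trans hqk)
  have hUidx : ∀ g, ¬ p ∣ (U g).index := by
    intro g hd
    have h1 := (U g).card_mul_index
    rw [hUcard g] at h1
    have h2 : J * (U g).index = 3 * (q ^ 3 + 1) * (q - 1) :=
      Nat.eq_of_mul_eq_mul_left (show 0 < q by omega) (by rw [← hKcard, ← h1]; ring)
    have h3 : p ∣ 3 * (q ^ 3 + 1) * (q - 1) := h2 ▸ Dvd.dvd.mul_left hd J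
    rcases hp.dvd_mul.1 h3 with h | h
    · rcases hp.dvd_mul.1 h with h | h
      · exact hp3 ((Nat.prime_dvd_prime_iff_eq hp Nat.prime_three).1 h)
      · exact hp.ne_one (Nat.dvd_one.1 ((Nat.dvd_add_right (dvd_pow hpq (by norm_num))).1 h))
    · have : p ∣ q - (q - 1) := Nat.dvd_sub hpq h
      rw [show q - (q - 1) = 1 by omega] at this
      exact hp.ne_one (Nat.dvd_one.1 this)
  have hBt : ∀ y : X, ∃ b ∈ Bsub hF, b • x₀ = y := by
    intro y
    obtain ⟨g, hg⟩ := MulAction.exists_smul_eq (SG 1 F q) x₀ y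
    obtain ⟨kk, hkk⟩ := MulAction.exists_smul_eq K
      ((hUpg 1).toSylow (hUidx 1)) ((hUpg g⁻¹).toSylow (hUidx g⁻¹))
    haveI : Nontrivial (U 1) := Finite.one_lt_card_iff_nontrivial.1 (by rw [hUcard]; omega)
    obtain ⟨⟨u, hu⟩, hu1⟩ := exists_ne (1 : U 1)
    have hmem : kk * u * kk⁻¹ ∈ U g⁻¹ := by
      have : MulAut.conj kk u ∈ ((hUpg g⁻¹).toSylow (hUidx g⁻¹) : Subgroup K) := by
        rw [← hkk, Sylow.coe_subgroup_smul]
        exact Subgroup.smul_mem_pointwise_smul u (MulAut.conj kk) _ hu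
      exact this
    obtain ⟨r, hr⟩ := (mem_conjRad hF).1 (Subgroup.mem_subgroupOf.1 hu)
    obtain ⟨r', hr'⟩ := (mem_conjRad hF).1 (Subgroup.mem_subgroupOf.1 hmem)
    simp only [one_mul, inv_one, mul_one, inv_inv, Subgroup.coe_mul, Subgroup.coe_inv] at hr hr'
    have hrne : tE hF r ≠ 1 := fun h => hu1 (Subtype.ext (Subtype.ext (by rw [← hr, h]; rfl)))
    have hr'ne : tE hF r' ≠ 1 := fun h => hrne (by
      rw [h, ← hr, mul_one, inv_mul_cancel, eq_comm, mul_inv_eq_one, mul_eq_left] at hr'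
      exact hr')
    refine ⟨g * (kk : SG 1 F q), ?_, by rw [mul_smul, kk.2, hg]⟩
    set v := (g * (kk : SG 1 F q)).1.1 (eV hF 1) with hv
    have hvv : (tE hF r').1.1 v = v := by
      rw [hv, ← SG_mul_apply hF]
      have : tE hF r' * (g * (kk : SG 1 F q)) = g * (kk : SG 1 F q) * tE hF r := by
        rw [← hr] at hr'
        calc tE hF r' * (g * (kk : SG 1 F q))
            = g * (g⁻¹ * tE hF r' * g) * (kk : SG 1 F q) := by group
          _ = _ := by rw [hr']; group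
      rw [this, SG_mul_apply hF, tE_eV]
    obtain ⟨c, hc⟩ := tE_fix_line hF hr'ne (by rw [hv, UG_app, h_ee hF]) hvv
    refine ⟨c, ?_, hc⟩
    rintro rfl
    rw [zero_smul] at hc
    exact (pair_spec hF).1.ne_zero ((g * (kk : SG 1 F q)).1.1.injective (hc.trans (map_zero _).symm))
  refine ⟨?_, hBt⟩
  obtain ⟨s, hs1, hs2⟩ := horb x₀
  have huniv : MulAction.orbit (Bsub hF) x₀ = Set.univ := Set.eq_univ_of_forall fun y => by
    obtain ⟨b, hb, e⟩ := hBt y
    exact ⟨⟨b, hb⟩, e⟩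
  rw [huniv, Nat.card_coe_set_eq, Set.ncard_univ, hJ, mul_comm] at hs1
  obtain rfl : J = s := Nat.eq_of_mul_eq_mul_right (hm₀ ▸ Nat.mul_pos (pow_pos (by omega : 0 < q) 2) (by omega : 0 < d)) hs1
  exact hs2

theorem finite_SG' : Finite (SG 1 F q) := by
  obtain ⟨hfin, -⟩ := id hF
  haveI : Finite ((Fin (1 + 2) → F) ≃ₗ[F] (Fin (1 + 2) → F)) :=
    Finite.of_injective (fun g : (Fin (1 + 2) → F) ≃ₗ[F] (Fin (1 + 2) → F) => (g : _ → _))
      DFunLike.coe_injective
  exact Finite.of_injective (fun g : SG 1 F q => g.1.1) fun a b h => Subtype.ext (Subtype.ext h)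

omit [Finite X] in
/-- Scalings act on the centre by the norm. -/
theorem lv_hZ {l : F} (hl : l ≠ 0) {a : F} (ha : a ∈ skew hF) :
    ∃ hb : l * l ^ q * a ∈ skew hF,
      lv hF l hl * tE hF (hZ hF ha) = tE hF (hZ hF hb) * lv hF l hl := by
  have hb : l * l ^ q * a ∈ skew hF := by
    rw [mem_skew, mul_pow, mul_pow, hF.pow_pow, (mem_skew hF).1 ha]; ring
  obtain ⟨p', e1, e2, e3⟩ := lv_tE hF hl (hZ hF ha)
  refine ⟨hb, ?_⟩
  rw [e1]
  congr 2
  refine Subtype.ext (Prod.ext (funext fun i => ?_) e3)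
  rw [Subsingleton.elim i 0, e2]
  simp [hZ]

omit [Finite X] in
/-- The centre is added. -/
theorem tE_hZ_mul {a b : F} (ha : a ∈ skew hF) (hb : b ∈ skew hF) :
    tE hF (hZ hF ha : Heis 1 F q) * tE hF (hZ hF hb) = tE hF (hZ hF (add_mem ha hb)) := by
  rw [tE_mul, hMul_hZ]
  exact congrArg (tE hF) (Subtype.ext (Prod.ext rfl (by simp [hZ, add_comm])))

omit [Finite X] in
theorem tE_hZ_congr {a b : F} (ha : a ∈ skew hF) (hb : b ∈ skew hF) (e : a = b) :
    tE hF (hZ hF ha : Heis 1 F q) = tE hF (hZ hF hb) := by subst e; rfl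

omit [Finite X] in
theorem lv_comm {a b : F} (ha : a ≠ 0) (hb : b ≠ 0) :
    lv hF a ha * lv hF b hb = lv hF b hb * lv hF a ha := by
  rw [lv_mul, lv_mul]; exact lv_congr hF _ _ (mul_comm _ _)

omit [Finite X] in
theorem mu_neg_one : mu q (-1 : F) = -1 := by
  rw [mu, hF.neg_pow, one_pow, inv_neg, inv_one]; ring

omit [Finite X] in
theorem lv_neg_one_sq : lv hF (-1 : F) (neg_ne_zero.2 one_ne_zero) *
    lv hF (-1 : F) (neg_ne_zero.2 one_ne_zero) = 1 := by
  rw [lv_mul, lv_congr hF _ one_ne_zero (by ring), lv_one]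

/-- A lift of the reflection at every point. -/
theorem neg_one_mem_Tlift (hq : 3 ≤ q) (hX : Nat.card X ≤ q ^ 3)
    [MulAction.IsPretransitive (SG 1 F q) X] (h3 : q % 3 = 2) (hodd : Odd q) (h2 : (2 : F) ≠ 0)
    (hall : ∀ y : X, Kset hF y = ⊥ ∧ Nat.card (Aset hF y) = q) (y : X) :
    (Units.mk0 (-1 : F) (neg_ne_zero.2 one_ne_zero)) ∈ Tlift hF y := by
  classical
  haveI := finite_SG' hF
  obtain ⟨J', hJ', hn', -, hB⟩ := line_Btrans hF hq hX h3 hodd hall y
  set K := MulAction.stabilizer (SG 1 F q) y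
  have hKn : Nat.card X * Nat.card K = q ^ 3 * (q ^ 3 + 1) * (q ^ 2 - 1) := by
    rw [← card_SG_one hF, ← Nat.card_prod,
      ← Nat.card_congr (MulAction.orbitProdStabilizerEquivGroup (SG 1 F q) y), Nat.card_prod,
      Nat.card_prod, Nat.card_coe_set_eq, MulAction.orbit_eq_univ, Set.ncard_univ]
  have h2K : 2 ∣ Nat.card K := by
    obtain ⟨j, hj⟩ := id hodd
    obtain ⟨d, hd⟩ : ∃ d, d = (q + 1) / 3 := ⟨_, rfl⟩
    have hdiv : 3 * d = q + 1 := by omega
    rw [← hd] at hn'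
    have hkey : J' * Nat.card K = q * (3 * (q ^ 3 + 1) * (q - 1)) := by
      refine Nat.eq_of_mul_eq_mul_left (show 0 < q ^ 2 * (q + 1) by positivity) ?_
      rw [hn'] at hKn
      have h1 : 1 ≤ q ^ 2 := Nat.one_le_pow _ _ (by omega)
      have hq1 : 1 ≤ q := by omega
      zify [h1, hq1] at hKn hdiv ⊢
      linear_combination (3 : ℤ) * hKn - (J' : ℤ) * Nat.card K * (q : ℤ) ^ 2 * hdiv
    have h4 : 4 ∣ q * (3 * (q ^ 3 + 1) * (q - 1)) := by
      have hev : 2 ∣ q ^ 3 + 1 := even_iff_two_dvd.1 (Odd.pow (n := 3) hodd).add_one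
      have hev2 : 2 ∣ q - 1 := ⟨j, by omega⟩
      exact Dvd.dvd.mul_left (Nat.mul_dvd_mul (Dvd.dvd.mul_left hev 3) hev2) q
    rw [← hkey] at h4
    rcases hJ' with rfl | rfl
    · rw [one_mul] at h4; omega
    · omega
  haveI : Fact (Nat.Prime 2) := ⟨Nat.prime_two⟩
  obtain ⟨t, ht⟩ := exists_prime_orderOf_dvd_card' (G := K) 2 h2K
  have hto : orderOf (t : SG 1 F q) = 2 := by rw [Subgroup.orderOf_coe]; exact ht
  have htt : (t : SG 1 F q) * t = 1 := by
    have := pow_orderOf_eq_one (t : SG 1 F q)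
    rwa [hto, pow_two] at this
  obtain ⟨v, ε, hv0, hv, hε, htv⟩ := exists_iso_eigen hF h2 htt
  obtain ⟨k, hk, c, hc, hke⟩ := htr_of_Btrans hF hB hv0 hv
  set g := k⁻¹ * (t : SG 1 F q) * k with hg
  have hge : g.1.1 (eV hF 1) = ε • eV hF 1 := by
    rw [hg, SG_mul_apply hF, SG_mul_apply hF, hke, map_smul, htv, smul_comm, ← hke, map_smul,
      SG_inv_apply hF]
  obtain ⟨p, hl, hp⟩ := exists_tE_lv hF hge
  have hgy : g • y = y := by
    rw [hg, mul_smul, mul_smul, hk, show (t : SG 1 F q) • y = y from t.2, inv_smul_eq_iff, hk]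
  have hgg : g * g = 1 := by
    calc g * g = k⁻¹ * ((t : SG 1 F q) * t) * k := by rw [hg]; group
      _ = 1 := by rw [htt]; group
  have hg1 : g ≠ 1 := fun h => by
    rw [hg, mul_assoc, inv_mul_eq_one, eq_comm, mul_eq_right] at h
    rw [h, orderOf_one] at hto
    omega
  rcases mul_self_eq_one_iff.1 hε with rfl | rfl
  · exfalso
    rw [lv_congr hF hl one_ne_zero rfl, lv_one, mul_one] at hp
    rw [hp, tE_mul, ← tE_one hF] at hgg
    have e := tE_injective hF hgg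
    refine hg1 ?_
    rw [hp, show p = hOne hF from ?_, tE_one]
    have e1 := congrArg (fun r : Heis 1 F q => r.1.1 0) e
    have e2 := congrArg (fun r : Heis 1 F q => r.1.2) e
    simp only [hMul, hOne, Pi.add_apply, Pi.zero_apply] at e1 e2
    have hw : p.1.1 0 = 0 :=
      (mul_eq_zero.1 (show (2 : F) * p.1.1 0 = 0 by rw [two_mul, e1])).resolve_left h2
    rw [herm_one, hw, zero_mul, sub_zero] at e2
    exact Subtype.ext (Prod.ext (funext fun i => by rw [Subsingleton.elim i 0, hw]; rfl)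
      ((mul_eq_zero.1 (show (2 : F) * p.1.2 = 0 by rw [two_mul, e2])).resolve_left h2))
  · refine ⟨p, ?_⟩
    change (tE hF p * lv hF (-1) hl) • y = y
    rw [← hp]; exact hgy

set_option maxHeartbeats 1000000 in
/-- The reflection itself fixes some point. -/
theorem exists_reflection_fix (h2 : (2 : F) ≠ 0) {x : X} (hK : Kset hF x = ⊥)
    (hx : (Units.mk0 (-1 : F) (neg_ne_zero.2 one_ne_zero)) ∈ Tlift hF x) :
    ∃ x₁ : X, lv hF (-1 : F) (neg_ne_zero.2 one_ne_zero) • x₁ = x₁ := by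
  obtain ⟨hfin, -⟩ := id hF
  obtain ⟨p, hp⟩ := hx
  change (tE hF p * lv hF (-1 : F) (neg_ne_zero.2 one_ne_zero)) • x = x at hp
  set h := lv hF (-1 : F) (neg_ne_zero.2 one_ne_zero) with hh
  obtain ⟨a, ha⟩ := hF.exists_trace (c := -herm q ((2 : F)⁻¹ • p.1.1) ((2 : F)⁻¹ • p.1.1))
    (by rw [hF.neg_pow, hF.herm_symm])
  set r : Heis 1 F q := mkH ((2 : F)⁻¹ • p.1.1) a (by rw [ha, neg_add_cancel]) with hr
  obtain ⟨r', e1, e2, -⟩ := lv_tE hF (neg_ne_zero.2 one_ne_zero) (hInv hF r)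
  rw [← hh] at e1
  have hμ : (-1 : F) ^ q * ((-1) ^ q * (-1)⁻¹) = -1 := mu_neg_one hF
  set z := hMul hF p (hInv hF (hMul hF r r')) with hzdef
  have hz : z.1.1 = 0 := funext fun i => by
    rw [Subsingleton.elim i 0]
    simp only [hzdef, hMul, hInv, Pi.add_apply, Pi.neg_apply, e2, hμ, hr, mkH_fst, Pi.smul_apply,
      smul_eq_mul, Pi.zero_apply]
    field_simp
    ring
  obtain ⟨ha', hz'⟩ := hZ_of_fst_eq_zero hF hz
  set B := tE hF r * h * (tE hF r)⁻¹ with hB
  have e3 : tE hF p * h = tE hF z * B := by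
    rw [hzdef, hB, ← tE_mul, ← tE_inv, ← tE_mul, mul_assoc (tE hF r) h, tE_inv hF r, e1]
    group
  have hcz : Commute (tE hF z) B := by
    have c1 : Commute (tE hF z) h := by
      obtain ⟨hb, e4⟩ := lv_hZ hF (neg_ne_zero.2 one_ne_zero) ha'
      rw [hz']
      refine Eq.symm (e4.trans ?_)
      rw [hh, tE_hZ_congr hF hb ha' (by rw [hF.neg_pow, one_pow]; ring)]
    have c2 : Commute (tE hF z) (tE hF r) := by
      unfold Commute SemiconjBy
      rw [tE_mul, tE_mul, hz']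
      exact congrArg (tE hF) (Subtype.ext (Prod.ext (by simp [hMul, hZ]) (by
        simp only [hMul, hZ, herm_zero_left, hF.herm_zero_right]; ring)))
    exact (c2.mul_right c1).mul_right c2.inv_right
  have hBB : B * B = 1 := by
    calc B * B = tE hF r * (h * h) * (tE hF r)⁻¹ := by rw [hB]; group
      _ = 1 := by rw [hh, lv_neg_one_sq]; group
  have hsq : (tE hF p * h) * (tE hF p * h) = tE hF (hMul hF z z) := by
    calc (tE hF p * h) * (tE hF p * h) = tE hF z * (B * tE hF z) * B := by rw [e3]; group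
      _ = tE hF z * tE hF z * (B * B) := by rw [← hcz.eq]; group
      _ = _ := by rw [hBB, mul_one, tE_mul]
  have hfix2 : tE hF (hMul hF z z) • x = x := by rw [← hsq, mul_smul, hp, hp]
  have := sub_mem_Kset hF (s := hOne hF) (by simp [hMul, hOne, hz]) hfix2 (by rw [tE_one, one_smul])
  rw [hK, AddSubgroup.mem_bot] at this
  simp only [hMul, hOne, hz, herm_zero_left, sub_zero] at this
  have hz0 : z = hOne hF := Subtype.ext (Prod.ext hz
    ((mul_eq_zero.1 (show (2 : F) * z.1.2 = 0 by rw [two_mul]; exact this)).resolve_left h2))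
  rw [e3, hz0, tE_one, one_mul, hB, mul_smul, mul_smul, ← eq_inv_smul_iff] at hp
  exact ⟨_, hp⟩

/-- With the reflection fixing, lifts may be taken in the centre. -/
theorem exists_lift_centre (h2 : (2 : F) ≠ 0) {y : X}
    (hy : lv hF (-1 : F) (neg_ne_zero.2 one_ne_zero) • y = y) {u : Fˣ} (hu : u ∈ Tlift hF y) :
    ∃ (c : F) (hc : c ∈ skew hF),
      (tE hF (hZ hF hc) * lv hF (u : F) u.ne_zero) • y = y := by
  obtain ⟨hfin, -⟩ := id hF
  obtain ⟨p, hp⟩ := hu
  set h := lv hF (-1 : F) (neg_ne_zero.2 one_ne_zero) with hh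
  obtain ⟨p', e1, e2, -⟩ := lv_tE hF (neg_ne_zero.2 one_ne_zero) p
  rw [← hh] at e1
  have hμ : (-1 : F) ^ q * ((-1) ^ q * (-1)⁻¹) = -1 := mu_neg_one hF
  have h5 : (tE hF p' * lv hF (u : F) u.ne_zero) • y = y := by
    have e4 : tE hF p' * lv hF (u : F) u.ne_zero * h = h * (tE hF p * lv hF (u : F) u.ne_zero) := by
      rw [← mul_assoc, e1, hh, mul_assoc, mul_assoc, lv_comm]
    have := congrArg (fun g : SG 1 F q => g • y) e4
    rw [mul_smul, mul_smul h, hp, hy] at this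
    exact this
  have h1 : tE hF (hMul hF p' (hInv hF p)) • y = y := by
    have e5 : tE hF (hMul hF p' (hInv hF p)) =
        (tE hF p' * lv hF (u : F) u.ne_zero) * (tE hF p * lv hF (u : F) u.ne_zero)⁻¹ := by
      rw [← tE_mul, ← tE_inv]; group
    rw [e5, mul_smul, inv_smul_eq_iff.2 hp.symm, h5]
  have hw : p.1.1 ∈ Aset hF y := by
    have hmem : (hMul hF p' (hInv hF p)).1.1 ∈ Aset hF y := ⟨_, rfl, h1⟩
    have e6 : (hMul hF p' (hInv hF p)).1.1 = -(p.1.1 + p.1.1) := funext fun i => by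
      rw [Subsingleton.elim i 0]
      simp only [hMul, hInv, Pi.add_apply, Pi.neg_apply, e2, hμ]
      ring
    rw [e6] at hmem
    have hinj : Function.Injective (fun a : Aset hF y => a + a) := fun a b h => by
      have h' : a.1 + a.1 = b.1 + b.1 := congrArg Subtype.val h
      refine Subtype.ext (smul_right_injective (Fin 1 → F) h2 ?_)
      simpa [two_smul] using h'
    obtain ⟨a, ha⟩ := Finite.injective_iff_surjective.1 hinj
      ⟨p.1.1 + p.1.1, by simpa using neg_mem hmem⟩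
    have ha' : a.1 + a.1 = p.1.1 + p.1.1 := congrArg Subtype.val ha
    have : a.1 = p.1.1 := smul_right_injective (Fin 1 → F) h2 (by simpa [two_smul] using ha')
    exact this ▸ a.2
  obtain ⟨r, hr1, hr2⟩ := hw
  obtain ⟨hc, hc'⟩ := hZ_of_fst_eq_zero hF (p := hMul hF (hInv hF r) p) (by simp [hMul, hInv, hr1])
  refine ⟨_, hc, ?_⟩
  rw [← hc', ← tE_mul, ← tE_inv, mul_assoc, mul_smul, hp, inv_smul_eq_iff, hr2]

set_option maxHeartbeats 800000 in
/-- A point where the lifts are the scalings. -/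
theorem exists_straight (h2 : (2 : F) ≠ 0) (hK : ∀ y : X, Kset hF y = ⊥) {x₁ : X}
    (hx₁ : lv hF (-1 : F) (neg_ne_zero.2 one_ne_zero) • x₁ = x₁) {u₀ : Fˣ}
    (hu₀ : u₀ ∈ Tlift hF x₁) (hN₀ : (u₀ : F) ^ (q + 1) ≠ 1) :
    ∃ x₂ : X, lv hF (-1 : F) (neg_ne_zero.2 one_ne_zero) • x₂ = x₂ ∧
      lv hF (u₀ : F) u₀.ne_zero • x₂ = x₂ ∧
      ∀ u ∈ Tlift hF x₂, lv hF (u : F) u.ne_zero • x₂ = x₂ := by
  have hm1 : (-1 : F) ≠ 0 := neg_ne_zero.2 one_ne_zero
  set h := lv hF (-1 : F) hm1 with hh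
  -- straightening the lifts
  obtain ⟨c₀, hc₀, hfix₀⟩ := exists_lift_centre hF h2 hx₁ hu₀
  obtain ⟨N₀, hN₀def⟩ : ∃ N, N = (u₀ : F) * (u₀ : F) ^ q := ⟨_, rfl⟩
  have hN1 : N₀ - 1 ≠ 0 := sub_ne_zero.2 fun h => hN₀ (by rw [pow_succ', ← hN₀def]; exact h)
  have hN₀q : N₀ ^ q = N₀ := by rw [hN₀def, mul_pow, hF.pow_pow, mul_comm]
  have hd : c₀ / (N₀ - 1) ∈ skew hF := by
    rw [mem_skew, div_pow, hF.sub_pow, one_pow, hN₀q, (mem_skew hF).1 hc₀, neg_div]
  obtain ⟨hd', ed⟩ := lv_hZ hF u₀.ne_zero hd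
  set x₂ := tE hF (hZ hF hd : Heis 1 F q) • x₁ with hx₂def
  have hu₀x : lv hF (u₀ : F) u₀.ne_zero • x₂ = x₂ := by
    rw [mul_smul] at hfix₀
    have e4 : lv hF (u₀ : F) u₀.ne_zero • x₁ = tE hF (hZ hF (neg_mem hc₀) : Heis 1 F q) • x₁ := by
      conv_rhs => rw [← hfix₀, ← mul_smul, tE_hZ_mul,
        tE_hZ_congr hF _ (skew hF).zero_mem (neg_add_cancel c₀),
        show (hZ hF (skew hF).zero_mem : Heis 1 F q) = hOne hF from rfl, tE_one, one_smul]
    rw [hx₂def, ← mul_smul, ed, mul_smul, e4, ← mul_smul, tE_hZ_mul]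
    refine congrArg (· • x₁) (tE_hZ_congr hF _ _ ?_)
    rw [← hN₀def, ← sub_eq_add_neg, eq_div_iff hN1]
    field_simp
    ring
  have hhx₂ : h • x₂ = x₂ := by
    obtain ⟨hb, e5⟩ := lv_hZ hF hm1 hd
    rw [hx₂def, ← mul_smul, hh, e5, mul_smul, hx₁]
    exact congrArg (· • x₁) (tE_hZ_congr hF _ _ (by rw [hF.neg_pow, one_pow]; ring))
  have hK₂ := hK x₂
  have hlift : ∀ u ∈ Tlift hF x₂, lv hF (u : F) u.ne_zero • x₂ = x₂ := by
    intro u hu
    obtain ⟨c, hc, hcf⟩ := exists_lift_centre hF h2 hhx₂ hu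
    rw [mul_smul] at hcf
    obtain ⟨hc', ec⟩ := lv_hZ hF u₀.ne_zero hc
    have e7 : tE hF (hZ hF hc' : Heis 1 F q) • lv hF (u : F) u.ne_zero • x₂ = x₂ := by
      conv_lhs => rw [← hu₀x, ← mul_smul (lv hF (u : F) u.ne_zero), lv_comm, mul_smul, ← mul_smul, ← ec,
        mul_smul, hcf, hu₀x]
    have e8 : lv hF (u : F) u.ne_zero • x₂ = tE hF (hZ hF (neg_mem hc) : Heis 1 F q) • x₂ := by
      conv_rhs => rw [← hcf, ← mul_smul, tE_hZ_mul,
        tE_hZ_congr hF _ (skew hF).zero_mem (neg_add_cancel c),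
        show (hZ hF (skew hF).zero_mem : Heis 1 F q) = hOne hF from rfl, tE_one, one_smul]
    rw [e8, ← mul_smul, tE_hZ_mul] at e7
    have hm := (mem_Kset hF (add_mem hc' (neg_mem hc))).2 e7
    rw [hK₂, AddSubgroup.mem_bot] at hm
    have hc0 : c = 0 := by
      have : (N₀ - 1) * c = 0 := by rw [hN₀def]; linear_combination hm
      exact (mul_eq_zero.1 this).resolve_left hN1
    rw [e8, tE_hZ_congr hF _ (skew hF).zero_mem (by rw [hc0, neg_zero]),
      show (hZ hF (skew hF).zero_mem : Heis 1 F q) = hOne hF from rfl, tE_one, one_smul]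
  exact ⟨x₂, hhx₂, hu₀x, hlift⟩

set_option maxHeartbeats 1000000 in
/-- Where radical orbits sit on lines, three fields remain. -/
theorem line_case (hq : 3 ≤ q) (h5 : q ≠ 5) (hX : Nat.card X ≤ q ^ 3)
    [MulAction.IsPretransitive (SG 1 F q) X] [Nonempty X] (h3 : q % 3 = 2) (hodd : Odd q)
    (hall : ∀ y : X, Kset hF y = ⊥ ∧ Nat.card (Aset hF y) = q) :
    q = 11 ∧ Nat.card X = 484 ∨ q = 17 ∧ Nat.card X = 3468 ∨ q = 29 ∧ Nat.card X = 16820 := by
  classical
  obtain ⟨hfin, hcard⟩ := id hF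
  obtain ⟨p, k, hp, hcharP, hqk⟩ := hF.exists_char
  have hk : k ≠ 0 := by rintro rfl; simp at hqk; omega
  have h2 : (2 : F) ≠ 0 := by
    intro h
    have h' : ((2 : ℕ) : F) = 0 := by exact_mod_cast h
    have := (Nat.prime_dvd_prime_iff_eq hp Nat.prime_two).1 ((CharP.cast_eq_zero_iff F p 2).1 h')
    subst this
    exact Nat.not_even_iff_odd.2 hodd (hqk ▸ even_iff_two_dvd.2 (dvd_pow_self 2 hk))
  have hq11 : 11 ≤ q := by
    obtain ⟨j, hj⟩ := id hodd; omega
  have hm1 : (-1 : F) ≠ 0 := neg_ne_zero.2 one_ne_zero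
  obtain ⟨x⟩ := ‹Nonempty X›
  obtain ⟨x₁, hx₁⟩ := exists_reflection_fix hF h2 (hall x).1
    (neg_one_mem_Tlift hF hq hX h3 hodd h2 hall x)
  set h := lv hF (-1 : F) hm1 with hh
  obtain ⟨J₁, hJ₁, -, hTJ₁, -⟩ := line_Btrans hF hq hX h3 hodd hall x₁
  obtain ⟨u₀, hu₀, hN₀⟩ : ∃ u ∈ Tlift hF x₁, (u : F) ^ (q + 1) ≠ 1 := by
    by_contra hne
    push Not at hne
    have h6 : ∀ u ∈ Tlift hF x₁, (u : F) ^ 6 = 1 := by
      intro u hu
      have e1 := hne u hu
      have e2 : (u : F) ^ (3 * (q - 1)) = 1 := by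
        have h' := congrArg (fun w : Tlift hF x₁ => ((w : Fˣ) : F))
          (pow_card_eq_one' (x := (⟨u, hu⟩ : Tlift hF x₁)))
        simp only [SubmonoidClass.coe_pow, Units.val_pow_eq_pow_val, OneMemClass.coe_one,
          Units.val_one] at h'
        rw [← hTJ₁, pow_mul, h', one_pow]
      have e3 : (u : F) ^ (3 * (q + 1)) = 1 := by rw [mul_comm, pow_mul, e1, one_pow]
      rw [show 3 * (q + 1) = 3 * (q - 1) + 6 by omega, pow_add, e2, one_mul] at e3
      exact e3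
    have hle := Nat.card_le_card_of_injective
      (fun u : Tlift hF x₁ => (⟨((u : Fˣ) : F), h6 _ u.2⟩ : {z : F // z ^ 6 = 1}))
      (fun a b h => Subtype.ext (Units.ext (congrArg Subtype.val h)))
    have := hle.trans (card_roots_le (by norm_num) 1)
    rcases hJ₁ with rfl | rfl <;> omega
  obtain ⟨x₂, hhx₂, hu₀x, hlift⟩ := exists_straight hF h2 (fun y => (hall y).1) hx₁ hu₀ hN₀
  have hK₂ := (hall x₂).1
  obtain ⟨J, hJ, hn, hTJ, hB⟩ := line_Btrans hF hq hX h3 hodd hall x₂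
  set t := Nat.card (Tlift hF x₂)
  have htpos : 0 < t := Nat.card_pos
  have hroots : ∀ u : Fˣ, (u : F) ^ t = 1 → u ∈ Tlift hF x₂ := by
    intro u hu
    have hmem : ∀ w : Tlift hF x₂, ((w : Fˣ) : F) ^ t = 1 := fun w => by
      have h' := congrArg (fun z : Tlift hF x₂ => ((z : Fˣ) : F)) (pow_card_eq_one' (x := w))
      simp only [SubmonoidClass.coe_pow, Units.val_pow_eq_pow_val, OneMemClass.coe_one,
        Units.val_one] at h'
      exact h'
    have hsurj : Function.Surjective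
        (fun w : Tlift hF x₂ => (⟨((w : Fˣ) : F), hmem w⟩ : {z : F // z ^ t = 1})) :=
      (Function.Injective.bijective_of_nat_card_le
        (fun a b h => Subtype.ext (Units.ext (congrArg Subtype.val h)))
        (card_roots_le htpos 1)).2
    obtain ⟨w, hw⟩ := hsurj ⟨u, hu⟩
    have : (w : Fˣ) = u := Units.ext (congrArg Subtype.val hw)
    exact this ▸ w.2
  have hJpos : 0 < 2 * J := by omega
  have hlift' : ∀ (l : F) (hl : l ≠ 0), Units.mk0 l hl ∈ Tlift hF x₂ → lv hF l hl • x₂ = x₂ :=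
    fun l hl hm => hlift (Units.mk0 l hl) hm
  have hS : PairSetup hF x₂ (-1) (2 * J) :=
    { hK := hK₂
      hN1 := by rw [pow_succ, hF.neg_pow, one_pow]; ring
      h31 := fun h => h2 (by linear_combination -h)
      hh := fun hl => hhx₂
      hlift := fun r l hl hr => hlift (Units.mk0 l hl) ⟨r, hr⟩
      htr := fun v hv0 hv => htr_of_Btrans hF hB hv0 hv
      hND := fun y hy0 hy => by
        have hu : Units.mk0 (y ^ J) (pow_ne_zero J hy0) ∈ Tlift hF x₂ := hroots _ (by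
          rw [Units.val_mk0, ← pow_mul, mul_comm J, hTJ, mul_comm, pow_mul,
            (hF.fixed_iff hy0).1 hy, one_pow])
        refine ⟨y ^ J, pow_ne_zero J hy0, hlift' (y ^ J) (pow_ne_zero J hy0) hu, ?_⟩
        rw [pow_succ, ← pow_mul, mul_comm J q, pow_mul, hy, mul_comm 2 J, pow_mul, pow_two]
      hnt := ⟨(u₀ : F), u₀.ne_zero, hu₀x, hN₀⟩ }
  obtain ⟨-, hle⟩ := pairing hF hJpos hS
  have hteven : 2 ∣ t := by
    have hmem : Units.mk0 (-1 : F) hm1 ∈ Tlift hF x₂ := neg_one_mem_Tlift hF hq hX h3 hodd h2 hall x₂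
    have ho : orderOf (⟨_, hmem⟩ : Tlift hF x₂) = 2 := by
      haveI : Fact (Nat.Prime 2) := ⟨Nat.prime_two⟩
      refine orderOf_eq_prime (Subtype.ext (Units.ext (by simp))) fun h1 => h2 ?_
      have e := congrArg (fun z : Tlift hF x₂ => ((z : Fˣ) : F)) h1
      have e' : (-1 : F) = 1 := e
      linear_combination -e'
    exact ho ▸ orderOf_dvd_natCard _
  obtain ⟨m, hm⟩ := id hteven
  rcases hJ with rfl | rfl
  · have h11 : q = 11 := by obtain ⟨j, hj⟩ := id hodd; omega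
    subst h11
    left; exact ⟨rfl, hn.trans (by norm_num)⟩
  · have hc : q = 17 ∨ q = 29 := by
      have hcand : q = 17 ∨ q = 29 ∨ q = 35 := by
        obtain ⟨j, hj⟩ := id hodd
        omega
      rcases hcand with rfl | rfl | rfl
      · exact Or.inl rfl
      · exact Or.inr rfl
      · exfalso
        have h5 : 5 ∣ p ^ k := hqk ▸ by norm_num
        have h7 : 7 ∣ p ^ k := hqk ▸ by norm_num
        have e5 := (Nat.prime_dvd_prime_iff_eq Nat.prime_five hp).1 (Nat.prime_five.dvd_of_dvd_pow h5)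
        have e7 := (Nat.prime_dvd_prime_iff_eq (by norm_num : Nat.Prime 7) hp).1
          ((by norm_num : Nat.Prime 7).dvd_of_dvd_pow h7)
        omega
    rcases hc with rfl | rfl
    · right; left; exact ⟨rfl, hn.trans (by norm_num)⟩
    · right; right; exact ⟨rfl, hn.trans (by norm_num)⟩

end Cfsg.Agent.MinU3
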