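/-
The cyclic maximal torus of order dividing `q² - q + 1`, seen from an element of prime order.
-/
import Mathlib
import Cfsg.Agent.MinU3.Full

set_option autoImplicit false
set_option linter.unusedSectionVars false
set_option linter.style.haveILetI false

namespace Cfsg.Agent.MinU3

open Cfsg.Agent.Classical.U Cfsg.Agent.MinU Module

universe u

variable {F : Type u} [Field F] {q : ℕ}
variable (hF : SqField F q)
include hF

/-- The primes of the torus. -/
structure SingerPrime (q r : ℕ) : Prop where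
  prime : r.Prime
  dvd : r ∣ q ^ 2 - q + 1
  not_dvd : ¬ r ∣ q ^ 2 - 1
  not_dvd_q : ¬ r ∣ q

theorem SingerPrime.dvd_six {r : ℕ} (hr : SingerPrime q r) : r ∣ q ^ 6 - 1 := by
  refine hr.dvd.trans ?_
  have h1 : q ≤ q ^ 2 := Nat.le_self_pow two_ne_zero q
  have h6 : 1 ≤ q ^ 6 := Nat.one_le_pow _ _ (by have := hF.one_lt; omega)
  have h3 : 1 ≤ q ^ 3 := Nat.one_le_pow _ _ (by have := hF.one_lt; omega)
  refine ⟨(q + 1) * (q ^ 3 - 1), ?_⟩
  zify [h1, h6, h3]
  ring

theorem finite_SG : Finite (SG 1 F q) := by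
  obtain ⟨hfin, -⟩ := id hF
  haveI : Finite ((Fin (1 + 2) → F) ≃ₗ[F] (Fin (1 + 2) → F)) :=
    Finite.of_injective (fun g : (Fin (1 + 2) → F) ≃ₗ[F] (Fin (1 + 2) → F) => (g : _ → _))
      DFunLike.coe_injective
  exact Finite.of_injective (fun g : SG 1 F q => g.1.1) fun a b h => Subtype.ext (Subtype.ext h)

/-- An element of such an order fixes no line. -/
theorem no_eigen {r : ℕ} (hr : SingerPrime q r) {x : SG 1 F q} (hx : orderOf x = r)
    {v : Fin (1 + 2) → F} (hv : v ≠ 0) (c : F) : x.1.1 v ≠ c • v := by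
  classical
  intro he
  obtain ⟨hfin, -⟩ := id hF
  haveI := finite_SG hF
  have hc : c ≠ 0 := fun h => hv (x.1.1.injective (by rw [he, h, zero_smul, map_zero]))
  letI : MulAction (SG 1 F q) (Submodule F (Fin (1 + 2) → F)) :=
    { smul := fun g L => mapL g L
      one_smul := fun L => Submodule.map_id L
      mul_smul := fun g g' L => (mapL_mapL hF g g' L).symm }
  have hst : x ∈ MulAction.stabilizer (SG 1 F q) (Submodule.span F {v}) := by
    rw [MulAction.mem_stabilizer_iff]
    change mapL x _ = _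
    rw [mapL_span, he]
    exact Submodule.span_singleton_smul_eq (IsUnit.mk0 _ hc) _
  have hdvd : r ∣ Nat.card (MulAction.stabilizer (SG 1 F q) (Submodule.span F {v})) :=
    hx ▸ (Subgroup.orderOf_mk x hst ▸ orderOf_dvd_natCard _)
  set st := Nat.card (MulAction.stabilizer (SG 1 F q) (Submodule.span F {v}))
  have hOS : Nat.card (MulAction.orbit (SG 1 F q) (Submodule.span F {v})) * st =
      q ^ 3 * (q ^ 3 + 1) * (q ^ 2 - 1) := by
    rw [← card_SG_one hF, ← Nat.card_prod]
    exact Nat.card_congr (MulAction.orbitProdStabilizerEquivGroup _ _)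
  have hno : ∀ a b : ℕ, r ∣ q ^ a * (q ^ 2 - 1) ^ b → False := by
    intro a b h
    rcases hr.prime.dvd_mul.1 h with h | h
    · exact hr.not_dvd_q (hr.prime.dvd_of_dvd_pow h)
    · exact hr.not_dvd (hr.prime.dvd_of_dvd_pow h)
  have hq := hF.one_lt
  by_cases hiso : herm q v v = 0
  · have horb : MulAction.orbit (SG 1 F q) (Submodule.span F {v}) = isoLines (1 + 2) F q := by
      ext L
      constructor
      · rintro ⟨g, rfl⟩
        exact mapL_mem g ⟨v, ⟨hv, hiso⟩, rfl⟩
      · rintro ⟨w, ⟨hw, hw0⟩, rfl⟩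
        obtain ⟨g, d, hd, e⟩ := exists_SUG_line hF hv hiso hw hw0
        exact ⟨g, by
          change mapL g _ = _
          rw [mapL_span, e]; exact Submodule.span_singleton_smul_eq (IsUnit.mk0 _ hd) _⟩
    rw [horb, card_isoLines hF, show isoN q (1 + 2) = q ^ 3 + 1 from isoN_three q] at hOS
    have : st = q ^ 3 * (q ^ 2 - 1) ^ 1 := by
      rw [pow_one]
      refine Nat.eq_of_mul_eq_mul_left (Nat.succ_pos (q ^ 3)) ?_
      change (q ^ 3 + 1) * st = (q ^ 3 + 1) * _
      rw [hOS]; ring
    exact hno _ _ (this ▸ hdvd)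
  · have horb : MulAction.orbit (SG 1 F q) (Submodule.span F {v}) =
        linesOf {v : Fin (1 + 2) → F | herm q v v ≠ 0} := by
      ext L
      constructor
      · rintro ⟨g, rfl⟩
        exact ⟨g.1.1 v, by change herm q (g.1.1 v) (g.1.1 v) ≠ 0; rw [UG_app]; exact hiso,
          mapL_span g v⟩
      · rintro ⟨w, hw, rfl⟩
        obtain ⟨d, hd⟩ := hF.exists_norm (c := herm q w w / herm q v v)
          (by rw [div_pow, hF.herm_symm, hF.herm_symm])
        have hd0 : d ≠ 0 := by
          rintro rfl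
          rw [zero_pow (Nat.succ_ne_zero q)] at hd
          exact div_ne_zero hw hiso hd.symm
        have hdv : herm q (d • v) (d • v) = herm q w w := by
          rw [herm_smul_left, herm_smul_right, ← mul_assoc, ← pow_succ', hd, div_mul_cancel₀ _ hiso]
        obtain ⟨g, hg⟩ := exists_SUG_map hF (by norm_num) (by rw [hdv]; exact hw) hdv
        refine ⟨g, ?_⟩
        change mapL g _ = _
        rw [← hg, mapL_span, map_smul]
        exact (Submodule.span_singleton_smul_eq (IsUnit.mk0 _ hd0) _).symm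
    rw [horb] at hOS
    have hl := card_linesOf hF {v : Fin (1 + 2) → F | herm q v v ≠ 0}
      (fun w hw h0 => hw (by rw [h0, herm_zero_left]))
      (fun w hw c hc => by
        change herm q (c • w) (c • w) ≠ 0
        rw [herm_smul_left, herm_smul_right]
        exact mul_ne_zero hc (mul_ne_zero (pow_ne_zero _ hc) hw))
    have h2 := card_noniso hF (1 + 2)
    rw [show isoN q (1 + 2) = q ^ 3 + 1 from isoN_three q] at h2
    change Nat.card {v : Fin (1 + 2) → F | herm q v v ≠ 0} + _ + _ = _ at h2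
    rw [← hl] at h2
    set S := Nat.card (linesOf {v : Fin (1 + 2) → F | herm q v v ≠ 0})
    have h1 : 1 ≤ q ^ 2 := Nat.one_le_pow _ _ (by omega)
    have e : (q - 1) * st = q ^ 1 * (q ^ 2 - 1) ^ 2 := by
      refine Nat.eq_of_mul_eq_mul_left (Nat.mul_pos (pow_pos (by omega : 0 < q) 2) (Nat.succ_pos (q ^ 3))) ?_
      have hq1 : 1 ≤ q := by omega
      zify [h1, hq1] at h2 hOS ⊢
      rw [show (q : ℤ) ^ (2 * (1 + 2)) = q ^ 6 from rfl] at h2
      linear_combination ((q : ℤ) ^ 2 - 1) * hOS - (st : ℤ) * h2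
    exact hno 1 2 (e ▸ Dvd.dvd.mul_left hdvd _)

/-- The centraliser and the normaliser of such an element. -/
theorem singer_bound {r : ℕ} (hr : SingerPrime q r) {x : SG 1 F q} (hx : orderOf x = r) :
    (∀ C : Subgroup (SG 1 F q), (∀ y ∈ C, y * x = x * y) →
      Nat.card C ∣ (q ^ 2 - q + 1) * Nat.gcd 3 (q + 1)) ∧
    ∀ (n : SG 1 F q) (i : ℕ), n * x * n⁻¹ = x ^ i →
      ∃ k : ℕ, i ≡ (q ^ 2) ^ k [MOD r] := by
  classical
  obtain ⟨hfin, hcard⟩ := id hF
  haveI := finite_SG hF
  have hq := hF.one_lt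
  let V := Fin (1 + 2) → F
  let X : Module.End F V := x.1.1.toLinearMap
  have hXapp : ∀ w, X w = x.1.1 w := fun _ => rfl
  set v₀ := eV hF 1
  have hv₀ : v₀ ≠ 0 := (pair_spec hF).1.ne_zero
  have hli : ∀ w : V, w ≠ 0 → LinearIndependent F ![w, X w, X (X w)] := by
    intro w hw
    have h2 : LinearIndependent F ![w, X w] := by
      rw [LinearIndependent.pair_iff' hw]
      exact fun c hc => no_eigen hF hr hx hw c hc.symm
    rw [show ![w, X w, X (X w)] = Fin.snoc ![w, X w] (X (X w)) by
      funext i; fin_cases i <;> rfl, linearIndependent_fin_snoc]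
    refine ⟨h2, fun hmem => ?_⟩
    set W := Submodule.span F (Set.range ![w, X w]) with hW
    have hXW : W.map X ≤ W := by
      rw [hW, Submodule.map_span, Submodule.span_le]
      rintro _ ⟨_, ⟨i, rfl⟩, rfl⟩
      fin_cases i
      · exact Submodule.subset_span ⟨1, rfl⟩
      · exact hmem
    have hWeq : W.map X = W := Submodule.eq_of_le_of_finrank_eq hXW
      (LinearEquiv.finrank_map_eq x.1.1 W)
    have hd := Forms.finrank_hperp hF W
    rw [finrank_span_eq_card h2, Fintype.card_fin] at hd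
    have hne : Forms.hperp q W ≠ ⊥ := fun h => by
      rw [h, finrank_bot] at hd; omega
    obtain ⟨z, hz, hz0⟩ := Submodule.exists_mem_ne_zero_of_ne_bot hne
    have hxz : X z ∈ Forms.hperp q W := fun u hu => by
      rw [← hWeq] at hu
      obtain ⟨u', hu', rfl⟩ := hu
      rw [hXapp, hXapp, UG_app]
      exact hz u' hu'
    obtain ⟨e, he⟩ : ∃ e : Forms.hperp q W, Module.finrank F (Forms.hperp q W) = 1 ∧ (e : V) = z :=
      ⟨⟨z, hz⟩, by omega, rfl⟩
    obtain ⟨he1, rfl⟩ := he
    obtain ⟨c, hc⟩ := (finrank_eq_one_iff_of_nonzero' e (fun h => hz0 (congrArg Subtype.val h))).1 he1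
      ⟨_, hxz⟩
    exact no_eigen hF hr hx hz0 c (congrArg Subtype.val hc).symm
  have hbasis : ∀ w : V, w ≠ 0 → ∀ u : V, ∃ a b c : F, u = a • w + b • X w + c • X (X w) := by
    intro w hw u
    have hsp := (hli w hw).span_eq_top_of_card_eq_finrank' (by rw [Module.finrank_fin_fun]; rfl)
    have hu : u ∈ Submodule.span F (Set.range ![w, X w, X (X w)]) := hsp ▸ Submodule.mem_top
    obtain ⟨g, rfl⟩ := (Submodule.mem_span_range_iff_exists_fun F).1 hu
    exact ⟨g 0, g 1, g 2, by simp [Fin.sum_univ_three]⟩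
  have hdet : ∀ A : Module.End F V, Commute A X → ∀ w : V, w ≠ 0 → A w = 0 → A = 0 := by
    intro A hA w hw h0
    have e : ∀ z, A (X z) = X (A z) := fun z => LinearMap.congr_fun hA z
    refine LinearMap.ext fun u => ?_
    obtain ⟨a, b, c, rfl⟩ := hbasis w hw u
    simp [e, h0]
  let Z := Algebra.adjoin F ({X} : Set (Module.End F V))
  have hZc : ∀ A ∈ Z, Commute A X := fun A hA =>
    Algebra.adjoin_induction (fun y hy => by rw [Set.mem_singleton_iff.1 hy])
      (fun a => Algebra.commute_algebraMap_left a X) (fun _ _ _ _ h1 h2 => h1.add_left h2)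
      (fun _ _ _ _ h1 h2 => h1.mul_left h2) hA
  have hXZ : X ∈ Z := Algebra.subset_adjoin rfl
  have hpoly : ∀ a b c : F, a • (1 : Module.End F V) + b • X + c • (X * X) ∈ Z := fun a b c =>
    add_mem (add_mem (Z.smul_mem (one_mem _) a) (Z.smul_mem hXZ b)) (Z.smul_mem (mul_mem hXZ hXZ) c)
  have hcomm : ∀ A : Module.End F V, Commute A X → A ∈ Z := by
    intro A hA
    obtain ⟨a, b, c, he⟩ := hbasis v₀ hv₀ (A v₀)
    have := hdet (A - (a • (1 : Module.End F V) + b • X + c • (X * X)))
      (hA.sub_left (hZc _ (hpoly a b c))) v₀ hv₀ (by simp [he])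
    rw [sub_eq_zero.1 this]; exact hpoly a b c
  letI instZ : CommRing Z :=
    { (inferInstance : Ring Z) with
      mul_comm := fun A B => Subtype.ext (by
        have key : ∀ C ∈ Z, Commute A.1 C := fun C hC =>
          Algebra.adjoin_induction (fun y hy => by rw [Set.mem_singleton_iff.1 hy]; exact hZc _ A.2)
            (fun a => Algebra.commute_algebraMap_right a _) (fun _ _ _ _ h1 h2 => h1.add_right h2)
            (fun _ _ _ _ h1 h2 => h1.mul_right h2) hC
        exact key B.1 B.2) }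
  haveI : Nontrivial Z := ⟨⟨0, 1, fun h => hv₀ (by
    have := LinearMap.congr_fun (congrArg Subtype.val h) v₀
    simpa using this.symm)⟩⟩
  haveI : NoZeroDivisors Z := ⟨fun {A B} h => by
    by_contra hne
    push Not at hne
    obtain ⟨w, hw⟩ : ∃ w, B.1 w ≠ 0 := by
      by_contra hh
      push Not at hh
      exact hne.2 (Subtype.ext (LinearMap.ext hh))
    exact hne.1 (Subtype.ext (hdet _ (hZc _ A.2) _ hw
      (LinearMap.congr_fun (congrArg Subtype.val h) w)))⟩
  haveI : IsDomain Z := NoZeroDivisors.to_isDomain Z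
  have hZcard : Nat.card Z = q ^ 6 := by
    have hb : Function.Bijective (fun A : Z => A.1 v₀) := by
      constructor
      · intro A B h
        exact Subtype.ext (sub_eq_zero.1 (hdet _ ((hZc _ A.2).sub_left (hZc _ B.2)) v₀ hv₀
          (sub_eq_zero.2 h)))
      · intro u
        obtain ⟨a, b, c, rfl⟩ := hbasis v₀ hv₀ u
        exact ⟨⟨_, hpoly a b c⟩, by simp⟩
    rw [Nat.card_eq_of_bijective _ hb, Nat.card_fun, Nat.card_fin, hcard, ← pow_mul]
  haveI : Finite Z := Nat.finite_of_card_ne_zero (by rw [hZcard]; exact pow_ne_zero _ (by omega))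
  letI : Fintype Z := Fintype.ofFinite Z
  letI : Field Z := Fintype.fieldOfDomain Z
  have hsc : ∀ A : Z, A ^ (q ^ 2 - 1) = 1 → ∃ c : F, ∀ w, A.1 w = c • w := by
    intro A hA
    by_contra hne
    push Not at hne
    have hinj : Function.Injective
        (fun o : Option {c : F // c ≠ 0} => (o.elim A fun c => algebraMap F Z c.1)) := by
      rintro (_ | c) (_ | c') h <;> simp only [Option.elim] at h
      · rfl
      · exfalso; obtain ⟨w, hw⟩ := hne c'.1; exact hw (by rw [h]; rfl)
      · exfalso; obtain ⟨w, hw⟩ := hne c.1; exact hw (by rw [← h]; rfl)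
      · rw [Subtype.ext ((algebraMap F Z).injective h)]
    have h1 : 0 < q ^ 2 - 1 := by
      have h4 : 2 ^ 2 ≤ q ^ 2 := Nat.pow_le_pow_left hq 2
      omega
    have hFpow : ∀ c : F, c ≠ 0 → c ^ (q ^ 2 - 1) = 1 := fun c hc => by
      haveI : Fintype F := Fintype.ofFinite F
      rw [← hcard, Nat.card_eq_fintype_card]
      exact FiniteField.pow_card_sub_one_eq_one c hc
    have h2 := Nat.card_le_card_of_injective
      (fun o : Option {c : F // c ≠ 0} => (⟨o.elim A fun c => algebraMap F Z c.1, by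
        rcases o with _ | c
        · exact hA
        · change algebraMap F Z c.1 ^ _ = 1
          rw [← map_pow, hFpow _ c.2, map_one]⟩ : {B : Z // B ^ (q ^ 2 - 1) = 1}))
      (fun o o' h => hinj (congrArg Subtype.val h))
    have h3 : Nat.card {B : Z // B ^ (q ^ 2 - 1) = 1} ≤ q ^ 2 - 1 := by
      have e : {B : Z | B ^ (q ^ 2 - 1) = 1} =
          ((Polynomial.nthRoots (q ^ 2 - 1) (1 : Z)).toFinset : Set Z) := by
        ext B; simp [Polynomial.mem_nthRoots h1]
      rw [show {B : Z // B ^ (q ^ 2 - 1) = 1} = ↥{B : Z | B ^ (q ^ 2 - 1) = 1} from rfl, e,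
        Nat.card_coe_set_eq, Set.ncard_coe_finset]
      exact (Multiset.toFinset_card_le _).trans (Polynomial.card_nthRoots _ _)
    have h4 : Nat.card {c : F // c ≠ 0} = q ^ 2 - 1 := by
      haveI : Fintype F := Fintype.ofFinite F
      rw [← hcard, Nat.card_eq_fintype_card, Nat.card_eq_fintype_card, Fintype.card_subtype_compl,
        Fintype.card_subtype_eq]
    rw [Finite.card_option, h4] at h2
    omega
  refine ⟨fun C hC => ?_, fun n i hn => ?_⟩
  · let ι : C →* Z :=
      { toFun := fun y => ⟨y.1.1.1.toLinearMap, hcomm _ (LinearMap.ext fun w => by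
          change y.1.1.1 (x.1.1 w) = x.1.1 (y.1.1.1 w)
          exact congrArg (fun g : SG 1 F q => g.1.1 w) (hC y.1 y.2))⟩
        map_one' := rfl
        map_mul' := fun _ _ => rfl }
    have hι : Function.Injective ι := fun y y' h => Subtype.ext (Subtype.ext (Subtype.ext
      (LinearEquiv.toLinearMap_injective (congrArg Subtype.val h))))
    haveI : IsCyclic C := isCyclic_of_subgroup_isDomain ι hι
    have hd6 : Nat.card C ∣ q ^ 6 - 1 := by
      refine (Subgroup.card_dvd_of_injective ι.toHomUnits (fun y y' h => hι (congrArg Units.val h))).trans ?_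
      rw [Nat.card_units, hZcard]
    have hdG : Nat.card C ∣ q ^ 3 * ((q ^ 3 + 1) * (q ^ 2 - 1)) := by
      rw [← mul_assoc, ← card_SG_one hF]
      exact Subgroup.card_subgroup_dvd_card C
    have h1 : 1 ≤ q ^ 3 := Nat.one_le_pow _ _ (by omega)
    have hcop : Nat.Coprime (Nat.card C) (q ^ 3) := by
      refine Nat.Coprime.pow_right 3 (Nat.Coprime.coprime_dvd_left hd6 ?_)
      rw [Nat.coprime_comm, Nat.Coprime, ← Nat.dvd_one]
      have h6 : 1 ≤ q ^ 6 := Nat.one_le_pow _ _ (by omega)
      have hd := Nat.dvd_sub (dvd_pow (Nat.gcd_dvd_left q (q ^ 6 - 1)) (show 6 ≠ 0 by norm_num))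
        (Nat.gcd_dvd_right q (q ^ 6 - 1))
      rwa [Nat.sub_sub_self h6] at hd
    have hdG' := hcop.dvd_of_dvd_mul_left hdG
    have h6eq : q ^ 6 - 1 = (q ^ 3 + 1) * (q ^ 3 - 1) := by
      have h6 : 1 ≤ q ^ 6 := Nat.one_le_pow _ _ (by omega)
      zify [h1, h6]; ring
    have hd3 : Nat.card C ∣ (q ^ 3 + 1) * (q - 1) := by
      have := Nat.dvd_gcd hdG' (h6eq ▸ hd6)
      rwa [Nat.gcd_mul_left, Nat.pow_sub_one_gcd_pow_sub_one, show Nat.gcd 2 3 = 1 from rfl,
        pow_one] at this
    have hΦ : (q ^ 3 + 1) * (q - 1) = (q ^ 2 - q + 1) * (q ^ 2 - 1) := by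
      have h2 : q ≤ q ^ 2 := Nat.le_self_pow two_ne_zero q
      have h3 : 1 ≤ q ^ 2 := le_trans (by omega) h2
      have hq1 : 1 ≤ q := by omega
      zify [h2, h3, hq1]; ring
    rw [← IsCyclic.exponent_eq_card (α := C), Monoid.exponent_dvd_iff_forall_pow_eq_one]
    intro y
    set z := y ^ (q ^ 2 - q + 1) with hz
    have hz1 : z ^ (q ^ 2 - 1) = 1 := by
      rw [hz, ← pow_mul, ← hΦ]
      exact orderOf_dvd_iff_pow_eq_one.1 ((orderOf_dvd_natCard y).trans hd3)
    rw [pow_mul, ← hz]
    obtain ⟨c, hc⟩ := hsc (ι z) (by rw [← map_pow, hz1, map_one])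
    have hc' : ∀ w, z.1.1.1 w = c • w := hc
    have hc3 : c ^ 3 = 1 := by
      have h := mem_SUG.1 z.1.2
      have h2 := congrArg Units.val h
      rwa [det_scalar z.1.1.1 hc'] at h2
    have hcN : c ^ (q + 1) = 1 := by
      have h := UG_app z.1.1 (eV hF 1) (fV hF 1)
      rw [hc', hc', herm_smul_left, herm_smul_right, h_ef hF, mul_one] at h
      rwa [pow_succ']
    have hcg : c ^ Nat.gcd 3 (q + 1) = 1 := pow_gcd_eq_one.2 ⟨hc3, hcN⟩
    have hpw : ∀ (j : ℕ) (w), (z ^ j).1.1.1 w = c ^ j • w := by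
      intro j
      induction j with
      | zero => intro w; simp
      | succ j ih =>
        intro w
        rw [pow_succ, Subgroup.coe_mul, Subgroup.coe_mul, Subgroup.coe_mul, LinearEquiv.mul_apply,
          hc', map_smul, ih, smul_smul, pow_succ']
    exact Subtype.ext (Subtype.ext (Subtype.ext (LinearEquiv.ext fun w => by
      rw [hpw, hcg, one_smul]; rfl)))
  · -- the conjugates are Frobenius images
    obtain ⟨p, k, hp, hcharP, hqk⟩ := hF.exists_char
    haveI := Fact.mk hp
    haveI : CharP Z p := charP_of_injective_algebraMap (algebraMap F Z).injective p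
    obtain ⟨a, b, c, habc⟩ := hbasis v₀ hv₀ (X (X (X v₀)))
    set Y : Z := ⟨X, hXZ⟩
    have hrel : X * X * X = a • (1 : Module.End F V) + b • X + c • (X * X) := by
      refine sub_eq_zero.1 (hdet _ ?_ v₀ hv₀ ?_)
      · exact (hZc _ (mul_mem (mul_mem hXZ hXZ) hXZ)).sub_left (hZc _ (hpoly a b c))
      · simpa [sub_eq_zero] using habc
    set al := algebraMap F Z a
    set be := algebraMap F Z b
    set ga := algebraMap F Z c
    let P : Z → Prop := fun T => T * T * T = al + be * T + ga * (T * T)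
    have hPY : P Y := Subtype.ext (by
      change X * X * X = algebraMap F (Module.End F V) a + algebraMap F (Module.End F V) b * X +
        algebraMap F (Module.End F V) c * (X * X)
      rw [hrel, Algebra.algebraMap_eq_smul_one, Algebra.algebraMap_eq_smul_one,
        Algebra.algebraMap_eq_smul_one, smul_mul_assoc, smul_mul_assoc, one_mul, one_mul])
    have hQ : ∀ T, P T → P (T ^ q ^ 2) := by
      intro T hT
      have hfix : ∀ e : F, algebraMap F Z e ^ q ^ 2 = algebraMap F Z e := fun e => by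
        rw [← map_pow, sq, pow_mul, hF.pow_pow]
      have h := congrArg (· ^ q ^ 2) hT
      rw [hqk, ← pow_mul, add_pow_char_pow, add_pow_char_pow, pow_mul, ← hqk] at h
      simp only [mul_pow, al, be, ga, hfix] at h
      exact h
    have hXpow : ∀ j : ℕ, (X ^ j : Module.End F V) = ((x ^ j).1.1).toLinearMap := by
      intro j
      induction j with
      | zero => rw [pow_zero, pow_zero]; rfl
      | succ j ih => rw [pow_succ, pow_succ, ih]; rfl
    have hYr : ∀ j : ℕ, Y ^ j = 1 ↔ r ∣ j := fun j => by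
      rw [← hx, orderOf_dvd_iff_pow_eq_one]
      constructor
      · intro h
        refine Subtype.ext (Subtype.ext (LinearEquiv.toLinearMap_injective ?_))
        rw [← hXpow]
        exact congrArg Subtype.val h
      · intro h
        refine Subtype.ext ?_
        rw [SubmonoidClass.coe_pow]
        change X ^ j = 1
        rw [hXpow, h]
        rfl
    have hY0 : Y ≠ 0 := fun h => by
      have hh : Y ^ r = 1 := (hYr r).2 dvd_rfl
      rw [h, zero_pow hr.prime.ne_zero] at hh
      exact zero_ne_one hh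
    have hpow_inj : ∀ s t : ℕ, s ≤ t → Y ^ s = Y ^ t → r ∣ t - s := by
      intro s t hst h
      rw [← hYr]
      refine mul_left_cancel₀ (pow_ne_zero s hY0) ?_
      rw [← pow_add, Nat.add_sub_cancel' hst, mul_one, h]
    have hmod : ∀ s t : ℕ, Y ^ s = Y ^ t → s ≡ t [MOD r] := by
      intro s t h
      rcases le_total s t with hst | hst
      · exact (Nat.modEq_iff_dvd' hst).2 (hpow_inj s t hst h)
      · exact ((Nat.modEq_iff_dvd' hst).2 (hpow_inj t s hst h.symm)).symm
    -- the conjugate is a root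
    have hPi : P (Y ^ i) := by
      have hconj : ∀ w, n.1.1 (X w) = (X ^ i : Module.End F V) (n.1.1 w) := fun w => by
        have e : n * x = x ^ i * n := mul_inv_eq_iff_eq_mul.1 hn
        have := congrArg (fun g : SG 1 F q => g.1.1 w) e
        simp only [Subgroup.coe_mul, LinearEquiv.mul_apply, SubmonoidClass.coe_pow] at this
        rw [hXapp, this]
        change (x.1.1 ^ i) (n.1.1 w) = _
        rw [LinearEquiv.coe_pow, Module.End.coe_pow]
        rfl
      refine Subtype.ext ?_
      change (X ^ i) * (X ^ i) * (X ^ i) = algebraMap F (Module.End F V) a +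
        algebraMap F (Module.End F V) b * X ^ i + algebraMap F (Module.End F V) c * (X ^ i * X ^ i)
      refine LinearMap.ext fun u => ?_
      obtain ⟨w, rfl⟩ := n.1.1.surjective u
      have := congrArg n.1.1 (LinearMap.congr_fun hrel w)
      simpa [map_add, hconj, Algebra.algebraMap_eq_smul_one] using this
    set Q := q ^ 2
    set R := (Polynomial.X ^ 3 - Polynomial.C ga * Polynomial.X ^ 2 - Polynomial.C be * Polynomial.X
      - Polynomial.C al : Polynomial Z) with hR
    have hdeg : R.natDegree = 3 := by rw [hR]; compute_degree!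
    have hR0 : R ≠ 0 := fun h => by rw [h, Polynomial.natDegree_zero] at hdeg; omega
    have hroot : ∀ T, P T → T ∈ R.roots.toFinset := fun T hT => by
      rw [Multiset.mem_toFinset, Polynomial.mem_roots hR0, Polynomial.IsRoot, hR]
      simp only [Polynomial.eval_sub, Polynomial.eval_pow, Polynomial.eval_X, Polynomial.eval_mul,
        Polynomial.eval_C]
      have hT' : T * T * T = al + be * T + ga * (T * T) := hT
      linear_combination hT'
    have hQ1 : P (Y ^ Q) := hQ _ hPY
    have hQ2 : P (Y ^ (Q * Q)) := by rw [pow_mul]; exact hQ _ hQ1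
    have hrQ : ¬ r ∣ Q - 1 := hr.not_dvd
    have hrQ2 : ¬ r ∣ Q * Q - 1 := by
      intro h
      have h4 : r ∣ q ^ 4 - 1 := by rwa [show q ^ 4 = Q * Q by simp [Q]; ring]
      have := Nat.dvd_gcd h4 (hr.dvd_six hF)
      rw [Nat.pow_sub_one_gcd_pow_sub_one] at this
      exact hr.not_dvd this
    have hQpos : 1 ≤ Q := Nat.one_le_pow _ _ (by omega)
    by_contra hno
    push Not at hno
    have key : ∀ s t : ℕ, s ≤ t → ¬ r ∣ t - s → Y ^ s ≠ Y ^ t := fun s t hst hnd h =>
      hnd (hpow_inj s t hst h)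
    have e1 : Y ^ 1 ≠ Y ^ Q := key 1 Q hQpos hrQ
    have e2 : Y ^ 1 ≠ Y ^ (Q * Q) := key 1 _ (Nat.mul_pos hQpos hQpos) hrQ2
    have e3 : Y ^ Q ≠ Y ^ (Q * Q) := key Q _ (Nat.le_mul_of_pos_right _ hQpos) (by
      rw [show Q * Q - Q = Q * (Q - 1) by rw [Nat.mul_sub, mul_one]]
      intro h
      rcases hr.prime.dvd_mul.1 h with h | h
      · exact hr.not_dvd_q (hr.prime.dvd_of_dvd_pow h)
      · exact hrQ h)
    have f1 : Y ^ i ≠ Y ^ 1 := fun h => hno 0 (by simpa using hmod _ _ h)
    have f2 : Y ^ i ≠ Y ^ Q := fun h => hno 1 (by simpa using hmod _ _ h)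
    have f3 : Y ^ i ≠ Y ^ (Q * Q) := fun h => hno 2 (by rw [pow_two]; exact hmod _ _ h)
    have hsub : ({Y ^ i, Y ^ 1, Y ^ Q, Y ^ (Q * Q)} : Finset Z) ⊆ R.roots.toFinset := by
      simp only [Finset.insert_subset_iff, Finset.singleton_subset_iff]
      exact ⟨hroot _ hPi, hroot _ (by rw [pow_one]; exact hPY), hroot _ hQ1, hroot _ hQ2⟩
    have hc4 : ({Y ^ i, Y ^ 1, Y ^ Q, Y ^ (Q * Q)} : Finset Z).card = 4 := by
      rw [Finset.card_insert_of_notMem (by
          simp only [Finset.mem_insert, Finset.mem_singleton, not_or]; exact ⟨f1, f2, f3⟩),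
        Finset.card_insert_of_notMem (by
          simp only [Finset.mem_insert, Finset.mem_singleton, not_or]; exact ⟨e1, e2⟩),
        Finset.card_pair e3]
    have := (Finset.card_le_card hsub).trans ((Multiset.toFinset_card_le _).trans
      (Polynomial.card_roots' R))
    omega

/-- A scalar of order dividing `gcd(3, q+1)` as large as possible. -/
theorem exists_central_gcd : ∃ z : SG 1 F q, z ∈ Subgroup.center (SG 1 F q) ∧
    orderOf z = Nat.gcd 3 (q + 1) := by
  obtain ⟨hfin, -⟩ := id hF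
  rcases (Nat.dvd_prime Nat.prime_three).1 (Nat.gcd_dvd_left 3 (q + 1)) with h | h
  · exact ⟨1, one_mem _, by rw [orderOf_one, h]⟩
  have h3 : 3 ∣ q + 1 := h ▸ Nat.gcd_dvd_right 3 (q + 1)
  haveI : Fact (Nat.Prime 3) := ⟨Nat.prime_three⟩
  haveI : Fintype F := Fintype.ofFinite F
  classical
  obtain ⟨u, hu⟩ := exists_prime_orderOf_dvd_card' (G := Fˣ) 3
    (by rw [hF.card_units]; exact Dvd.dvd.mul_left h3 _)
  have hu3 : (u : F) ^ 3 = 1 := by
    rw [← Units.val_pow_eq_pow_val, ← hu, pow_orderOf_eq_one, Units.val_one]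
  have huN : (u : F) ^ (q + 1) = 1 := by
    obtain ⟨j, hj⟩ := h3
    rw [hj, pow_mul, hu3, one_pow]
  let g : UG (1 + 2) F q := ⟨LinearEquiv.smulOfNeZero F (Fin (1 + 2) → F) (u : F) u.ne_zero,
    fun a b => by
      change herm q ((u : F) • a) ((u : F) • b) = _
      rw [herm_smul_left, herm_smul_right, ← mul_assoc, ← pow_succ', huN, one_mul]⟩
  have hg : g ∈ SUG (1 + 2) F q := mem_SUG.2 (Units.ext (by
    rw [det_scalar g.1 (c := (u : F)) (fun v => rfl), Units.val_one]; exact hu3))
  refine ⟨⟨g, hg⟩, Subgroup.mem_center_iff.2 fun t => SG_ext hF fun w => ?_, ?_⟩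
  · change t.1.1 ((u : F) • ph hF 1 w) = (u : F) • t.1.1 (ph hF 1 w)
    exact map_smul t.1.1 (u : F) _
  · rw [h]
    refine orderOf_eq_prime ?_ fun h1 => ?_
    · refine SG_ext hF fun w => ?_
      simp only [pow_succ, pow_zero, one_mul, Subgroup.coe_mul, Subgroup.coe_one,
        LinearEquiv.mul_apply, LinearEquiv.coe_one, id]
      change (u : F) • (u : F) • (u : F) • ph hF 1 w = ph hF 1 w
      rw [smul_smul, smul_smul, ← pow_three', hu3, one_smul]
    · have e : (u : F) • eV hF 1 = eV hF 1 := congrArg (fun s : SG 1 F q => s.1.1 (eV hF 1)) h1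
      have : (u : F) = 1 := smul_left_injective F (pair_spec hF).1.ne_zero (e.trans (one_smul F _).symm)
      rw [Units.val_eq_one.1 this, orderOf_one] at hu
      omega

set_option maxHeartbeats 1000000 in
/-- The Sylow normaliser of a subgroup meeting the torus. -/
theorem singer_count {r : ℕ} [Fact r.Prime] (hr : SingerPrime q r)
    (hr2 : ¬ r ^ 2 ∣ q ^ 3 * (q ^ 3 + 1) * (q ^ 2 - 1)) (K : Subgroup (SG 1 F q))
    (hz : Subgroup.center (SG 1 F q) ≤ K) (hrK : r ∣ Nat.card K) :
    ∃ (P : Sylow r K) (d : ℕ), d = Nat.card (Subgroup.normalizer (P : Set K)) ∧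
      d ∣ 3 * ((q ^ 2 - q + 1) * Nat.gcd 3 (q + 1)) ∧ Nat.gcd 3 (q + 1) * r ∣ d ∧ d ∣ Nat.card K ∧
      Nat.card K / d % r = 1 ∧
      (d = Nat.gcd 3 (q + 1) * r → Subgroup.normalizer (P : Set K) ≤
        Subgroup.centralizer (P : Set K)) := by
  classical
  obtain ⟨hfin, -⟩ := id hF
  haveI := finite_SG hF
  obtain ⟨P⟩ := (Sylow.nonempty : Nonempty (Sylow r K))
  set N := Subgroup.normalizer (P : Set K) with hN
  have hPcard : Nat.card P = r := by
    obtain ⟨j, hj⟩ := (IsPGroup.iff_card (p := r)).1 P.isPGroup'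
    have h1 : Nat.card P ∣ q ^ 3 * (q ^ 3 + 1) * (q ^ 2 - 1) := by
      rw [← card_SG_one hF]
      exact (Subgroup.card_subgroup_dvd_card _).trans (Subgroup.card_subgroup_dvd_card _)
    have h2 : r ∣ Nat.card P := by
      have h3 := Sylow.pow_dvd_card_of_pow_dvd_card P (n := 1) (by rwa [pow_one])
      rwa [pow_one] at h3
    rcases j with _ | _ | j
    · rw [hj, pow_zero, Nat.dvd_one] at h2; exact absurd h2 hr.prime.ne_one
    · rw [hj]; simp
    · exact absurd ((pow_dvd_pow r (show 2 ≤ j + 1 + 1 by omega)).trans (hj ▸ h1)) hr2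
  haveI : Fact (Nat.card P).Prime := ⟨(congrArg Nat.Prime hPcard).mpr hr.prime⟩
  haveI : IsCyclic P := isCyclic_of_prime_card rfl
  obtain ⟨⟨x, hxP⟩, hgen⟩ := IsCyclic.exists_zpow_surjective (G := P)
  have hxo : orderOf (x : SG 1 F q) = r := by
    rw [Subgroup.orderOf_coe, ← Subgroup.orderOf_mk x hxP]
    exact (orderOf_eq_card_of_forall_mem_zpowers fun y => hgen y).trans hPcard
  obtain ⟨hC, hNi⟩ := singer_bound hF hr hxo
  have hxgen : ∀ y ∈ (P : Subgroup K), ∃ j : ℕ, y = x ^ j := fun y hy => by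
    obtain ⟨j, hj⟩ := mem_powers_iff_mem_zpowers.2 (hgen ⟨y, hy⟩)
    exact ⟨j, (congrArg Subtype.val hj).symm⟩
  have hcent : ∀ n : K, n * x = x * n → n ∈ Subgroup.centralizer (P : Set K) := by
    intro n hn y hy
    obtain ⟨j, rfl⟩ := hxgen y hy
    exact ((show Commute n x from hn).pow_right j).eq.symm
  have hconj : ∀ n : N, ∃ i : ℕ, (n : K) * x * (n : K)⁻¹ = x ^ i := fun n =>
    hxgen _ ((Subgroup.mem_normalizer_iff.1 n.2 x).1 hxP)
  choose ex hex using hconj
  have hk : ∀ n : N, ∃ k : ℕ, ex n ≡ (q ^ 2) ^ k [MOD r] := fun n =>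
    hNi (n : K) (ex n) (congrArg Subtype.val (hex n))
  choose kk hkk using hk
  have hQ3 : (q ^ 2) ^ 3 ≡ 1 [MOD r] := by
    rw [← pow_mul]
    exact ((Nat.modEq_iff_dvd' (Nat.one_le_pow _ _ (by have := hF.one_lt; omega))).2
      (hr.dvd_six hF)).symm
  have hper : ∀ k : ℕ, (q ^ 2) ^ k ≡ (q ^ 2) ^ (k % 3) [MOD r] := fun k => by
    conv_lhs => rw [← Nat.div_add_mod k 3, pow_add, pow_mul]
    simpa using (hQ3.pow (k / 3)).mul_right ((q ^ 2) ^ (k % 3))
  have hxpow : ∀ a b : ℕ, a ≡ b [MOD r] → x ^ a = x ^ b := fun a b h => by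
    rw [pow_eq_pow_iff_modEq, ← Subgroup.orderOf_coe, hxo]; exact h
  have huniq : ∀ a b : ℕ, (q ^ 2) ^ a ≡ (q ^ 2) ^ b [MOD r] → a % 3 = b % 3 := by
    intro a b h
    have h' := ((hper a).symm.trans h).trans (hper b)
    have ha := Nat.mod_lt a (show 0 < 3 by norm_num)
    have hb := Nat.mod_lt b (show 0 < 3 by norm_num)
    have hno : ∀ s t : ℕ, s < t → t < 3 → ¬ (q ^ 2) ^ s ≡ (q ^ 2) ^ t [MOD r] := by
      intro s t hst ht hh
      have hcop : Nat.Coprime r ((q ^ 2) ^ s) :=
        (((Nat.Prime.coprime_iff_not_dvd hr.prime).2 hr.not_dvd_q).pow_right 2).pow_right s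
      have hd := (Nat.modEq_iff_dvd' (Nat.pow_le_pow_right (pow_pos (by have := hF.one_lt; omega) 2)
        hst.le)).1 hh
      rw [show (q ^ 2) ^ t = (q ^ 2) ^ s * (q ^ 2) ^ (t - s) by
        rw [← pow_add, Nat.add_sub_cancel' hst.le], ← Nat.mul_sub_one] at hd
      have hd' := hcop.dvd_of_dvd_mul_left hd
      rcases (show t - s = 1 ∨ t - s = 2 by omega) with e | e <;> rw [e] at hd'
      · rw [pow_one] at hd'; exact hr.not_dvd hd'
      · rw [← pow_mul] at hd'
        have := Nat.dvd_gcd hd' (hr.dvd_six hF)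
        rw [Nat.pow_sub_one_gcd_pow_sub_one] at this
        exact hr.not_dvd this
    rcases lt_trichotomy (a % 3) (b % 3) with hlt | heq | hgt
    · exact absurd h' (hno _ _ hlt hb)
    · exact heq
    · exact absurd h'.symm (hno _ _ hgt ha)
  let φ : N →* Multiplicative (ZMod 3) := MonoidHom.mk' (fun n => Multiplicative.ofAdd (kk n : ZMod 3))
    fun m n => by
      change Multiplicative.ofAdd _ = Multiplicative.ofAdd ((kk m : ZMod 3) + (kk n : ZMod 3))
      congr 1
      rw [← Nat.cast_add, ZMod.natCast_eq_natCast_iff']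
      apply huniq
      rw [pow_add]
      have e : x ^ ex (m * n) = x ^ (ex m * ex n) := by
        rw [← hex (m * n), pow_mul, ← hex m, conj_pow, ← hex n, Subgroup.coe_mul]; group
      rw [pow_eq_pow_iff_modEq, ← Subgroup.orderOf_coe, hxo] at e
      exact ((hkk (m * n)).symm.trans e).trans ((hkk m).mul (hkk n))
  let emb : N →* SG 1 F q := K.subtype.comp N.subtype
  have hker : Nat.card φ.ker ∣ (q ^ 2 - q + 1) * Nat.gcd 3 (q + 1) := by
    have hinj : Function.Injective emb := Subtype.val_injective.comp Subtype.val_injective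
    rw [← Subgroup.card_map_of_injective hinj]
    refine hC _ ?_
    rintro _ ⟨n, hn, rfl⟩
    have h0 : kk n % 3 = 0 := by
      have := MonoidHom.mem_ker.1 hn
      change Multiplicative.ofAdd ((kk n : ZMod 3)) = 1 at this
      have h2 : (kk n : ZMod 3) = ((0 : ℕ) : ZMod 3) := by
        rw [Nat.cast_zero]; exact this
      rw [ZMod.natCast_eq_natCast_iff'] at h2; simpa using h2
    have h1 : ex n ≡ 1 [MOD r] := by
      have := (hkk n).trans (hper (kk n))
      rwa [h0, pow_zero] at this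
    have e := hex n
    rw [hxpow _ _ h1, pow_one, mul_inv_eq_iff_eq_mul] at e
    exact congrArg Subtype.val e
  have hNdvd : Nat.card N ∣ 3 * ((q ^ 2 - q + 1) * Nat.gcd 3 (q + 1)) := by
    rw [Subgroup.card_eq_card_quotient_mul_card_subgroup φ.ker,
      Nat.card_congr (QuotientGroup.quotientKerEquivRange φ).toEquiv]
    refine Nat.mul_dvd_mul ?_ hker
    have := Subgroup.card_subgroup_dvd_card φ.range
    rwa [show Nat.card (Multiplicative (ZMod 3)) = 3 by simp] at this
  obtain ⟨z, hzc, hzo⟩ := exists_central_gcd hF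
  have hgr : Nat.gcd 3 (q + 1) * r ∣ Nat.card (Subgroup.centralizer (P : Set K)) := by
    set z' : K := ⟨z, hz hzc⟩
    have hzx : Commute z' x := Subtype.ext (Subgroup.mem_center_iff.1 hzc x.1).symm
    have hmem : z' * x ∈ Subgroup.centralizer (P : Set K) := hcent _ (by
      rw [← mul_assoc x, ← hzx.eq])
    have ho : orderOf (z' * x) = Nat.gcd 3 (q + 1) * r := by
      rw [hzx.orderOf_mul_eq_mul_orderOf_of_coprime] <;>
        rw [← Subgroup.orderOf_coe z', ← Subgroup.orderOf_coe x, hxo, hzo]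
      rw [Nat.coprime_comm, hr.prime.coprime_iff_not_dvd]
      intro h
      have hr3 : r = 3 := (Nat.prime_dvd_prime_iff_eq hr.prime Nat.prime_three).1
        (h.trans (Nat.gcd_dvd_left 3 (q + 1)))
      subst hr3
      refine hr.not_dvd ?_
      rcases (Nat.dvd_prime Nat.prime_three).1 (Nat.gcd_dvd_left 3 (q + 1)) with hg | hg
      · rw [hg] at h; norm_num at h
      · have h3 : 3 ∣ q + 1 := hg ▸ Nat.gcd_dvd_right 3 (q + 1)
        exact h3.trans ⟨q - 1, by simpa using Nat.sq_sub_sq q 1⟩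
    rw [← ho, ← Subgroup.orderOf_mk _ hmem]
    exact orderOf_dvd_natCard _
  have hCN : Subgroup.centralizer (P : Set K) ≤ N := Subgroup.centralizer_le_normalizer _
  refine ⟨P, Nat.card N, rfl, hNdvd, hgr.trans (Subgroup.card_dvd_of_le hCN),
    Subgroup.card_subgroup_dvd_card N, ?_, fun hd => ?_⟩
  · have h1 := card_sylow_modEq_one r K
    rw [P.card_eq_index_normalizer, ← hN] at h1
    rw [← Subgroup.index_mul_card N, Nat.mul_div_cancel _ Nat.card_pos, h1,
      Nat.mod_eq_of_lt hr.prime.one_lt]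
  · refine (Subgroup.eq_of_le_of_card_ge hCN ?_).ge
    rw [hd]; exact Nat.le_of_dvd Nat.card_pos hgr

end Cfsg.Agent.MinU3
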