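/-
No small action of the three-dimensional special unitary group, and the minimal index.
-/
import Mathlib
import Cfsg.Agent.MinU3.Lines
import Cfsg.Agent.MinU3.Singer
import Cfsg.Agent.MinU.Results

set_option autoImplicit false
set_option linter.unusedSectionVars false
set_option linter.style.haveILetI false

namespace Cfsg.Agent.MinU3

open Cfsg.Agent.Classical.U Cfsg.Agent.MinU

universe u v

variable {F : Type u} [Field F] {q : ℕ}
variable (hF : SqField F q)
include hF

variable {X : Type v} [UAct F q X 1] [Finite X] [MulAction.IsPretransitive (SG 1 F q) X]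

omit [Finite X] in
theorem card_mul_stab (x : X) : Nat.card X * Nat.card (MulAction.stabilizer (SG 1 F q) x) =
    q ^ 3 * (q ^ 3 + 1) * (q ^ 2 - 1) := by
  rw [← card_SG_one hF, ← Nat.card_prod,
    ← Nat.card_congr (MulAction.orbitProdStabilizerEquivGroup (SG 1 F q) x), Nat.card_prod,
    Nat.card_prod, Nat.card_coe_set_eq, MulAction.orbit_eq_univ, Set.ncard_univ]

/-- The arithmetic left by a prime of the torus. -/
theorem singer_exclude {r : ℕ} [Fact r.Prime] (hr : SingerPrime q r)
    (hr2 : ¬ r ^ 2 ∣ q ^ 3 * (q ^ 3 + 1) * (q ^ 2 - 1))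
    (hcen : ∀ z ∈ Subgroup.center (SG 1 F q), ∀ y : X, z • y = y) (x : X)
    (hn : ¬ r ∣ Nat.card X) :
    ∃ (P : Sylow r (MulAction.stabilizer (SG 1 F q) x)) (e : ℕ), e ∣ 3 * ((q ^ 2 - q + 1) / r) ∧
      Nat.card X * (Nat.gcd 3 (q + 1) * r * e) ∣ q ^ 3 * (q ^ 3 + 1) * (q ^ 2 - 1) ∧
      q ^ 3 * (q ^ 3 + 1) * (q ^ 2 - 1) / Nat.card X / (Nat.gcd 3 (q + 1) * r * e) % r = 1 ∧
      (e = 1 → Subgroup.normalizer (P : Set (MulAction.stabilizer (SG 1 F q) x)) ≤
        Subgroup.centralizer (P : Set (MulAction.stabilizer (SG 1 F q) x))) := by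
  haveI : Nonempty X := ⟨x⟩
  have hSK := card_mul_stab hF x
  have hrdvd : r ∣ q ^ 3 * (q ^ 3 + 1) * (q ^ 2 - 1) := by
    refine Dvd.dvd.mul_right (Dvd.dvd.mul_left (hr.dvd.trans ⟨q + 1, ?_⟩) _) _
    have h1 : q ≤ q ^ 2 := Nat.le_self_pow two_ne_zero q
    zify [h1]; ring
  have hrK : r ∣ Nat.card (MulAction.stabilizer (SG 1 F q) x) := by
    rw [← hSK] at hrdvd
    exact (hr.prime.dvd_mul.1 hrdvd).resolve_left hn
  obtain ⟨P, d, -, hd1, ⟨e, rfl⟩, hd3, hd4, hd5⟩ :=
    singer_count hF hr hr2 _ (fun z hz => hcen z hz x) hrK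
  refine ⟨P, e, ?_, ?_, ?_, fun he => hd5 (by rw [he, mul_one])⟩
  · obtain ⟨s, hs⟩ := hr.dvd
    rw [hs, Nat.mul_div_cancel_left _ hr.prime.pos]
    rw [hs, show 3 * (r * s * Nat.gcd 3 (q + 1)) = Nat.gcd 3 (q + 1) * r * (3 * s) by ring] at hd1
    exact Nat.dvd_of_mul_dvd_mul_left (Nat.mul_pos (Nat.gcd_pos_of_pos_left _ (by norm_num)) hr.prime.pos) hd1
  · rw [← hSK]; exact Nat.mul_dvd_mul_left _ hd3
  · rw [← hSK, Nat.mul_div_cancel_left _ Nat.card_pos]; exact hd4

/-- The last configuration at eleven. -/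
theorem eleven_absurd (h11 : q = 11) (hcen : ∀ z ∈ Subgroup.center (SG 1 F q), ∀ y : X, z • y = y)
    (hn : Nat.card X = 484) (hall : ∀ y : X, Kset hF y = ⊥ ∧ Nat.card (Aset hF y) = q) (x : X) :
    False := by
  classical
  subst h11
  obtain ⟨hfin, -⟩ := id hF
  haveI := finite_SG hF
  haveI : Fact (Nat.Prime 37) := ⟨by norm_num⟩
  set K := MulAction.stabilizer (SG 1 F 11) x with hK
  obtain ⟨P, e, he, hdvd, hmod, hcent⟩ := singer_exclude hF (r := 37)
    ⟨by norm_num, by norm_num, by norm_num, by norm_num⟩ (by norm_num) hcen x (by rw [hn]; norm_num)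
  have he1 : e = 1 := by
    rw [hn] at hdvd hmod
    norm_num at he hdvd hmod
    have hle : e ≤ 9 := Nat.le_of_dvd (by norm_num) he
    interval_cases e <;> first | omega | (norm_num at he; done) | (norm_num at hdvd; done) | (norm_num at hmod; done)
  have hP := hcent he1
  have hKcard : Nat.card K = 439560 := by
    have h := card_mul_stab hF x
    rw [hn] at h
    norm_num at h
    change 484 * Nat.card K = _ at h
    omega
  haveI : Finite K := Subtype.finite
  set M := (MonoidHom.transferSylow P hP).ker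
  have hM : Nat.card M ≤ 11880 := by
    have h := (MonoidHom.ker_transferSylow_isComplement' P hP).card_mul
    have h37 : 37 ∣ Nat.card P := by
      have h3 := Sylow.pow_dvd_card_of_pow_dvd_card P (n := 1) (by rw [pow_one, hKcard]; norm_num)
      rwa [pow_one] at h3
    have hge := Nat.le_of_dvd Nat.card_pos h37
    change Nat.card M * Nat.card P = _ at h
    rw [hKcard] at h
    have := Nat.mul_le_mul_left (Nat.card M) hge
    omega
  let U : SG 1 F 11 → Subgroup K := fun g => (conjRad hF g).subgroupOf K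
  have hU : ∀ g, Nat.card (U g) = 11 := fun g => (card_conjRad hF g x).trans (by
    rw [card_fixed_heis, (hall _).1, (hall _).2, AddSubgroup.card_bot, mul_one])
  have hUM : ∀ g, U g ≤ M := by
    intro g u hu
    rw [MonoidHom.mem_ker, ← orderOf_eq_one_iff]
    have h1 : orderOf (MonoidHom.transferSylow P hP u) ∣ 11 := by
      refine (orderOf_map_dvd _ u).trans ?_
      have h' := orderOf_dvd_natCard (⟨u, hu⟩ : U g)
      rwa [Subgroup.orderOf_mk, hU g] at h'
    obtain ⟨j, hj⟩ := (IsPGroup.iff_card (p := 37)).1 P.isPGroup'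
    have h2 : orderOf (MonoidHom.transferSylow P hP u) ∣ 37 ^ j := hj ▸ orderOf_dvd_natCard _
    exact Nat.eq_one_of_dvd_coprimes ((show Nat.Coprime 11 37 by norm_num).pow_right j) h1 h2
  have hline : ∀ L : isoLines (1 + 2) F 11, ∃ g : SG 1 F 11, mapL g (eLine hF 1) = L.1 := by
    intro L
    obtain ⟨g, hg⟩ := exists_mapL_eq hF L.2
    refine ⟨g⁻¹, ?_⟩
    rw [← hg, mapL_mapL hF, inv_mul_cancel]
    exact Submodule.map_id L.1
  choose gL hgL using hline
  let f : (Σ L : isoLines (1 + 2) F 11, {u : U (gL L) // u ≠ 1}) → M := fun s =>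
    ⟨(s.2.1 : K), hUM _ s.2.1.2⟩
  have hf : Function.Injective f := by
    rintro ⟨L, u, hu⟩ ⟨L', u', hu'⟩ h
    have h' : (u : K) = (u' : K) := congrArg (fun m : M => (m : K)) h
    obtain ⟨r, hr⟩ := (mem_conjRad hF).1 (Subgroup.mem_subgroupOf.1 u.2)
    obtain ⟨r', hr'⟩ := (mem_conjRad hF).1 (Subgroup.mem_subgroupOf.1 u'.2)
    rw [h'] at hr
    have hr'ne : tE hF r' ≠ 1 := fun h1 => hu' (Subtype.ext (Subtype.ext (by
      rw [← hr', h1, mul_one, mul_inv_cancel]; rfl)))
    set w := ((gL L')⁻¹ * gL L).1.1 (eV hF 1) with hw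
    have hfix : (tE hF r').1.1 w = w := by
      have e1 : tE hF r' * ((gL L')⁻¹ * gL L) = (gL L')⁻¹ * gL L * tE hF r := by
        calc tE hF r' * ((gL L')⁻¹ * gL L)
            = (gL L')⁻¹ * (gL L' * tE hF r' * (gL L')⁻¹) * gL L := by group
          _ = _ := by rw [hr', ← hr]; group
      rw [hw, ← SG_mul_apply hF, e1, SG_mul_apply hF, tE_eV]
    obtain ⟨c, hc⟩ := tE_fix_line hF hr'ne (by rw [hw, UG_app, h_ee hF]) hfix
    have hc0 : c ≠ 0 := by
      rintro rfl
      rw [zero_smul, hw] at hc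
      exact (pair_spec hF).1.ne_zero (((gL L')⁻¹ * gL L).1.1.injective (hc.trans (map_zero _).symm))
    have hLL : L = L' := by
      refine Subtype.ext (mapL_injective (gL L')⁻¹ ?_)
      rw [← hgL L, ← hgL L', mapL_mapL hF, mapL_mapL hF, inv_mul_cancel, eLine, mapL_span, mapL_span,
        ← hw, hc]
      change Submodule.span F {c • eV hF 1} = Submodule.span F {eV hF 1}
      exact Submodule.span_singleton_smul_eq (IsUnit.mk0 _ hc0) _
    subst hLL
    obtain rfl : u = u' := Subtype.ext h'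
    rfl
  have hcnt := Nat.card_le_card_of_injective f hf
  haveI : Finite (isoLines (1 + 2) F 11) := Subtype.finite
  haveI : Fintype (isoLines (1 + 2) F 11) := Fintype.ofFinite _
  have hne : ∀ g, Nat.card {u : U g // u ≠ 1} = 10 := by
    intro g
    haveI := Fintype.ofFinite (U g)
    rw [Nat.card_eq_fintype_card, Fintype.card_subtype_compl, Fintype.card_subtype_eq,
      ← Nat.card_eq_fintype_card, hU]
  rw [Nat.card_sigma, Finset.sum_congr rfl (fun L _ => hne (gL L)), Finset.sum_const,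
    Finset.card_univ, smul_eq_mul, ← Nat.card_eq_fintype_card, card_isoLines hF,
    show isoN 11 (1 + 2) = 11 ^ 3 + 1 from isoN_three 11] at hcnt
  omega

/-- No small transitive action. -/
theorem transitive_absurd (hq : 3 ≤ q) (h5 : q ≠ 5) [Nonempty X]
    (hnofix : ∀ y : X, ∃ g : SG 1 F q, g • y ≠ y)
    (hcen : ∀ z ∈ Subgroup.center (SG 1 F q), ∀ y : X, z • y = y) (hX : Nat.card X ≤ q ^ 3) :
    False := by
  obtain ⟨x⟩ := ‹Nonempty X›
  have hdiv : Nat.card X ∣ q ^ 3 * (q ^ 3 + 1) * (q ^ 2 - 1) := Dvd.intro _ (card_mul_stab hF x)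
  rcases count_cases hF hq hX hnofix with
    ⟨rfl, i, hi⟩ | ⟨rfl, i, hi⟩ | ⟨hfree, hn⟩ | ⟨h3, hodd, hall⟩
  · haveI : Fact (Nat.Prime 19) := ⟨by norm_num⟩
    have hi8 : i ≤ 8 := by norm_num at hX; omega
    have hpos : 0 < Nat.card X := Nat.card_pos
    obtain ⟨P, e, he, hdvd, hmod, -⟩ := singer_exclude hF (r := 19)
      ⟨by norm_num, by norm_num, by norm_num, by norm_num⟩ (by norm_num) hcen x (by
        rw [hi]; intro h
        have := (Nat.Prime.dvd_mul (by norm_num : Nat.Prime 19)).1 h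
        rcases this with h | h
        · norm_num at h
        · have := Nat.le_of_dvd (by omega) h; omega)
    rw [hi] at hdvd hmod
    norm_num at he hdvd hmod
    have hle : e ≤ 9 := Nat.le_of_dvd (by norm_num) he
    interval_cases i <;> interval_cases e <;> first | omega | (norm_num at he; done) | (norm_num at hdvd; done) | (norm_num at hmod; done)
  · haveI : Fact (Nat.Prime 73) := ⟨by norm_num⟩
    have hi8 : i ≤ 27 := by norm_num at hX; omega
    have hpos : 0 < Nat.card X := Nat.card_pos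
    obtain ⟨P, e, he, hdvd, hmod, -⟩ := singer_exclude hF (r := 73)
      ⟨by norm_num, by norm_num, by norm_num, by norm_num⟩ (by norm_num) hcen x (by
        rw [hi]; intro h
        have := (Nat.Prime.dvd_mul (by norm_num : Nat.Prime 73)).1 h
        rcases this with h | h
        · norm_num at h
        · have := Nat.le_of_dvd (by omega) h; omega)
    rw [hi] at hdvd hmod
    norm_num at he hdvd hmod
    have hle : e ≤ 3 := Nat.le_of_dvd (by norm_num) he
    interval_cases i <;> interval_cases e <;> first | omega | (norm_num at he; done) | (norm_num at hdvd; done) | (norm_num at hmod; done)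
  · obtain rfl := regular_case hF hq h5 hfree hn
    haveI : Fact (Nat.Prime 7) := ⟨by norm_num⟩
    obtain ⟨P, e, he, hdvd, hmod, -⟩ := singer_exclude hF (r := 7)
      ⟨by norm_num, by norm_num, by norm_num, by norm_num⟩ (by norm_num) hcen x (by rw [hn]; norm_num)
    rw [hn] at hdvd hmod
    norm_num at he hdvd hmod
    have hle : e ≤ 3 := Nat.le_of_dvd (by norm_num) he
    interval_cases e <;> first | omega | (norm_num at he; done) | (norm_num at hdvd; done) | (norm_num at hmod; done)
  · rcases line_case hF hq h5 hX h3 hodd hall with ⟨h11, hn⟩ | ⟨rfl, hn⟩ | ⟨rfl, hn⟩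
    · exact eleven_absurd hF h11 hcen hn hall x
    · haveI : Fact (Nat.Prime 13) := ⟨by norm_num⟩
      obtain ⟨P, e, he, hdvd, hmod, -⟩ := singer_exclude hF (r := 13)
        ⟨by norm_num, by norm_num, by norm_num, by norm_num⟩ (by norm_num) hcen x (by rw [hn]; norm_num)
      rw [hn] at hdvd hmod
      norm_num at he hdvd hmod
      have hle : e ≤ 63 := Nat.le_of_dvd (by norm_num) he
      interval_cases e <;> first | omega | (norm_num at he; done) | (norm_num at hdvd; done) | (norm_num at hmod; done)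
    · haveI : Fact (Nat.Prime 271) := ⟨by norm_num⟩
      obtain ⟨P, e, he, hdvd, hmod, -⟩ := singer_exclude hF (r := 271)
        ⟨by norm_num, by norm_num, by norm_num, by norm_num⟩ (by norm_num) hcen x (by rw [hn]; norm_num)
      rw [hn] at hdvd hmod
      norm_num at he hdvd hmod
      have hle : e ≤ 9 := Nat.le_of_dvd (by norm_num) he
      interval_cases e <;> first | omega | (norm_num at he; done) | (norm_num at hdvd; done) | (norm_num at hmod; done)

omit [UAct F q X 1] [Finite X] [MulAction.IsPretransitive (SG 1 F q) X] in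
/-- Every proper subgroup has index above `q ^ 3`. -/
theorem index_bound_three (hq : 3 ≤ q) (h5 : q ≠ 5) :
    ∀ H : Subgroup (Cfsg.PSU 3 F q), H ≠ ⊤ → q ^ 3 + 1 ≤ H.index := by
  obtain ⟨hfin, -⟩ := id hF
  intro H hH
  by_contra hlt
  push Not at hlt
  obtain ⟨φ⟩ := nonempty_PSU_equiv 3 F q
  let π : SG 1 F q →* Cfsg.PSU 3 F q := φ.symm.toMonoidHom.comp (QuotientGroup.mk' _)
  have hπ : Function.Surjective π := φ.symm.surjective.comp (QuotientGroup.mk'_surjective _)
  set K := H.comap π
  haveI := finite_SG hF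
  have hidx : K.index = H.index := Subgroup.index_comap_of_surjective H hπ
  have hcard : Nat.card (SG 1 F q ⧸ K) = H.index := by
    rw [← hidx]; exact (Subgroup.index_eq_card K).symm
  letI : UAct F q (SG 1 F q ⧸ K) 1 := ⟨inferInstance⟩
  haveI : MulAction.IsPretransitive (SG 1 F q) (SG 1 F q ⧸ K) :=
    inferInstanceAs (MulAction.IsPretransitive (SG 1 F q) (SG 1 F q ⧸ K))
  refine transitive_absurd hF (X := SG 1 F q ⧸ K) hq h5 ?_ ?_ (by rw [hcard]; omega)
  · intro y
    by_contra hy
    push Not at hy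
    refine hH (Subgroup.index_eq_one.1 ?_)
    rw [← hcard, Nat.card_eq_one_iff_unique]
    refine ⟨⟨fun a b => ?_⟩, ⟨y⟩⟩
    obtain ⟨g, hg⟩ := MulAction.exists_smul_eq (SG 1 F q) y a
    obtain ⟨g', hg'⟩ := MulAction.exists_smul_eq (SG 1 F q) y b
    rw [← hg, ← hg', hy, hy]
  · intro z hz y
    induction y using QuotientGroup.induction_on with
    | H g =>
      change ((z * g : SG 1 F q) : SG 1 F q ⧸ K) = (g : SG 1 F q ⧸ K)
      rw [QuotientGroup.eq, show (z * g)⁻¹ * g = z⁻¹ by
        rw [mul_inv_rev, Subgroup.mem_center_iff.1 (Subgroup.inv_mem _ hz) g⁻¹, inv_mul_cancel_right]]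
      have hz' : QuotientGroup.mk' (Subgroup.center (SG 1 F q)) z⁻¹ = 1 :=
        (QuotientGroup.eq_one_iff _).2 (Subgroup.inv_mem _ hz)
      change π z⁻¹ ∈ H
      have : π z⁻¹ = 1 := (congrArg φ.symm hz').trans (map_one _)
      rw [this]; exact one_mem H

end Cfsg.Agent.MinU3
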